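import Mathlib

/-! Feit–Higman, algebraic part.  `H01.FH.vs` (three-term recurrence), `H01.FH.key` (the eigenvalue
`λ` of the quasi-idempotent `E` is rational), `H01.FH.Hk` (Hecke relations with a trace),
`Hk.odd_rat`, `Hk.even_rat`, `Hk.main` (the braid length `m` lies in `{2,3,4,6,8}`). -/

set_option autoImplicit false
set_option linter.unusedSectionVars false

namespace H01
namespace FH

open Finset

/-- three-term recurrence -/
noncomputable def vs (x v1 : ℝ) : ℕ → ℝ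
  | 0 => 1
  | 1 => v1
  | n + 2 => x * vs x v1 (n + 1) - vs x v1 n

theorem vs_zero (x v1 : ℝ) : vs x v1 0 = 1 := rfl
theorem vs_one (x v1 : ℝ) : vs x v1 1 = v1 := rfl
theorem vs_add (x v1 : ℝ) (n : ℕ) : vs x v1 (n + 2) = x * vs x v1 (n + 1) - vs x v1 n := rfl

theorem vs_inv (x v1 : ℝ) (n : ℕ) :
    vs x v1 n ^ 2 - x * vs x v1 n * vs x v1 (n + 1) + vs x v1 (n + 1) ^ 2 = 1 - x * v1 + v1 ^ 2 := by
  induction n with
  | zero => simp [vs_zero, vs_one]
  | succ n ih => rw [vs_add, ← ih]; ring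

theorem vs_sum (x v1 : ℝ) (n : ℕ) :
    (4 - x ^ 2) * ∑ i ∈ range n, vs x v1 (i + 1) ^ 2 =
      2 * n * (1 - x * v1 + v1 ^ 2) + (vs x v1 n ^ 2 - vs x v1 (n + 1) ^ 2) - (1 - v1 ^ 2) := by
  induction n with
  | zero => simp [vs_zero, vs_one]
  | succ n ih =>
    rw [sum_range_succ, mul_add, ih, vs_add, ← vs_inv x v1 n]
    push_cast; ring

theorem vs_sin (θ v1 : ℝ) (n : ℕ) :
    Real.sin θ * vs (2 * Real.cos θ) v1 n = v1 * Real.sin (n * θ) - Real.sin ((n - 1) * θ) := by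
  have key : ∀ t : ℝ, Real.sin ((t + 1) * θ) = 2 * Real.cos θ * Real.sin (t * θ) - Real.sin ((t - 1) * θ) := by
    intro t
    rw [add_mul, sub_mul, one_mul, Real.sin_add, Real.sin_sub]; ring
  induction n using Nat.twoStepInduction with
  | zero => simp [vs_zero]
  | one => simp [vs_one]; ring
  | more n h0 h1 =>
    rw [vs_add, mul_sub, mul_left_comm, h0, h1]
    push_cast
    have e1 := key ((n : ℝ) + 1)
    have e2 := key (n : ℝ)
    rw [show (n : ℝ) + 1 + 1 = n + 2 by ring, show (n : ℝ) + 1 - 1 = n by ring] at e1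
    rw [show (n : ℝ) + 2 - 1 = n + 1 by ring, show (n : ℝ) + 1 - 1 = n by ring, e1, e2]
    ring

section key
variable {R : Type*} [Ring R] [Algebra ℝ R]

theorem key (τ : R →ₗ[ℝ] ℝ) (hτ : ∀ P : R, P * P = P → ∃ n : ℚ, τ P = n)
    (V : ℕ → R) (A : R) (κ μ x c : ℝ) (_hκ : κ ≠ 0)
    (hA : ∀ i, A * V (i + 1) = V (i + 2) + V i) (hA0 : κ • (A * V 0) = V 1 - (κ * μ) • V 0)
    (h0 : ∀ i, V 0 * V i = V i) (hA1 : A * V 0 = A) (n : ℕ)
    (hc : vs x (κ * (x + μ)) n • V (n + 1) - vs x (κ * (x + μ)) (n + 1) • V n +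
      c • (V (n + 2) + V n - x • V (n + 1)) = 0)
    (ht : ∀ i ≤ n, τ (V (i + 1)) = 0) (ht0 : ∃ N : ℚ, N ≠ 0 ∧ κ * τ (V 0) = N)
    (hl : κ + ∑ i ∈ range n, vs x (κ * (x + μ)) (i + 1) ^ 2 + c * vs x (κ * (x + μ)) (n + 1) ≠ 0) :
    ∃ l : ℚ, κ + ∑ i ∈ range n, vs x (κ * (x + μ)) (i + 1) ^ 2 + c * vs x (κ * (x + μ)) (n + 1) = l := by
  set v := vs x (κ * (x + μ)) with hv
  have hv0 : v 0 = 1 := rfl
  have hv1 : v 1 = κ * (x + μ) := rfl
  have hv2 : ∀ i, v (i + 2) = x * v (i + 1) - v i := fun _ => rfl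
  have hE : ∀ k, A * (κ • V 0 + ∑ i ∈ range k, v (i + 1) • V (i + 1)) =
      x • (κ • V 0 + ∑ i ∈ range k, v (i + 1) • V (i + 1)) + (v k • V (k + 1) - v (k + 1) • V k) := by
    intro k
    induction k with
    | zero =>
      simp only [range_zero, sum_empty, add_zero, mul_smul_comm, hA0, hv0, zero_add, hv1]
      module
    | succ k ih =>
      rw [sum_range_succ, ← add_assoc, mul_add, ih, mul_smul_comm, hA, hv2]
      module
  set E := κ • V 0 + ∑ i ∈ range n, v (i + 1) • V (i + 1) + c • V (n + 1) with hEd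
  have hAE : A * E = x • E := by
    rw [hEd, mul_add, hE, mul_smul_comm, hA, ← sub_eq_zero, ← hc]
    module
  have h0E : V 0 * E = E := by
    rw [hEd, mul_add, mul_add, mul_sum]
    simp only [mul_smul_comm, h0]
  have hVE : ∀ i, V i * E = v i • E := by
    intro i
    induction i using Nat.twoStepInduction with
    | zero => rw [h0E, hv0, one_smul]
    | one =>
      have : V 1 = κ • A + (κ * μ) • V 0 := by rw [← hA1, hA0]; simp
      rw [this, add_mul, smul_mul_assoc, smul_mul_assoc, hAE, h0E, hv1]; module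
    | more i a0 a1 =>
      have : V (i + 2) = A * V (i + 1) - V i := by rw [hA]; simp
      rw [this, sub_mul, mul_assoc, a1, a0, mul_smul_comm, hAE, hv2]; module
  set l := κ + ∑ i ∈ range n, v (i + 1) ^ 2 + c * v (n + 1) with hld
  have hEE : E * E = l • E := by
    conv_lhs => enter [1]; rw [hEd]
    rw [add_mul, add_mul, sum_mul]
    simp only [smul_mul_assoc, hVE, hv0, one_smul, hld, add_smul, sum_smul, smul_smul, sq]
  have hτE : τ E = κ * τ (V 0) := by
    rw [hEd, map_add, map_add, map_sum, map_smul, map_smul, ht n le_rfl, sum_eq_zero]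
    · simp
    · intro i hi
      rw [map_smul, ht i (by simp at hi; omega)]; simp
  obtain ⟨N, hN, hN'⟩ := ht0
  obtain ⟨k, hk⟩ := hτ (l⁻¹ • E) (by
    rw [smul_mul_assoc, mul_smul_comm, hEE, smul_smul, smul_smul]
    congr 1; field_simp)
  rw [map_smul, hτE, hN', smul_eq_mul] at hk
  have hk0 : (k : ℝ) ≠ 0 := by
    rw [← hk]; exact mul_ne_zero (inv_ne_zero hl) (by exact_mod_cast hN)
  refine ⟨N / k, ?_⟩
  push_cast
  rw [← hk]
  have : (N : ℝ) ≠ 0 := by exact_mod_cast hN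
  field_simp


/-- alternating product -/
def alt (a b : R) : ℕ → R
  | 0 => 1
  | n + 1 => a * alt b a n

theorem alt_even (a b : R) (i : ℕ) : alt a b (2 * i) = (a * b) ^ i := by
  induction i with
  | zero => simp [alt]
  | succ i ih => rw [show 2 * (i + 1) = 2 * i + 1 + 1 by ring, alt, alt, ih, pow_succ', mul_assoc]

theorem alt_odd (a b : R) (i : ℕ) : alt a b (2 * i + 1) = a * (b * a) ^ i := by
  rw [alt, alt_even]

theorem mul_pow_comm (a b : R) (i : ℕ) : a * (b * a) ^ i = (a * b) ^ i * a := by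
  induction i with
  | zero => simp
  | succ i ih => rw [pow_succ, ← mul_assoc, ih, pow_succ]; simp only [mul_assoc]

/-- Hecke relations with a trace -/
structure Hk (τ : R →ₗ[ℝ] ℝ) (a b : R) (p q N m : ℕ) : Prop where
  ha : a * a = ((p : ℝ) - 1) • a + (p : ℝ) • (1 : R)
  hb : b * b = ((q : ℝ) - 1) • b + (q : ℝ) • (1 : R)
  hp : 2 ≤ p
  hq : 2 ≤ q
  idem : ∀ P : R, P * P = P → ∃ n : ℚ, τ P = n
  comm : ∀ x y : R, τ (x * y) = τ (y * x)
  one : τ 1 = N
  hN : N ≠ 0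
  braid : alt a b m = alt b a m
  ta : τ a = 0
  tr : ∀ n, 1 ≤ n → n ≤ m → τ (alt b a n) = 0

/-- the idempotent `(a + 1) / (p + 1)` -/
noncomputable def fi (a : R) (p : ℕ) : R := ((p : ℝ) + 1)⁻¹ • (a + 1)

/-- the scaled distance matrices -/
noncomputable def VV (a b : R) (p : ℕ) (r : ℝ) (i : ℕ) : R :=
  (r ^ i)⁻¹ • (fi a p * ((a * b) ^ i * fi a p))

/-- the scaled adjacency matrix -/
noncomputable def AA (a b : R) (p q : ℕ) (r : ℝ) : R :=
  r⁻¹ • (((p : ℝ) + 1) • (fi a p * (b * fi a p)) - ((q : ℝ) - 1) • fi a p)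

namespace Hk
variable {τ : R →ₗ[ℝ] ℝ} {a b : R} {p q N m : ℕ} (h : Hk τ a b p q N m)
include h

theorem p1 : ((p : ℝ) + 1) ≠ 0 := by positivity
theorem p2 : (2 : ℝ) ≤ p := by exact_mod_cast h.hp
theorem q2 : (2 : ℝ) ≤ q := by exact_mod_cast h.hq

theorem af : a * fi a p = (p : ℝ) • fi a p := by
  rw [fi, mul_smul_comm, mul_add, h.ha, mul_one]; module

theorem fa : fi a p * a = (p : ℝ) • fi a p := by
  rw [fi, smul_mul_assoc, add_mul, h.ha, one_mul]; module

theorem sf (z : R) : ((p : ℝ) + 1) • (fi a p * z) = a * z + z := by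
  rw [fi, smul_mul_assoc, smul_smul, mul_inv_cancel₀ h.p1, one_smul, add_mul, one_mul]

theorem ff : fi a p * fi a p = fi a p := by
  have := h.sf (fi a p)
  rw [h.af] at this
  have h2 : ((p : ℝ) + 1) • (fi a p * fi a p) = ((p : ℝ) + 1) • fi a p := by rw [this]; module
  exact smul_right_injective _ h.p1 h2

theorem ffz (z : R) : fi a p * (fi a p * z) = fi a p * z := by rw [← mul_assoc, h.ff]
theorem faz (z : R) : fi a p * (a * z) = (p : ℝ) • (fi a p * z) := by
  rw [← mul_assoc, h.fa, smul_mul_assoc]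
theorem bbz (z : R) : b * (b * z) = ((q : ℝ) - 1) • (b * z) + (q : ℝ) • z := by
  rw [← mul_assoc, h.hb, add_mul, smul_mul_assoc, smul_mul_assoc, one_mul]

theorem U_succ (i : ℕ) : fi a p * ((a * b) ^ (i + 1) * fi a p) =
    (p : ℝ) • (fi a p * (b * ((a * b) ^ i * fi a p))) := by
  rw [pow_succ', mul_assoc, mul_assoc, h.faz]

theorem AY (i : ℕ) : (((p : ℝ) + 1) • (fi a p * (b * fi a p)) - ((q : ℝ) - 1) • fi a p) *
    (fi a p * (b * ((a * b) ^ i * fi a p))) =
      fi a p * (b * ((a * b) ^ (i + 1) * fi a p)) + (q : ℝ) • (fi a p * ((a * b) ^ i * fi a p)) := by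
  rw [sub_mul, smul_mul_assoc, smul_mul_assoc, h.ffz, mul_assoc, mul_assoc, h.ffz, ← mul_smul_comm,
    ← mul_smul_comm, h.sf, mul_add, mul_add, h.bbz, pow_succ', mul_assoc, mul_assoc, mul_add,
    mul_smul_comm, mul_smul_comm]
  module

variable {r : ℝ} (hr0 : 0 < r) (hr : r ^ 2 = p * q)
include hr0 hr

theorem hA (i : ℕ) : AA a b p q r * VV a b p r (i + 1) = VV a b p r (i + 2) + VV a b p r i := by
  rw [AA, VV, VV, VV, h.U_succ, h.U_succ (i + 1), smul_mul_assoc, mul_smul_comm, mul_smul_comm, h.AY]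
  have : r ≠ 0 := hr0.ne'
  have e : r⁻¹ * (r ^ (i + 1))⁻¹ * p * q = (r ^ i)⁻¹ := by
    rw [mul_assoc, ← hr]; field_simp; ring
  rw [← e]
  have e2 : (r ^ (i + 2))⁻¹ = r⁻¹ * (r ^ (i + 1))⁻¹ := by field_simp; ring
  rw [e2]
  module

theorem hA1 : AA a b p q r * VV a b p r 0 = AA a b p q r := by
  rw [AA, VV]
  simp only [pow_zero, inv_one, one_smul, one_mul, h.ff, smul_mul_assoc, sub_mul, mul_assoc]

theorem hA0 : ((p : ℝ) / (p + 1)) • (AA a b p q r * VV a b p r 0) =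
    VV a b p r 1 - ((p : ℝ) / (p + 1) * ((q - 1) / r)) • VV a b p r 0 := by
  rw [h.hA1 hr0 hr, AA, VV, VV, h.U_succ 0]
  simp only [pow_zero, inv_one, one_smul, one_mul, h.ff, pow_one, smul_sub, smul_smul]
  have := h.p1
  congr 2
  · field_simp
  · field_simp

omit hr0 hr in
theorem h0 (i : ℕ) : VV a b p r 0 * VV a b p r i = VV a b p r i := by
  rw [VV, VV]
  simp only [pow_zero, inv_one, one_smul, one_mul, h.ff, mul_smul_comm, h.ffz]

omit hr0 hr in
theorem ht (i : ℕ) (hi : 2 * i + 2 ≤ m) : τ (VV a b p r (i + 1)) = 0 := by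
  rw [VV, h.U_succ, map_smul, map_smul, h.comm, mul_assoc, mul_assoc, h.ff]
  have : τ (b * ((a * b) ^ i * fi a p)) = 0 := by
    rw [fi, mul_smul_comm, mul_smul_comm, map_smul, mul_add, mul_add, mul_one, map_add,
      ← alt_odd, h.tr _ (by omega) (by omega), ← mul_pow_comm, ← mul_assoc, ← pow_succ', ← alt_even,
      h.tr _ (by omega) (by omega)]
    simp
  rw [this]; simp

omit hr0 hr in
theorem ht0 : ∃ N' : ℚ, N' ≠ 0 ∧ (p : ℝ) / (p + 1) * τ (VV a b p r 0) = N' := by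
  refine ⟨(p : ℚ) / (p + 1) * (((p : ℚ) + 1)⁻¹ * N), ?_, ?_⟩
  · have := h.hN
    have := h.hp
    positivity
  · rw [VV]
    simp only [pow_zero, inv_one, one_smul, one_mul, h.ff]
    rw [fi, map_smul, map_add, h.ta, h.one]
    push_cast; simp

theorem even_rat {k : ℕ} (hm : m = 2 * (k + 1)) (x : ℝ)
    (h1 : vs x (p / (p + 1) * (x + (q - 1) / r)) (k + 1) ^ 2 = 1)
    (h2 : vs x (p / (p + 1) * (x + (q - 1) / r)) (k + 2) =
      vs x (p / (p + 1) * (x + (q - 1) / r)) (k + 1) * (p / (p + 1) * (x + (q - 1) / r))) :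
    ∃ ρ : ℚ, ρ * (4 - x ^ 2) = ((p * q + 1) * (p + q) - 4 * p * q) + (p - 1) * (q - 1) * (r * x) := by
  have hp2 := h.p2
  have hq2 := h.q2
  have hp1 := h.p1
  have hr' : r ≠ 0 := hr0.ne'
  set v := vs x (p / (p + 1) * (x + (q - 1) / r)) with hv
  have hbr : (a * b) ^ (k + 1) = (b * a) ^ (k + 1) := by
    have := h.braid
    rwa [hm, alt_even, alt_even] at this
  have hV : VV a b p r (k + 2) = (p * (q - 1) / r : ℝ) • VV a b p r (k + 1) + (p : ℝ) • VV a b p r k := by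
    rw [VV, VV, VV, h.U_succ (k + 1), h.U_succ k, hbr, pow_succ' (b * a), mul_assoc b a, mul_pow_comm,
      mul_assoc, mul_assoc, h.af, mul_smul_comm, h.bbz]
    simp only [mul_smul_comm, mul_add, smul_add, smul_smul]
    congr 2
    · field_simp; ring
    · have : (q : ℝ) = r ^ 2 / p := by rw [hr]; field_simp
      rw [this]; field_simp; ring
  have hvk : v k = x * v (k + 1) - v (k + 2) := by
    have : v (k + 2) = x * v (k + 1) - v k := rfl
    rw [this]; ring
  have hl : (p : ℝ) / (p + 1) + ∑ i ∈ range k, v (i + 1) ^ 2 + v (k + 1) / (p + 1) * v (k + 1) =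
      ∑ i ∈ range (k + 1), v (i + 1) ^ 2 := by
    rw [sum_range_succ, div_mul_eq_mul_div, ← sq, h1]; field_simp; ring
  obtain ⟨l, hl'⟩ := key τ h.idem (VV a b p r) (AA a b p q r) (p / (p + 1)) ((q - 1) / r) x
    (v (k + 1) / (p + 1)) (by positivity) (h.hA hr0 hr) (h.hA0 hr0 hr) h.h0 (h.hA1 hr0 hr) k
    (by
      rw [← hv, hV, hvk, h2]
      match_scalars
      · field_simp; ring
      · field_simp; ring)
    (fun i hi => h.ht i (by omega)) h.ht0
    (by
      rw [← hv, hl, sum_range_succ, h1]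
      positivity)
  rw [← hv, hl] at hl'
  have hs := vs_sum x (p / (p + 1) * (x + (q - 1) / r)) (k + 1)
  rw [← hv, hl', h2, mul_pow (v (k + 1)), h1] at hs
  refine ⟨(l * (p + 1) ^ 2 * q - 2 * (k + 1) * p * q) / (2 * (k + 1)), ?_⟩
  push_cast at hs ⊢
  have hI : (1 - x * (p / (p + 1) * (x + (q - 1) / r)) + (p / (p + 1) * (x + (q - 1) / r)) ^ 2) *
      ((p + 1) ^ 2 * q) = (p * q + 1 - r * x) * (p + q + r * x) := by
    have : (q : ℝ) = r ^ 2 / p := by rw [hr]; field_simp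
    rw [this]; field_simp; ring
  have hk : (2 * ((k : ℝ) + 1)) ≠ 0 := by positivity
  rw [div_mul_eq_mul_div, div_eq_iff hk]
  linear_combination ((p : ℝ) + 1) ^ 2 * q * hs + 2 * ((k : ℝ) + 1) * hI - 2 * ((k : ℝ) + 1) * x ^ 2 * hr

omit hr0 hr in
theorem p_eq_q {k : ℕ} (hm : m = 2 * k + 1) (tb : τ b = 0) : p = q := by
  have hp2 := h.p2
  have hq2 := h.q2
  have ua : IsUnit a := by
    refine ⟨⟨a, (p : ℝ)⁻¹ • (a - ((p : ℝ) - 1) • 1), ?_, ?_⟩, rfl⟩
    · rw [mul_smul_comm, mul_sub, h.ha, mul_smul_comm, mul_one, add_sub_cancel_left, smul_smul,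
        inv_mul_cancel₀ (by positivity), one_smul]
    · rw [smul_mul_assoc, sub_mul, h.ha, smul_mul_assoc, one_mul, add_sub_cancel_left, smul_smul,
        inv_mul_cancel₀ (by positivity), one_smul]
  have ub : IsUnit b := by
    refine ⟨⟨b, (q : ℝ)⁻¹ • (b - ((q : ℝ) - 1) • 1), ?_, ?_⟩, rfl⟩
    · rw [mul_smul_comm, mul_sub, h.hb, mul_smul_comm, mul_one, add_sub_cancel_left, smul_smul,
        inv_mul_cancel₀ (by positivity), one_smul]
    · rw [smul_mul_assoc, sub_mul, h.hb, smul_mul_assoc, one_mul, add_sub_cancel_left, smul_smul,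
        inv_mul_cancel₀ (by positivity), one_smul]
  have hbr := h.braid
  rw [hm, alt_odd, alt_odd] at hbr
  set w := a * (b * a) ^ k with hw
  have uw : IsUnit w := ua.mul ((ub.mul ua).pow k)
  have hc : a * w = w * b := by
    conv_lhs => rw [hbr, ← mul_assoc, ← pow_succ']
    rw [hw, mul_pow_comm, mul_assoc, ← pow_succ]
  have h1 : w * (b * b) = w * (((p : ℝ) - 1) • b + (p : ℝ) • (1 : R)) := by
    rw [← mul_assoc, ← hc, mul_assoc, ← hc, ← mul_assoc, h.ha, add_mul, mul_add, smul_mul_assoc,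
      smul_mul_assoc, mul_smul_comm, mul_smul_comm, hc, one_mul, mul_one]
  have h2 := congrArg τ (uw.mul_left_cancel h1)
  rw [h.hb] at h2
  simp only [map_add, map_smul, tb, h.one, smul_eq_mul, mul_zero, zero_add] at h2
  have hN : (N : ℝ) ≠ 0 := by exact_mod_cast h.hN
  exact_mod_cast (mul_right_cancel₀ hN h2).symm

omit hr0 hr in
theorem odd_rat {k : ℕ} (hm : m = 2 * (k + 1) + 1) (x : ℝ) (hx : x ^ 2 < 4)
    (h2 : vs x ((p * x + p - 1) / (p + 1)) (k + 2) = p * vs x ((p * x + p - 1) / (p + 1)) (k + 1)) :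
    ∃ ρ : ℚ, x = ρ := by
  have hpq : p = q := h.p_eq_q hm (by simpa [alt] using h.tr 1 le_rfl (by omega))
  subst hpq
  have hp2 := h.p2
  have hp1 := h.p1
  have hr0 : (0 : ℝ) < p := by linarith
  have hr : (p : ℝ) ^ 2 = p * p := sq _
  have e1 : ((p : ℝ) * x + p - 1) / (p + 1) = p / (p + 1) * (x + (p - 1) / p) := by field_simp; ring
  rw [e1] at h2
  set v := vs x (p / (p + 1) * (x + (p - 1) / p)) with hv
  have hbr := h.braid
  rw [hm, alt_odd, alt_odd] at hbr
  have hV : VV a b p p (k + 2) = (p : ℝ) • VV a b p p (k + 1) := by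
    rw [VV, VV, h.U_succ (k + 1), ← mul_assoc b, ← hbr, mul_pow_comm, mul_assoc, h.af]
    simp only [mul_smul_comm, smul_smul]
    congr 1
    field_simp; ring
  have hv2 : v (k + 2) = x * v (k + 1) - v k := rfl
  obtain ⟨l, hl'⟩ := key τ h.idem (VV a b p p) (AA a b p p p) (p / (p + 1)) ((p - 1) / p) x
    (v (k + 1)) (by positivity) (h.hA hr0 hr) (h.hA0 hr0 hr) h.h0 (h.hA1 hr0 hr) k
    (by
      rw [← hv, hV]
      match_scalars
      · linear_combination hv2 - h2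
      · ring)
    (fun i hi => h.ht i (by omega)) h.ht0
    (by
      rw [← hv, ← sq]
      positivity)
  rw [← hv, ← sq, add_assoc, ← sum_range_succ (fun i => v (i + 1) ^ 2)] at hl'
  have hs := vs_sum x (p / (p + 1) * (x + (p - 1) / p)) (k + 1)
  have hI := vs_inv x (p / (p + 1) * (x + (p - 1) / p)) (k + 1)
  rw [← hv, h2, ← e1] at hs hI
  have hx1 : x < 2 := by nlinarith
  have hx2 : -2 < x := by nlinarith
  have hD : (0 : ℝ) < p ^ 2 + 1 - p * x := by nlinarith
  have hI2 : (1 - x * ((p * x + p - 1) / (p + 1)) + ((p * x + p - 1) / (p + 1)) ^ 2) * ((p : ℝ) + 1) ^ 2 =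
      (x + 2) * (p ^ 2 + 1 - p * x) := by field_simp; ring
  have hvk : v (k + 1) ^ 2 * ((p : ℝ) + 1) ^ 2 = x + 2 := by
    apply mul_right_cancel₀ hD.ne'
    linear_combination ((p : ℝ) + 1) ^ 2 * hI + hI2
  have hS : ∑ i ∈ range (k + 1), v (i + 1) ^ 2 = l - p / (p + 1) := by linarith
  rw [hS] at hs
  have hv1 : (1 - (((p : ℝ) * x + p - 1) / (p + 1)) ^ 2) * ((p : ℝ) + 1) ^ 2 = -((p * x - 2) * p * (x + 2)) := by
    field_simp; ring
  have hpp : (p : ℝ) / (p + 1) * (p + 1) = p := by field_simp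
  have main : (l : ℝ) * (p + 1) ^ 2 * (2 - x) = (2 * (k + 1) + 1) * (p ^ 2 + 1 - p * x) := by
    apply mul_left_cancel₀ (show x + 2 ≠ 0 by linarith)
    push_cast at hs
    linear_combination ((p : ℝ) + 1) ^ 2 * hs + 2 * ((k : ℝ) + 1) * hI2 + (1 - (p : ℝ) ^ 2) * hvk - hv1 +
      (4 - x ^ 2) * ((p : ℝ) + 1) * hpp
  have hne : (2 * ((k : ℝ) + 1) + 1) * p - l * (p + 1) ^ 2 ≠ 0 := by
    intro h0
    have h3 : (2 * ((k : ℝ) + 1) + 1) * (p - 1) ^ 2 = 0 := by linear_combination (x - 2) * h0 - main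
    have : (0 : ℝ) < (2 * ((k : ℝ) + 1) + 1) * (p - 1) ^ 2 := by
      have : (0 : ℝ) < p - 1 := by linarith
      positivity
    linarith
  refine ⟨((2 * ((k : ℚ) + 1) + 1) * (p ^ 2 + 1) - 2 * l * (p + 1) ^ 2) /
    ((2 * ((k : ℚ) + 1) + 1) * p - l * (p + 1) ^ 2), ?_⟩
  push_cast
  rw [eq_div_iff hne]
  linear_combination main

omit hr0 hr in
theorem odd_main {k : ℕ} (hm : m = 2 * (k + 1) + 1) : m = 3 := by
  have hm0 : (0 : ℝ) < m := by rw [hm]; positivity
  have hm3 : (3 : ℝ) ≤ m := by rw [hm]; push_cast; have : (0 : ℝ) ≤ k := by positivity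
                               linarith
  set θ : ℝ := ((2 / m : ℚ) : ℝ) * Real.pi with hθ
  have hθ' : θ = 2 * Real.pi / m := by rw [hθ]; push_cast; ring
  have hθ0 : 0 < θ := by rw [hθ']; have := Real.pi_pos; positivity
  have hθ1 : θ < Real.pi := by
    rw [hθ', div_lt_iff₀ hm0]; have := Real.pi_pos; nlinarith
  have hs : 0 < Real.sin θ := Real.sin_pos_of_pos_of_lt_pi hθ0 hθ1
  have hmθ : ((k : ℝ) + 2) * θ = 2 * Real.pi - (k + 1) * θ := by
    have : (m : ℝ) * θ = 2 * Real.pi := by rw [hθ']; field_simp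
    rw [← this, hm]; push_cast; ring
  have hS : Real.sin (((k : ℝ) + 2) * θ) = - Real.sin (((k : ℝ) + 1) * θ) := by
    rw [hmθ, Real.sin_two_pi_sub]
  have hS' : Real.sin ((k : ℝ) * θ) = (2 * Real.cos θ + 1) * Real.sin (((k : ℝ) + 1) * θ) := by
    have a1 : ((k : ℝ) + 2) * θ = ((k : ℝ) + 1) * θ + θ := by ring
    have a2 : (k : ℝ) * θ = ((k : ℝ) + 1) * θ - θ := by ring
    rw [a1, Real.sin_add] at hS
    rw [a2, Real.sin_sub]
    linear_combination -hS
  obtain ⟨ρ, hρ⟩ := h.odd_rat hm (2 * Real.cos θ) (by nlinarith [Real.sin_sq_add_cos_sq θ]) (by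
    apply mul_left_cancel₀ hs.ne'
    rw [mul_left_comm (Real.sin θ), vs_sin, vs_sin]
    push_cast
    rw [hS, show (k : ℝ) + 2 - 1 = k + 1 by ring, show (k : ℝ) + 1 - 1 = k by ring, hS']
    have := h.p1
    field_simp; ring)
  have := niven_angle_div_pi_eq (r := 2 / m) ⟨ρ / 2, by rw [← hθ]; push_cast; linarith⟩ (by
    constructor
    · positivity
    · rw [div_le_one (by exact_mod_cast hm0)]; exact_mod_cast (by omega : 2 ≤ m))
  have hmq : (m : ℚ) ≠ 0 := by exact_mod_cast hm0.ne'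
  simp only [Set.mem_insert_iff, Set.mem_singleton_iff] at this
  rcases this with h1 | h1 | h1 | h1 | h1 <;> field_simp at h1
  all_goals (norm_num at h1)
  all_goals (first | (have : m = 6 := by exact_mod_cast h1.symm) | (have : m = 4 := by exact_mod_cast h1.symm) | (have : m = 3 := by exact_mod_cast h1.symm) | (have : m = 2 := by exact_mod_cast h1.symm))
  all_goals omega

omit hr0 hr in
theorem even_trig {k : ℕ} (hm : m = 2 * (k + 1)) {r : ℝ} (hr0 : 0 < r) (hr : r ^ 2 = p * q) (θ : ℝ)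
    (hs : Real.sin θ ≠ 0) (hk : Real.sin (((k : ℝ) + 1) * θ) = 0) :
    ∃ ρ : ℚ, ρ * (4 - (2 * Real.cos θ) ^ 2) =
      ((p * q + 1) * (p + q) - 4 * p * q) + (p - 1) * (q - 1) * (r * (2 * Real.cos θ)) := by
  have a1 : ((k : ℝ) + 2) * θ = ((k : ℝ) + 1) * θ + θ := by ring
  have a2 : (k : ℝ) * θ = ((k : ℝ) + 1) * θ - θ := by ring
  have hc : Real.cos (((k : ℝ) + 1) * θ) ^ 2 = 1 := by
    have := Real.sin_sq_add_cos_sq (((k : ℝ) + 1) * θ)
    rw [hk] at this; linarith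
  have e1 : ∀ v1, vs (2 * Real.cos θ) v1 (k + 1) = Real.cos (((k : ℝ) + 1) * θ) := by
    intro v1
    apply mul_left_cancel₀ hs
    rw [vs_sin]; push_cast
    rw [hk, show (k : ℝ) + 1 - 1 = k by ring, a2, Real.sin_sub, hk]; ring
  refine h.even_rat hr0 hr hm _ (by rw [e1, hc]) ?_
  apply mul_left_cancel₀ hs
  rw [e1, vs_sin]; push_cast
  rw [show (k : ℝ) + 2 - 1 = k + 1 by ring, hk, a1, Real.sin_add, hk]; ring

omit hr0 hr in
theorem even_main {k : ℕ} (hm : m = 2 * (k + 1)) : m = 2 ∨ m = 4 ∨ m = 6 ∨ m = 8 := by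
  rcases Nat.eq_zero_or_pos k with rfl | hk0
  · omega
  have hp2 := h.p2
  have hq2 := h.q2
  set r := Real.sqrt (p * q) with hrd
  have hr0 : 0 < r := Real.sqrt_pos.2 (by positivity)
  have hr : r ^ 2 = p * q := Real.sq_sqrt (by positivity)
  have hA : (0 : ℝ) < (p * q + 1) * (p + q) - 4 * p * q := by
    have : (0 : ℝ) < p * q := by positivity
    nlinarith
  have hB : (0 : ℝ) < (p - 1) * (q - 1) := mul_pos (by linarith) (by linarith)
  have hk1 : (1 : ℝ) ≤ k := by exact_mod_cast hk0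
  set θ : ℝ := Real.pi / (k + 1) with hθ
  have hpi := Real.pi_pos
  have hθ0 : 0 < θ := by positivity
  have hθ1 : θ < Real.pi := by rw [hθ, div_lt_iff₀ (by positivity)]; nlinarith
  have hs : 0 < Real.sin θ := Real.sin_pos_of_pos_of_lt_pi hθ0 hθ1
  have hkθ : ((k : ℝ) + 1) * θ = Real.pi := by rw [hθ]; field_simp
  obtain ⟨ρ1, h1⟩ := h.even_trig hm hr0 hr θ hs.ne' (by rw [hkθ, Real.sin_pi])
  obtain ⟨ρ2, h2⟩ := h.even_trig hm hr0 hr (Real.pi - θ) (by rw [Real.sin_pi_sub]; exact hs.ne') (by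
    rw [mul_sub, hkθ, show ((k : ℝ) + 1) * Real.pi - Real.pi = (k : ℕ) * Real.pi by ring,
      Real.sin_nat_mul_pi])
  rw [Real.cos_pi_sub] at h2
  have h3 : ((ρ1 : ℝ) + ρ2) * (4 - (2 * Real.cos θ) ^ 2) = 2 * ((p * q + 1) * (p + q) - 4 * p * q) := by
    linear_combination h1 + h2
  have h4 : ((ρ1 : ℝ) + ρ2) ≠ 0 := by intro h0; rw [h0] at h3; linarith
  obtain ⟨σ, hσ⟩ : ∃ σ : ℚ, 4 - (2 * Real.cos θ) ^ 2 = σ :=
    ⟨2 * ((p * q + 1) * (p + q) - 4 * p * q) / (ρ1 + ρ2), by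
      push_cast; rw [eq_div_iff h4]; linear_combination h3⟩
  have hN := niven_angle_div_pi_eq (r := 2 / (k + 1)) ⟨1 - σ / 2, by
    have : (((2 / (k + 1) : ℚ)) : ℝ) * Real.pi = 2 * θ := by rw [hθ]; push_cast; ring
    rw [this, Real.cos_two_mul]; push_cast; linear_combination -hσ / 2⟩ (by
    constructor
    · positivity
    · rw [div_le_one (by positivity)]
      have : (1 : ℚ) ≤ k := by exact_mod_cast hk0
      linarith)
  have hk' : k = 5 ∨ k = 3 ∨ k = 2 ∨ k = 1 := by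
    have hmq : ((k : ℚ) + 1) ≠ 0 := by positivity
    simp only [Set.mem_insert_iff, Set.mem_singleton_iff] at hN
    rcases hN with h1 | h1 | h1 | h1 | h1 <;> field_simp at h1
    · norm_num at h1
    · left; have : (k : ℚ) = 5 := by linarith
      exact_mod_cast this
    · right; left; have : (k : ℚ) = 3 := by linarith
      exact_mod_cast this
    · right; right; left; have : (k : ℚ) = 2 := by linarith
      exact_mod_cast this
    · right; right; right; have : (k : ℚ) = 1 := by linarith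
      exact_mod_cast this
  rcases hk' with rfl | rfl | rfl | rfl
  · exfalso
    obtain ⟨ρ3, h5⟩ := h.even_trig hm hr0 hr (Real.pi / 3) (by rw [Real.sin_pi_div_three]; positivity) (by
      rw [show (((5 : ℕ) : ℝ) + 1) * (Real.pi / 3) = 2 * Real.pi by push_cast; ring, Real.sin_two_pi])
    rw [Real.cos_pi_div_three] at h5
    have hθ6 : θ = Real.pi / 6 := by rw [hθ]; push_cast; ring
    rw [hθ6, Real.cos_pi_div_six] at h1
    have h33 : Real.sqrt 3 ^ 2 = 3 := Real.sq_sqrt (by norm_num)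
    have hirr : Irrational (Real.sqrt 3) := by simpa using Nat.prime_three.irrational_sqrt
    apply hirr
    refine ⟨(ρ1 - ((p * q + 1) * (p + q) - 4 * p * q)) / (3 * ρ3 - ((p * q + 1) * (p + q) - 4 * p * q)), ?_⟩
    push_cast
    have e5 : 3 * (ρ3 : ℝ) - ((p * q + 1) * (p + q) - 4 * p * q) = (p - 1) * (q - 1) * r := by
      linear_combination h5
    rw [e5, div_eq_iff (by positivity)]
    linear_combination h1 + ρ1 * h33
  all_goals omega

omit hr0 hr in
theorem main (hm : 2 ≤ m) : m = 2 ∨ m = 3 ∨ m = 4 ∨ m = 6 ∨ m = 8 := by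
  rcases Nat.even_or_odd' m with ⟨k, hk | hk⟩
  · have := h.even_main (k := k - 1) (by omega)
    omega
  · have := h.odd_main (k := k - 1) (by omega)
    omega

end Hk

end key

end FH
end H01
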