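import Mathlib
import Cfsg.Agent.H11.BN
import Cfsg.Agent.H01.FHigA

/-! Feit–Higman for (B,N)-pairs of rank two.  `H01.FH.red_altW` (alternating words of length at most the order
of `s t` are reduced), `card_W` (a rank two Weyl group is dihedral), `pos` (relative position of two chambers),
`TT` (Hecke matrices, `TT_mul`, `TT_sq`), `feit_higman`. -/

set_option autoImplicit false
set_option linter.style.haveILetI false
set_option linter.unusedSectionVars false

namespace H01
namespace FH

open Cfsg H11 H11.BN Finset

section cox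
variable {B W : Type*} [Group W]

theorem prefix_altW (l : List B) : ∀ (i j : B) (n : ℕ) (l' : List B), altW i j n = l ++ l' →
    l = altW i j l.length := by
  induction l with
  | nil => intro i j n l' _; rfl
  | cons c l ih =>
    intro i j n l' h
    cases n with
    | zero => simp [altW] at h
    | succ n =>
      simp only [altW, List.cons_append, List.cons.injEq] at h
      rw [List.length_cons, altW, ← ih j i n l' h.2, h.1]

variable {s : B → W} {P : B → W → Prop}

theorem red_altW (h : PreCox s P) (n : ℕ) : ∀ (i j : B), n ≤ orderOf (s i * s j) → Red s (altW i j n) := by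
  induction n with
  | zero => intro i j _; exact red_nil s
  | succ n ih =>
    intro i j hn
    have ho : orderOf (s j * s i) = orderOf (s i * s j) := by
      rw [← orderOf_inv, mul_inv_rev, h.toInvGen.inv_eq, h.toInvGen.inv_eq]
    refine h.red_cons (ih j i (by omega)) ?_
    by_contra hP
    obtain ⟨l₁, c, l₂, e, e'⟩ := h.exchange' hP
    have h1 := prefix_altW l₁ j i n _ e
    have h2 := prefix_altW (l₁ ++ [c]) j i n l₂ (by simpa using e)
    have hl : l₁.length < n := by
      have := congrArg List.length e
      rw [length_altW] at this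
      simp at this; omega
    have h3 : wp s (altW i j (l₁.length + 1)) = wp s (altW j i (l₁.length + 1)) := by
      rw [List.length_append, List.length_singleton] at h2
      rw [← h2, wp_append, wp_singleton, ← e', altW, wp_cons, ← h1]
    have h4 := wp_altW_mul h.toInvGen.sq i j (l₁.length + 1)
    rw [h3, mul_inv_cancel] at h4
    have := orderOf_le_of_pow_eq_one (Nat.succ_pos _) h4.symm
    omega

theorem braid_altW (h : PreCox s P) (i j : B) :
    wp s (altW i j (orderOf (s i * s j))) = wp s (altW j i (orderOf (s i * s j))) := by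
  have h4 := wp_altW_mul h.toInvGen.sq i j (orderOf (s i * s j))
  rwa [pow_orderOf_eq_one, mul_inv_eq_one] at h4

theorem card_W (h : PreCox s P) {i j : B} (hij : ∀ c, c = i ∨ c = j) :
    Nat.card W = 2 * orderOf (s i * s j) := by
  obtain ⟨φ, hφ⟩ := h.exists_lift (f := fun _ => (-1 : ℤˣ)) (by simp) (by simp)
  have hC : ∀ w ∈ Subgroup.zpowers (s i * s j), φ w = 1 := by
    rintro w ⟨k, rfl⟩
    simp [hφ]
  have hconj : ∀ w ∈ Subgroup.zpowers (s i * s j), s i * w * s i ∈ Subgroup.zpowers (s i * s j) := by
    rintro w ⟨k, rfl⟩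
    refine ⟨-k, ?_⟩
    have : s i * (s i * s j) * (s i)⁻¹ = (s i * s j)⁻¹ := by
      rw [mul_inv_rev, h.toInvGen.inv_eq, h.toInvGen.inv_eq, h.toInvGen.mul_mul]
    simp only
    rw [zpow_neg, ← inv_zpow, ← this, conj_zpow, h.toInvGen.inv_eq]
  have hsi : ∀ c, s c * s i ∈ Subgroup.zpowers (s i * s j) := by
    intro c
    rcases hij c with rfl | rfl
    · rw [h.toInvGen.sq]; exact one_mem _
    · have := inv_mem (Subgroup.mem_zpowers (s i * s c))
      rwa [mul_inv_rev, h.toInvGen.inv_eq, h.toInvGen.inv_eq] at this
  have hall : ∀ w, w * s i ∈ Subgroup.zpowers (s i * s j) ∨ w ∈ Subgroup.zpowers (s i * s j) := by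
    intro w
    induction w using h.toInvGen.induction_len with
    | h1 => exact Or.inr (one_mem _)
    | h2 c w _ ih =>
      rcases ih with ih | ih
      · right
        have := mul_mem (hsi c) (hconj _ ih)
        rwa [← mul_assoc (s i) w, h.toInvGen.mul_mul', mul_assoc, h.toInvGen.mul_mul] at this
      · left
        have := mul_mem (hsi c) (hconj _ ih)
        rwa [mul_assoc, mul_assoc, h.toInvGen.mul_mul, ← mul_assoc] at this
  have hidx : (Subgroup.zpowers (s i * s j)).index = 2 := by
    rw [Subgroup.index_eq_two_iff]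
    refine ⟨s i, fun w => ?_⟩
    have hn : ¬ (w * s i ∈ Subgroup.zpowers (s i * s j) ∧ w ∈ Subgroup.zpowers (s i * s j)) := by
      rintro ⟨a1, a2⟩
      have := hC _ a1
      rw [map_mul, hC _ a2, hφ] at this
      simp at this
    rcases hall w with a | a
    · exact Or.inl ⟨a, fun b => hn ⟨a, b⟩⟩
    · exact Or.inr ⟨a, fun b => hn ⟨b, a⟩⟩
  rw [← Subgroup.index_mul_card (Subgroup.zpowers (s i * s j)), hidx, Nat.card_zpowers]

end cox

section bn
variable {G : Type*} [Group G] (P : BNPair G)

/-- relative position of two chambers -/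
noncomputable def pos (x y : G ⧸ P.B) : W P := (exists_cell (P := P) (x.out⁻¹ * y.out)).choose

variable {P}

theorem pos_mk (g g' : G) : g⁻¹ * g' ∈ cell P (pos P (g : G ⧸ P.B) g') := by
  have h : (g : G ⧸ P.B).out⁻¹ * (g' : G ⧸ P.B).out ∈ cell P (pos P (g : G ⧸ P.B) g') :=
    (exists_cell (P := P) ((g : G ⧸ P.B).out⁻¹ * (g' : G ⧸ P.B).out)).choose_spec
  obtain ⟨b, hb⟩ := QuotientGroup.mk_out_eq_mul P.B g
  obtain ⟨b', hb'⟩ := QuotientGroup.mk_out_eq_mul P.B g'
  have := cell_right (cell_left b.2 h) (inv_mem b'.2)
  rw [hb, hb'] at this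
  convert this using 1
  group

theorem pos_iff {g g' : G} {w : W P} : pos P (g : G ⧸ P.B) g' = w ↔ g⁻¹ * g' ∈ cell P w :=
  ⟨fun h => h ▸ pos_mk g g', fun h => cell_unique (pos_mk g g') h⟩

theorem pos_eq_one {x y : G ⧸ P.B} : pos P x y = 1 ↔ x = y := by
  induction x using QuotientGroup.induction_on
  induction y using QuotientGroup.induction_on
  rw [pos_iff, mem_cell_one, QuotientGroup.eq]

theorem pos_symm (x y : G ⧸ P.B) : pos P y x = (pos P x y)⁻¹ := by
  induction x using QuotientGroup.induction_on with | H g => ?_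
  induction y using QuotientGroup.induction_on with | H g' => ?_
  rw [pos_iff]
  simpa using cell_inv (pos_mk (P := P) g g')

theorem pos_s_symm {a : P.S} {x y : G ⧸ P.B} (h : pos P x y = sW P a) : pos P y x = sW P a := by
  rw [pos_symm, h, sW_inv]

theorem pos_tri {a : P.S} {x y z : G ⧸ P.B} (h : pos P x y = sW P a) :
    pos P x z = sW P a * pos P y z ∨ pos P x z = pos P y z := by
  induction x using QuotientGroup.induction_on with | H g => ?_
  induction y using QuotientGroup.induction_on with | H g' => ?_
  induction z using QuotientGroup.induction_on with | H g'' => ?_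
  rw [pos_iff] at h
  rw [pos_iff, pos_iff]
  simpa [mul_assoc] using cell_mul_s a h (pos_mk g' g'')

theorem pos_up {a : P.S} {x y z : G ⧸ P.B} (h : pos P x y = sW P a) (hu : Up P a (pos P y z)) :
    pos P x z = sW P a * pos P y z := by
  induction x using QuotientGroup.induction_on with | H g => ?_
  induction y using QuotientGroup.induction_on with | H g' => ?_
  induction z using QuotientGroup.induction_on with | H g'' => ?_
  rw [pos_iff] at h
  rw [pos_iff]
  simpa [mul_assoc] using hu _ h _ (pos_mk g' g'')

theorem pos_split {w w' : W P} {x z : G ⧸ P.B} (h : pos P x z = w * w') :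
    ∃ y, pos P x y = w ∧ pos P y z = w' := by
  induction x using QuotientGroup.induction_on with | H g => ?_
  induction z using QuotientGroup.induction_on with | H g'' => ?_
  rw [pos_iff] at h
  obtain ⟨u, hu, v, hv, e⟩ := cell_split h
  refine ⟨(g * u : G), pos_iff.2 (by simpa using hu), pos_iff.2 ?_⟩
  rw [mul_inv_rev, mul_assoc, e]; simpa using hv

theorem pos_ss {a : P.S} {x y z : G ⧸ P.B} (h : pos P x y = sW P a) (h' : pos P y z = sW P a) :
    x = z ∨ pos P x z = sW P a := by
  rcases pos_tri (z := z) h with e | e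
  · left; rw [h', sW_sq] at e; exact pos_eq_one.1 e
  · right; rw [e, h']

theorem pos_smul (g : G) (x y : G ⧸ P.B) : pos P (g • x) (g • y) = pos P x y := by
  induction x using QuotientGroup.induction_on with | H u => ?_
  induction y using QuotientGroup.induction_on with | H v => ?_
  rw [MulAction.Quotient.smul_coe, MulAction.Quotient.smul_coe, pos_iff]
  simpa [mul_assoc] using pos_mk (P := P) u v

variable [Fintype (G ⧸ P.B)] [DecidableEq (G ⧸ P.B)] [DecidableEq (W P)]

variable (P) in
/-- Hecke matrices -/
noncomputable def TT (w : W P) : Matrix (G ⧸ P.B) (G ⧸ P.B) ℝ :=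
  Matrix.of fun x y => if pos P x y = w then 1 else 0

theorem TT_one : TT P 1 = 1 := by
  ext x y; simp [TT, pos_eq_one, Matrix.one_apply]

theorem TT_mul_apply (w w' : W P) (x z : G ⧸ P.B) :
    (TT P w * TT P w') x z = ((univ.filter fun y => pos P x y = w ∧ pos P y z = w').card : ℝ) := by
  simp only [TT, Matrix.mul_apply, Matrix.of_apply, ite_mul, one_mul, zero_mul, card_filter]
  push_cast
  refine sum_congr rfl fun y _ => ?_
  by_cases h1 : pos P x y = w <;> simp [h1]

theorem TT_mul {a : P.S} {w : W P} (hu : Up P a w) : TT P (sW P a) * TT P w = TT P (sW P a * w) := by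
  ext x z
  rw [TT_mul_apply, TT, Matrix.of_apply]
  split_ifs with h
  · obtain ⟨y, h1, h2⟩ := pos_split h
    have : (univ.filter fun y => pos P x y = sW P a ∧ pos P y z = w) = {y} := by
      ext y'
      simp only [mem_filter, mem_univ, true_and, mem_singleton]
      refine ⟨fun h' => ?_, fun e => e ▸ ⟨h1, h2⟩⟩
      rcases pos_ss (pos_s_symm h'.1) h1 with e | e
      · exact e
      · have := pos_up (z := z) e (h2 ▸ hu)
        rw [h'.2, h2] at this
        exact absurd (by simpa using this.symm) (sW_ne_one a)
    rw [this]; simp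
  · rw [Nat.cast_eq_zero, card_eq_zero, filter_eq_empty_iff]
    rintro y - ⟨h1, h2⟩
    exact h (h2 ▸ pos_up h1 (h2 ▸ hu))

theorem TT_trace {w : W P} (hw : w ≠ 1) : (TT P w).trace = 0 := by
  refine sum_eq_zero fun x _ => ?_
  simp [TT, pos_eq_one.2 (rfl : x = x), hw.symm]

theorem TT_sq (a : P.S) : ∃ p : ℕ, 2 ≤ p ∧
    TT P (sW P a) * TT P (sW P a) = ((p : ℝ) - 1) • TT P (sW P a) + (p : ℝ) • 1 := by
  set p := (univ.filter fun y => pos P ((1 : G) : G ⧸ P.B) y = sW P a).card with hp
  have hc : ∀ x : G ⧸ P.B, (univ.filter fun y => pos P x y = sW P a).card = p := by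
    intro x
    induction x using QuotientGroup.induction_on with | H g => ?_
    symm
    refine card_bijective (fun y => g • y) (MulAction.bijective g) fun y => ?_
    simp only [mem_filter, mem_univ, true_and]
    rw [← pos_smul g, MulAction.Quotient.smul_coe]; simp
  refine ⟨p, ?_, ?_⟩
  · obtain ⟨b, hb, hn⟩ := exists_sbs a
    rw [hp, Nat.succ_le_iff, one_lt_card]
    refine ⟨((a : G) : G ⧸ P.B), ?_, ((b * a : G) : G ⧸ P.B), ?_, ?_⟩
    · simp only [mem_filter, mem_univ, true_and, pos_iff]; simpa using S_mem_cell a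
    · simp only [mem_filter, mem_univ, true_and, pos_iff]; simpa using cell_left hb (S_mem_cell a)
    · rw [Ne, QuotientGroup.eq]
      intro h
      apply hn
      have := mul_mem (P.sq_mem a a.2) h
      simpa [mul_assoc] using this
  · ext x z
    rw [TT_mul_apply]
    simp only [Matrix.add_apply, Matrix.smul_apply, TT, Matrix.of_apply, Matrix.one_apply, smul_eq_mul]
    by_cases hxz : x = z
    · subst hxz
      rw [if_neg (by rw [pos_eq_one.2 rfl]; exact (sW_ne_one a).symm), if_pos rfl, ← hc x]
      simp only [mul_zero, mul_one, zero_add, Nat.cast_inj]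
      congr 1
      exact filter_congr fun y _ => ⟨fun h => h.1, fun h => ⟨h, pos_s_symm h⟩⟩
    · rw [if_neg hxz]
      split_ifs with h
      · have : (univ.filter fun y => pos P x y = sW P a ∧ pos P y z = sW P a) =
            (univ.filter fun y => pos P x y = sW P a).erase z := by
          ext y
          simp only [mem_filter, mem_univ, true_and, mem_erase]
          constructor
          · rintro ⟨h1, h2⟩
            refine ⟨?_, h1⟩
            rintro rfl
            rw [pos_eq_one.2 rfl] at h2
            exact sW_ne_one a h2.symm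
          · rintro ⟨h1, h2⟩
            exact ⟨h2, (pos_ss (pos_s_symm h2) h).resolve_left h1⟩
        have hz : z ∈ univ.filter fun y => pos P x y = sW P a := by simpa using h
        rw [this, card_erase_of_mem hz, hc, Nat.cast_sub (by rw [← hc x]; exact card_pos.2 ⟨z, hz⟩)]
        simp
      · simp only [mul_zero, add_zero, Nat.cast_eq_zero, card_eq_zero, filter_eq_empty_iff]
        rintro y - ⟨h1, h2⟩
        exact h ((pos_ss h1 h2).resolve_left hxz)

theorem alt_TT (n : ℕ) : ∀ i j : P.S, Red (sW P) (altW i j n) →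
    alt (TT P (sW P i)) (TT P (sW P j)) n = TT P (wp (sW P) (altW i j n)) := by
  induction n with
  | zero => intro i j _; simp [alt, altW, wp_nil, TT_one]
  | succ n ih =>
    intro i j h
    rw [alt, ih j i (Red.tail h), altW, wp_cons, TT_mul ((preCox P).of_red_cons h)]

end bn

theorem trace_idem {X : Type*} [Fintype X] [DecidableEq X] (M : Matrix X X ℝ) (h : M * M = M) :
    ∃ n : ℚ, M.trace = n := by
  have h1 : IsIdempotentElem (Matrix.toLin' M) := by
    rw [IsIdempotentElem, Module.End.mul_eq_comp, ← Matrix.toLin'_mul, h]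
  have h2 := (LinearMap.IsIdempotentElem.isProj_range _ h1).trace
  rw [Matrix.trace_toLin'_eq] at h2
  exact ⟨_, by rw [h2]; norm_cast⟩

theorem feit_higman {G : Type*} [Group G] [Finite G] (P : BNPair G) (h2 : P.rank = 2) :
    ((P.B ⊓ P.N).subgroupOf P.N).index ∈ ({4, 6, 8, 12, 16} : Set ℕ) := by
  classical
  haveI : Fintype (G ⧸ P.B) := Fintype.ofFinite _
  obtain ⟨i, j, hij, hu⟩ := Nat.card_eq_two_iff.1 h2
  have hall : ∀ c, c = i ∨ c = j := fun c => by
    have : c ∈ ({i, j} : Set P.S) := hu ▸ Set.mem_univ c
    simpa using this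
  have hc := card_W (preCox P) hall
  set m := orderOf (sW P i * sW P j) with hm
  have ho : orderOf (sW P j * sW P i) = m := by
    rw [← orderOf_inv, mul_inv_rev, sW_inv, sW_inv]
  have hm2 : 2 ≤ m := by
    have h0 : 0 < m := orderOf_pos _
    have h1 : m ≠ 1 := by
      rw [hm, Ne, orderOf_eq_one_iff, mul_eq_one_iff_inv_eq, sW_inv]
      exact fun e => hij (sW_injective e)
    omega
  obtain ⟨p, hp, ha⟩ := TT_sq i
  obtain ⟨q, hq, hb⟩ := TT_sq j
  have H : Hk (Matrix.traceLinearMap (G ⧸ P.B) ℝ ℝ) (TT P (sW P i)) (TT P (sW P j)) p q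
      (Fintype.card (G ⧸ P.B)) m :=
    { ha := ha, hb := hb, hp := hp, hq := hq
      idem := fun M h => trace_idem M h
      comm := fun x y => Matrix.trace_mul_comm x y
      one := by simp
      hN := Fintype.card_ne_zero
      braid := by
        rw [alt_TT m i j (red_altW (preCox P) m i j le_rfl), alt_TT m j i (red_altW (preCox P) m j i ho.ge),
          braid_altW (preCox P)]
      ta := TT_trace (sW_ne_one i)
      tr := fun n h1 hn => by
        have hr := red_altW (preCox P) n j i (by omega)
        rw [alt_TT n j i hr]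
        refine TT_trace fun e => ?_
        rw [Red, e, len_one, length_altW] at hr
        omega }
  have := H.main hm2
  have e : ((P.B ⊓ P.N).subgroupOf P.N).index = 2 * m := hc
  rw [e]
  simp only [Set.mem_insert_iff, Set.mem_singleton_iff]
  omega

end FH
end H01
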