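import Mathlib
import Cfsg.Agent.H01.KS92
import Cfsg.Agent.H03.ThNPC2

/-!
The characteristic subgroup `W(S) = stableNormalClosure p S` (namespace `H01`).
* `snc_map`, `snc_normal`, `snc_le`, `le_snc`, `snc_quad`, `snc_functor`, `sncF` (ambient functor), `snc_main`
-/

set_option autoImplicit false
set_option linter.style.haveILetI false
set_option linter.unusedSectionVars false

namespace H01
open Cfsg BG
open scoped commutatorElement

universe u
variable {S S' H : Type u} [Group S] [Group S'] [Group H] {p : ℕ}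

theorem oct_eq (p : ℕ) (S : Type u) [Group S] :
    omegaCenterThompson p S = omegaOne p (centerThompsonOf p (⊤ : Subgroup S)) := by
  rw [omegaCenterThompson, H17.thompsonSubgroup_eq_top]; rfl

theorem thompson_map_equiv (η : S' ≃* S) : (thompsonSubgroup p S').map η.toMonoidHom = thompsonSubgroup p S := by
  rw [H17.thompsonSubgroup_eq_top, H17.thompsonSubgroup_eq_top, ← H17.thompsonOf_map _ η.injective.injOn,
    Subgroup.map_top_of_surjective _ η.surjective]

theorem oct_map (f : S →* H) (hf : Function.Injective f) : (omegaCenterThompson p S).map f =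
    omegaOne p ((thompsonSubgroup p S).map f ⊓ C_((thompsonSubgroup p S).map f)) := by
  rw [omegaCenterThompson, H17.centralizer_map_of_injOn f (P := ⊤) hf.injOn le_top le_top,
    H17.omegaOne_map f hf.injOn]

theorem stable_comp {τ : S →* H} (h : IsStableEmbedding p τ) (η : S' ≃* S) :
    IsStableEmbedding p (τ.comp η.toMonoidHom) := by
  obtain ⟨h1, h2, ⟨P, h3⟩, h4, h5, h6⟩ := h
  refine ⟨h1.comp η.injective, h2, ⟨P, ?_⟩, h4, ?_, fun V _ hV => h6 V ?_⟩
  · rw [h3, MonoidHom.range_comp, MonoidHom.range_eq_top.mpr (show Function.Surjective η.toMonoidHom from η.surjective),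
      MonoidHom.range_eq_map]
  · rwa [← Subgroup.map_map, thompson_map_equiv]
  · rwa [← Subgroup.map_map, oct_map _ η.injective, thompson_map_equiv] at hV

theorem le_snc : omegaOne p (Subgroup.center S) ≤ stableNormalClosure p S := le_sInf fun _ h => h.1

theorem snc_le_of {W : Subgroup S} (h1 : omegaOne p (Subgroup.center S) ≤ W)
    (h2 : ∀ (H : Type u) [Group H] (τ : S →* H), IsStableEmbedding p τ → (W.map τ).Normal) :
    stableNormalClosure p S ≤ W := sInf_le ⟨h1, h2⟩

theorem snc_map_le (η : S ≃* S') : (stableNormalClosure p S).map η.toMonoidHom ≤ stableNormalClosure p S' := by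
  refine le_sInf fun W hW => Subgroup.map_le_iff_le_comap.mpr (snc_le_of ?_ fun H _ τ hτ => ?_)
  · refine H17.omegaOne_le_iff.mpr fun x hx e => hW.1 (H17.mem_omegaOne ?_ (by rw [← map_pow, e, map_one]))
    rw [Subgroup.mem_center_iff] at hx ⊢
    intro g
    obtain ⟨g, rfl⟩ := η.surjective g
    exact (map_mul η g x).symm.trans ((congrArg η (hx g)).trans (map_mul η x g))
  · have := hW.2 H _ (stable_comp hτ η.symm)
    rwa [← Subgroup.map_map, ← Subgroup.comap_equiv_eq_map_symm'] at this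

theorem snc_map (η : S ≃* S') : (stableNormalClosure p S).map η.toMonoidHom = stableNormalClosure p S' := by
  refine le_antisymm (snc_map_le η) fun x hx => ⟨η.symm x, snc_map_le η.symm ⟨x, hx, rfl⟩, by simp⟩

instance snc_char : (stableNormalClosure p S).Characteristic :=
  Subgroup.characteristic_iff_map_eq.mpr snc_map

variable [hp : Fact p.Prime]

theorem oct_mem [Finite S] : omegaOne p (Subgroup.center S) ≤ omegaCenterThompson p S ∧
    ∀ (H : Type u) [Group H] (τ : S →* H), IsStableEmbedding p τ → ((omegaCenterThompson p S).map τ).Normal := by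
  refine ⟨H17.omegaOne_le_iff.mpr fun x hx e => H17.mem_omegaOne ⟨?_, fun y _ => ?_⟩ e, fun H _ τ hτ => ?_⟩
  · obtain ⟨A, hA⟩ := H17.maxAb_nonempty p (⊤ : Subgroup S)
    rw [H17.thompsonSubgroup_eq_top]
    exact H17.le_thompsonOf hA (H17.mem_of_commute_maxAb hA trivial e fun a _ =>
      Subgroup.mem_center_iff.mp hx a)
  · exact Subgroup.mem_center_iff.mp hx y
  · haveI := hτ.2.2.2.2.1
    rw [oct_map τ hτ.1]
    exact H26.normal_of_top_le (H26.le_normalizer_omegaZ Subgroup.le_normalizer_of_normal)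

theorem snc_le [Finite S] : stableNormalClosure p S ≤ omegaCenterThompson p S := sInf_le oct_mem

theorem snc_normal [Finite S] {τ : S →* H} (hτ : IsStableEmbedding p τ) :
    ((stableNormalClosure p S).map τ).Normal := by
  constructor
  rintro _ ⟨w, hw, rfl⟩ g
  obtain ⟨s, -, hs⟩ := (oct_mem.2 H τ hτ).conj_mem _ ⟨w, snc_le hw, rfl⟩ g
  refine ⟨s, Subgroup.mem_sInf.mpr fun W hW => ?_, hs⟩
  obtain ⟨t, ht, e⟩ := (hW.2 H τ hτ).conj_mem _ ⟨w, Subgroup.mem_sInf.mp hw W hW, rfl⟩ g
  exact hτ.1 (e.trans hs.symm) ▸ ht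

theorem snc_elem [Finite S] : IsElementaryAbelian p (stableNormalClosure p S) :=
  (H26.omegaZ_elemAb _).of_le snc_le

omit hp in
theorem quad_of_mul {G : Type*} [Group G] {W U : Subgroup G} {y c s : G} (hy : y ∈ N_(W)) (hU : U ≤ W)
    (h : ⁅⁅W, Subgroup.zpowers y⁆, Subgroup.zpowers y⁆ = ⊥) (hc : c ∈ C_(W)) (e : c * s = y) :
    ⁅⁅U, Subgroup.zpowers s⁆, Subgroup.zpowers s⁆ = ⊥ := by
  have hs : s ∈ Subgroup.zpowers y ⊔ C_(W) := by
    rw [eq_inv_mul_of_mul_eq e, sup_comm]
    exact Subgroup.mul_mem_sup (inv_mem hc) (Subgroup.mem_zpowers _)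
  have h0 := Subgroup.zpowers_le.mpr hy
  refine quad_of_cent (W := ⁅W, Subgroup.zpowers y⁆) ((comm_mono hU (Subgroup.zpowers_le.mpr hs)).trans ?_)
    ((Subgroup.zpowers_le.mpr hs).trans (sup_le (comm_eq_bot'.mp h) (cent_anti (comm_le_left h0))))
  rw [comm_sup_right' h0 (cent_le_norm _), comm_eq_bot'.mpr (le_refl C_(W)), sup_bot_eq]

theorem snc_quad [Finite S] {x : S}
    (hq : ⁅⁅stableNormalClosure p S, Subgroup.zpowers x⁆, Subgroup.zpowers x⁆ = ⊥) :
    x ∈ C_(stableNormalClosure p S) := by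
  have key : stableNormalClosure p S ≤ stableNormalClosure p S ⊓ Subgroup.centralizer
      {y | ⁅⁅stableNormalClosure p S, Subgroup.zpowers y⁆, Subgroup.zpowers y⁆ = ⊥} := by
    refine snc_le_of (le_inf le_snc ((H17.omegaOne_le _ _).trans (Subgroup.center_le_centralizer _)))
      fun H _ τ hτ => ⟨?_⟩
    rintro _ ⟨w, hw, rfl⟩ g
    haveI := hτ.2.1
    haveI := snc_normal hτ
    obtain ⟨P, hP⟩ := hτ.2.2.1
    obtain ⟨w', hw', e⟩ := this.conj_mem _ ⟨w, hw.1, rfl⟩ g
    refine ⟨w', ⟨hw', fun y hy => hτ.1 ?_⟩, e⟩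
    have hq : ∀ z, ⁅⁅stableNormalClosure p S, Subgroup.zpowers z⁆, Subgroup.zpowers z⁆ = ⊥ ↔
        ⁅⁅(stableNormalClosure p S).map τ, Subgroup.zpowers (τ z)⁆, Subgroup.zpowers (τ z)⁆ = ⊥ := fun z => by
      rw [← MonoidHom.map_zpowers, ← Subgroup.map_commutator, ← Subgroup.map_commutator,
        Subgroup.map_eq_bot_iff_of_injective _ hτ.1]
    have h1 := H17.quad_conj (g := g⁻¹) (Subgroup.le_normalizer_of_normal (Subgroup.mem_top _)) ((hq y).mp hy)
    have h2 := H17.opMod_le_sup_sylow _ P (H17.isPStableOn_iff.mp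
      (hτ.2.2.2.2.2 _ (Subgroup.map_mono snc_le)) _ h1)
    obtain ⟨c, hc, s, hs, e'⟩ := (mem_sup_norm Subgroup.le_normalizer_of_normal).mp h2
    obtain ⟨s, rfl⟩ := hP ▸ hs
    have h3 := hw.2 s ((hq s).mpr (quad_of_mul (Subgroup.le_normalizer_of_normal (Subgroup.mem_top _))
      le_rfl h1 hc e'))
    have h4 := hc _ ⟨w, hw.1, rfl⟩
    have h5 : τ s * τ w = τ w * τ s := by rw [← map_mul, h3, map_mul]
    rw [map_mul, map_mul, e, show τ y = g * (c * τ s) * g⁻¹ by rw [e']; group]
    calc g * (c * τ s) * g⁻¹ * (g * τ w * g⁻¹) = g * (c * (τ s * τ w)) * g⁻¹ := by group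
      _ = g * ((τ w * c) * τ s) * g⁻¹ := by rw [h5, h4]; group
      _ = _ := by group
  exact fun w hw => ((key hw).2 x hq).symm

theorem snc_functor : IsCharPFunctor.{u} p (stableNormalClosure p) := by
  refine ⟨fun Q _ _ hQ _ h => ?_, fun _ _ _ _ _ _ φ => snc_map φ⟩
  refine H26.omegaZ_ne_bot (hQ.to_subgroup ⊤) top_ne_bot (eq_bot_mono h (le_trans ?_ le_snc))
  exact H17.omegaOne_mono fun x hx => Subgroup.mem_center_iff.mpr fun g => hx.2 g trivial

/-- the ambient functor `T ↦ W(T)` -/
def sncF (p : ℕ) [Fact p.Prime] : H03.AmbF.{u} p := H03.AmbF.ofChar _ snc_functor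

variable {G : Type u} [Group G] [Finite G] {T : Subgroup G}

theorem sncF_W (T : Subgroup G) : (sncF p).W G T = (stableNormalClosure p T).map T.subtype := rfl

theorem sncF_quad {x : G} (hx : x ∈ T)
    (hq : ⁅⁅(sncF p).W G T, Subgroup.zpowers x⁆, Subgroup.zpowers x⁆ = ⊥) : x ∈ C_((sncF p).W G T) := by
  have := snc_quad (p := p) (x := (⟨x, hx⟩ : T)) (by
    rw [← Subgroup.map_eq_bot_iff_of_injective _ T.subtype_injective, Subgroup.map_commutator,
      Subgroup.map_commutator, MonoidHom.map_zpowers]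
    exact hq)
  rintro _ ⟨w, hw, rfl⟩
  exact congrArg Subtype.val (this w hw)

theorem snc_norm (hst : IsActionPStable p G) (hc : C_(pCore p G) ≤ pCore p G) (S : Sylow p G) :
    N_(thompsonSubgroupOf p (S : Subgroup G)) ≤ N_((sncF p).W G S) := by
  have hS := S.isPGroup'
  have lN : (S : Subgroup G) ≤ N_(thompsonSubgroupOf p (S : Subgroup G)) := norm_thompson (le_norm _)
  have e0 : ∀ X : Subgroup S, (X.map (Subgroup.inclusion lN)).map
      (N_(thompsonSubgroupOf p (S : Subgroup G))).subtype = X.map (S : Subgroup G).subtype :=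
    fun X => by rw [Subgroup.map_map]; rfl
  have h4 : IsStableEmbedding p (Subgroup.inclusion lN) := by
    refine ⟨Subgroup.inclusion_injective _, inferInstance,
      ⟨S.subtype lN, (Subgroup.inclusion_range lN).symm⟩, H26.isCharP_iff.mpr ?_, ?_, fun U _ hU => ?_⟩
    · have := (H26.isCharP_top_iff.mp hc).inf_normalizer (hS.to_le (H17.thompsonOf_le p _)) le_top
      rwa [top_inf_eq] at this
    · rw [← H26.map_subtype_subgroupOf (Subgroup.map _ _), e0]
      exact Subgroup.normal_in_normalizer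
    · exact hst.2.2 S U ((Subgroup.map_mono hU).trans (e0 _).le)
  haveI := snc_normal h4
  have h5 := H26.le_normalizer_map_subtype ((stableNormalClosure p S).map (Subgroup.inclusion lN))
  rwa [e0] at h5

theorem snc_main (hst : IsActionPStable p G) (hc : C_(pCore p G) ≤ pCore p G) (S : Sylow p G) :
    ((sncF p).W G S).Normal := by
  have hS := S.isPGroup'
  have eW : IsElementaryAbelian p ((sncF p).W G S) := H17.elemAb_map snc_elem _
  have nW : (S : Subgroup G) ≤ N_((sncF p).W G S) := (le_norm _).trans ((sncF p).normalizer_le hS)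
  have lO := H26.pCore_le_sylow S
  have h1 : (sncF p).W G S ≤ pCore p G := fun w hw => by
    obtain ⟨D, hD, h1, ⟨k, h2⟩, h3⟩ := hst.2.1 w (by
      have := Subgroup.zpowers_le.mpr hw
      rw [quad_of_cent ((comm_mono lO this).trans (comm_le_right nW)) (this.trans (abelian_iff.mp eW.abelian))]
      exact bot_le)
    refine H26.le_pCore (H26.isPGroup_of_forall_coprime fun x hx e => ?_) h3
    haveI : (sectionKernel (pCore p G) ((frattini (pCore p G)).map (pCore p G).subtype)).Normal :=
      Subgroup.Normal.comap inferInstance _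
    have h4 := H26.mem_of_pow_mem_of_coprime (Subgroup.pow_relIndex_mem _ hx) (h2 ▸ e.pow_right k)
    refine H26.eq_one_of_mem_pGroup H26.isPGroup_pCore (hc (H17.mem_centralizer_of_frattini
      H26.isPGroup_pCore (Subgroup.le_normalizer_of_normal (Subgroup.mem_top _)) e fun y hy => ?_)) e
    rw [← QuotientGroup.eq_one_iff, ← QuotientGroup.mk'_apply, map_commutatorElement,
      commutatorElement_eq_one_iff_mul_comm]
    exact (h4 _ ⟨y, hy, rfl⟩).symm
  have eg : ∀ g, cj g ((sncF p).W G S) = (sncF p).W G ((g • S : Sylow p G) : Subgroup G) :=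
    fun g => ((sncF p).cj g hS).symm
  have h2 : ∀ g, cj g ((sncF p).W G S) ≤ C_((sncF p).W G S) := fun g x hx => by
    have h3 : cj g ((sncF p).W G S) ≤ pCore p G := cj_le_of_mem_norm h1
      (Subgroup.le_normalizer_of_normal (Subgroup.mem_top _))
    have h4 := Subgroup.zpowers_le.mpr hx
    refine sncF_quad (lO (h3 hx)) (quad_of_cent ((comm_mono h1 h4).trans (comm_le_right ?_))
      (h4.trans (abelian_iff.mp (isMulCommutative_cj.mpr eW.abelian))))
    rw [eg]
    exact (H26.pCore_le_sylow _).trans ((le_norm _).trans ((sncF p).normalizer_le (g • S).isPGroup'))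
  set V := H26.ncl ((sncF p).W G S) ⊤ with hV
  have nV := H26.le_normalizer_ncl ((sncF p).W G S) ⊤
  haveI : V.Normal := H26.normal_of_top_le nV
  have lV : V ≤ pCore p G := H26.ncl_le h1 Subgroup.le_normalizer_of_normal
  have aV : V ≤ C_(V) := H26.ncl_le (cent_symm (H26.ncl_le_iff.mpr fun g _ => h2 g)) (norm_cent nV)
  have eV : IsElementaryAbelian p V := by
    refine (H26.omegaZ_elemAb V).of_le (H26.ncl_le (fun w hw => H26.mem_omegaZ.mpr
      ⟨H26.le_ncl _ _ hw, aV (H26.le_ncl _ _ hw), eW.pow hw⟩) (H26.le_normalizer_omegaZ nV))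
  have h3 : thompsonSubgroupOf p S ≤ C_(V) := H17.thompsonOf_le_iff.mpr fun A hA => by
    obtain ⟨-, h4, h5⟩ := maxAb_repl eV (lV.trans lO) (le_top.trans nV) hA
    refine comm_eq_bot'.mp (by_contra fun h6 => h5 h6 (comm_eq_bot'.mpr fun a ha => ?_))
    refine H26.mem_centralizer_iff_le.mpr (H26.ncl_le_iff.mpr fun g _ => H26.mem_centralizer_iff_le.mp ?_)
    obtain ⟨c, hc, s, hs, rfl⟩ := (mem_sup_norm Subgroup.le_normalizer_of_normal).mp
      (H17.opMod_le_sup_sylow _ (g • S) (H17.IsPStableOn.le_opMod (hst.1 V eV) h4 ha))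
    have h7 : cj g ((sncF p).W G S) ≤ V := H26.cj_le_ncl trivial
    refine mul_mem (cent_anti h7 hc) ?_
    change s ∈ C_(cj g _)
    rw [eg] at h7 ⊢
    exact sncF_quad hs (quad_of_mul (nV (Subgroup.mem_top (c * s))) h7 (eq_bot_mono h4
      (comm_mono (comm_mono le_rfl (Subgroup.zpowers_le.mpr ha)) (Subgroup.zpowers_le.mpr ha))) hc rfl)
  have h5 := snc_norm hst hc S
  refine H26.normal_of_top_le ((frattini_thompson_sup (H26.isSyl_top S) le_top (norm_cent nV) h3).ge.trans
    (sup_le (le_norm_of_cent (cent_anti (H26.le_ncl _ _))) (inf_le_right.trans h5)))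

end H01
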