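import Cfsg.Agent.L.Jf0
import Cfsg.Agent.H19.SelfM

/-! Part `T` of S5572. -/

set_option autoImplicit false
open Cfsg BG Subgroup

namespace H01.S5T
universe u

theorem t : L.Jf.TStmt.{u} := by
  intro G _ _ δ x σ c6 ⟨e⟩ cj σx o5
  obtain ⟨g, rfl⟩ := isConj_iff.1 cj
  have : Fact (Nat.Prime 5) := ⟨by norm_num⟩
  have mm : ∀ y ∈ C_[g * δ * g⁻¹], g⁻¹ * y * g ∈ C_[δ] := fun y i => mem_cent1.2 (by
    calc g⁻¹ * y * g * δ = g⁻¹ * (y * (g * δ * g⁻¹)) * g := by group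
      _ = _ := by rw [mem_cent1.1 i]; group)
  let ψ : ↥(C_[g * δ * g⁻¹] ⊓ C_[σ]) →* C_[δ] := MonoidHom.mk' (fun y => ⟨g⁻¹ * y * g, mm y y.2.1⟩) fun a b =>
    Subtype.ext (by simp only [Subgroup.coe_mul]; group)
  have ψi : Function.Injective ψ := fun a b h => Subtype.ext (by simpa [ψ] using congrArg Subtype.val h)
  let θ : C_[δ] →* Spor.M22 := e.toMonoidHom.comp (QuotientGroup.mk' _)
  have θk : ∀ y, θ y = 1 → y ∈ center ↥C_[δ] := fun y h =>
    (QuotientGroup.eq_one_iff y).1 (e.injective (h.trans (map_one e).symm))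
  let s : ↥(C_[g * δ * g⁻¹] ⊓ C_[σ]) := ⟨σ, σx, mem_cent1.2 rfl⟩
  have os : orderOf (ψ s) = 5 := by rw [orderOf_injective ψ ψi, ← Subgroup.orderOf_coe]; exact o5
  have ot : orderOf (θ (ψ s)) = 5 := orderOf_eq_prime (by rw [← map_pow, ← os, pow_orderOf_eq_one, map_one]) fun h => by
    have := (center ↥C_[δ]).orderOf_dvd_natCard (θk _ h)
    rw [os, c6] at this; omega
  have h1 : Nat.card (θ.comp ψ).ker ∣ 6 := by
    rw [← c6, ← Subgroup.card_map_of_injective ψi]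
    exact card_dvd_of_le (by rintro _ ⟨y, i, rfl⟩; exact θk _ i)
  have h2 : Nat.card (θ.comp ψ).range ∣ 5 := by
    rw [← _root_.H19.selfC_M22 (.inl rfl) _ ot]
    refine card_dvd_of_le ?_
    rintro _ ⟨y, rfl⟩
    refine mem_centralizer_singleton_iff.2 ?_
    show θ (ψ y) * θ (ψ s) = θ (ψ s) * θ (ψ y)
    rw [← map_mul, ← map_mul, ← map_mul, ← map_mul]
    congr 2
    exact Subtype.ext (mem_cent1.1 y.2.2)
  rw [← (θ.comp ψ).ker.card_mul_index, index_ker]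
  exact mul_dvd_mul h1 h2

end H01.S5T
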