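import Mathlib
import Cfsg.Agent.BG.Api4
import Cfsg.Agent.H04.Symplectic
import Cfsg.Agent.H04.TwoGroups

/-!
# Sectional 2-rank at most 4 (namespace `H01.SR`)

* `EA H K` : `HK/K` is elementary abelian; `step`, `comm_bound`, `cyc` : index bounds; `of_sylow` : reduction to a Sylow 2-subgroup
* `St S T B` : `T ≅ E₁₆` contains a four-group `B` with `C_S(b) = T` for `b ∈ B#`; `St.main` : then `S` has sectional rank at most 4
-/

set_option autoImplicit false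
set_option linter.unusedSectionVars false
open Cfsg BG Subgroup
open scoped commutatorElement

namespace H01.SR
variable {G : Type*} [Group G] [Finite G] {B B' D E H K M N S T T' X : Subgroup G} {g u x : G}

structure EA (H K : Subgroup G) : Prop where
  comm : ∀ x ∈ H, ∀ y ∈ H, ⁅x, y⁆ ∈ K
  sq : ∀ x ∈ H, x * x ∈ K

theorem EA.mono (h : EA H K) (hle : X ≤ H) : EA X K := ⟨fun x hx y hy => h.comm x (hle hx) y (hle hy), fun x hx => h.sq x (hle hx)⟩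

theorem step (K M H : Subgroup G) : K.relIndex H ≤ K.relIndex (M ⊓ H) * M.relIndex H :=
  relIndex_inf_mul_relIndex K M H ▸ relIndex_le_of_le_left inf_le_left (relIndex_ne_zero _ _)

theorem le_card (K X : Subgroup G) : K.relIndex X ≤ Nat.card X := Nat.le_of_dvd (card_pos X) (BG.relIndex_dvd_card K X)

theorem idx_mono (h : X ≤ H) : K.relIndex X ≤ K.relIndex H := relIndex_le_of_le_right h (relIndex_ne_zero _ _)

theorem comm_bound (hn : g ∈ N_(X)) (h : ∀ y ∈ X, ⁅g, y⁆ ∈ K) : K.relIndex X ≤ Nat.card (X ⊓ C_[g] : Subgroup G) := by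
  have h1 := H04.relIndex_centralizer_le (x := g) (D := X) (N := K ⊓ X) fun y hy =>
    ⟨h y hy, X.mul_mem (conj_mem_of_norm hn hy) (X.inv_mem hy)⟩
  have h2 := card_inf_mul_relIndex C_[g] X
  have h3 := card_inf_mul_relIndex K X
  rw [inf_comm] at h2
  refine Nat.le_of_mul_le_mul_left ?_ (card_pos (K ⊓ X))
  rw [h3, ← h2, mul_comm]
  exact Nat.mul_le_mul_right _ h1

theorem cyc (hX : IsCyclic X) (h : ∀ x ∈ X, x * x ∈ K) : K.relIndex X ≤ 2 := by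
  obtain ⟨y, rfl⟩ := (Subgroup.isCyclic_iff_exists_zpowers_eq_top X).1 hX
  have := Fact.mk Nat.prime_two
  have hy := mem_zpowers y
  have h1 := H04.card_sup_zpowers_le (p := 2) (K ⊓ zpowers y) (x := y)
    (le_norm_of_abelian (B := zpowers y) inferInstance inf_le_right hy) (by rw [sq]; exact ⟨h y hy, mul_mem hy hy⟩)
  rw [sup_eq_right.2 inf_le_right, ← card_inf_mul_relIndex K, mul_comm] at h1
  exact Nat.le_of_mul_le_mul_right h1 (card_pos _)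

theorem of_sylow {k : ℕ} (hS : IsSylowIn 2 S ⊤) (h : ∀ H K : Subgroup G, H ≤ S → EA H K → K.relIndex H ≤ 2 ^ k) :
    SectionalPRankLE 2 k G := by
  refine H04.sectional_iff.2 fun H K h1 h2 h3 => ?_
  obtain ⟨P, hP⟩ := sylow_exists Nat.prime_two H
  have hn := le_norm_of_der_le h2 h1
  have e : K ⊔ P = H := by
    have hle : K ⊔ P ≤ H := sup_le h1 hP.le
    have := Fact.mk Nat.prime_two
    have := normal_subgroupOf_of_le_normalizer hn
    obtain ⟨n, hn'⟩ := IsPGroup.iff_card.1 (show IsPGroup 2 (H ⧸ K.subgroupOf H) from fun x => by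
      obtain ⟨x, rfl⟩ := QuotientGroup.mk_surjective x
      exact ⟨1, (QuotientGroup.eq_one_iff (x ^ 2 ^ 1)).2 (h3 x x.2)⟩)
    have d1 : (K ⊔ P).relIndex H ∣ 2 ^ n := hn' ▸ relIndex_dvd_left H le_sup_left
    obtain ⟨m, -, hm⟩ := (Nat.dvd_prime_pow Nat.prime_two).1 d1
    refine le_antisymm hle (relIndex_eq_one.1 ?_)
    rcases m with _ | m
    · simpa using hm
    · exact absurd ((show 2 ∣ (K ⊔ P).relIndex H from hm ▸ dvd_pow_self 2 m.succ_ne_zero).trans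
        (relIndex_dvd_left H le_sup_right)) (hP.not_dvd' Nat.prime_two)
  obtain ⟨g, -, hg⟩ := sylow_Jsub Nat.prime_two hS (hP.pg Nat.prime_two) le_top
  rw [← e, BG.relIndex_sup (hP.le.trans hn), ← relIndex_cj g]
  refine h _ _ hg ⟨fun x hx y hy => ?_, fun x hx => ?_⟩
  · obtain ⟨x, hx', rfl⟩ := mem_cj'.1 hx
    obtain ⟨y, hy', rfl⟩ := mem_cj'.1 hy
    rw [show ⁅g * x * g⁻¹, g * y * g⁻¹⁆ = g * ⁅x, y⁆ * g⁻¹ by simp only [commutatorElement_def]; group]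
    exact conj_mem_cj g (h2 (commutator_mem_commutator (hP.le hx') (hP.le hy')))
  · obtain ⟨x, hx', rfl⟩ := mem_cj'.1 hx
    rw [conj_mul, ← sq]
    exact conj_mem_cj g (h3 x (hP.le hx'))

theorem half (hS : IsPGroup 2 S) (hX : X ≤ S) (h : K < X) : 2 * Nat.card K ≤ Nat.card X := by
  obtain ⟨a, ha⟩ := pg_card Nat.prime_two (pg_le hS (h.le.trans hX))
  obtain ⟨b, hb⟩ := pg_card Nat.prime_two (pg_le hS hX)
  have := card_lt h
  rw [ha, hb] at this ⊢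
  rw [← pow_succ']
  exact Nat.pow_le_pow_right (by norm_num) ((Nat.pow_lt_pow_iff_right (by norm_num)).1 this)

theorem el_comm (h : ∀ t ∈ T, t * t = 1) : T ≤ C_(T) := le_cent_iff.2 fun a ha b hb => by
  have := inv_eq_of_mul_eq_one_right (h _ (mul_mem ha hb))
  rw [mul_inv_rev, inv_eq_of_mul_eq_one_right (h a ha), inv_eq_of_mul_eq_one_right (h b hb)] at this
  exact this.symm

structure St (S T B : Subgroup G) : Prop where
  pg : IsPGroup 2 S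
  le : T ≤ S
  card : Nat.card T = 16
  sq : ∀ t ∈ T, t * t = 1
  BT : B ≤ T
  cB : Nat.card B = 4
  cent : ∀ b ∈ B, b ≠ 1 → S ⊓ C_[b] ≤ T

namespace St
section One
variable (h : St S T B)
include h

theorem ab : T ≤ C_(T) := el_comm h.sq

theorem fix (hg : g ∈ S) (h1 : g ∉ T) : Nat.card (T ⊓ C_[g] : Subgroup G) ≤ 4 := by
  have hd : B ⊓ (T ⊓ C_[g]) = ⊥ := eq_bot_iff.2 fun b hb => by_contra fun b1 =>
    h1 (h.cent b hb.1 b1 ⟨hg, mem_cent1.2 (mem_cent1.1 hb.2.2).symm⟩)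
  have := card_le (sup_le h.BT inf_le_left : B ⊔ (T ⊓ C_[g]) ≤ T)
  rw [card_sup_of_disj (le_norm_of_cent (inf_le_left.trans (h.ab.trans (cent_anti h.BT)))) hd, h.cB, h.card] at this
  omega

theorem idx : T.relIndex (S ⊓ N_(T)) ≤ 4 := by
  have nil := pg_nil Nat.prime_two h.pg
  have lt : ∀ W ≤ S, S ⊓ N_(T) ≤ N_(W) → W ≠ ⊥ → 2 * Nat.card (⁅W, S ⊓ N_(T)⁆ : Subgroup G) ≤ Nat.card W := fun W h1 h2 h3 =>
    half h.pg h1 (nil_comm_lt h2 (nil_of_le nil (sup_le h1 inf_le_left)) h3)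
  have key : ∀ W : Subgroup G, ∀ b ∈ B, b ≠ 1 → b ∈ W → Nat.card (⁅W, S ⊓ N_(T)⁆ : Subgroup G) ≤ 4 →
      T.relIndex (S ⊓ N_(T)) ≤ 4 := fun W b hb b1 hW e => by
    refine le_trans ?_ ((H04.relIndex_centralizer_le (x := b) (D := S ⊓ N_(T)) fun y hy =>
      commutator_mem_commutator hW hy).trans e)
    rw [← inf_relIndex_right C_[b]]
    exact relIndex_le_of_le_left (fun y hy => h.cent b hb b1 ⟨hy.2.1, hy.1⟩) (relIndex_ne_zero _ _)
  have h0 : T ≠ ⊥ := fun e => by have := h.card; rw [e, card_bot] at this; omega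
  have h1 := lt T h.le inf_le_right h0
  have hle : ⁅T, S ⊓ N_(T)⁆ ≤ T := comm_le_left inf_le_right
  by_cases k : B ⊓ ⁅T, S ⊓ N_(T)⁆ = ⊥
  · obtain ⟨b, hb, b1⟩ := exists_mem_ne_one (A := B) fun e => by have := h.cB; rw [e, card_bot] at this; omega
    refine key T b hb b1 (h.BT hb) ?_
    have := card_le (sup_le h.BT hle)
    rw [card_sup_of_disj (le_norm_of_cent (hle.trans (h.ab.trans (cent_anti h.BT)))) k, h.cB, h.card] at this
    omega
  · obtain ⟨b, hb, b1⟩ := exists_mem_ne_one k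
    have := lt _ (hle.trans h.le) (norm_comm inf_le_right (le_norm _)) (ne_bot_of_mem hb.2 b1)
    exact key _ b hb.1 b1 hb.2 (by have := h.card; omega)

theorem idx' (hH : H ≤ S ⊓ N_(T)) : T.relIndex H ≤ 4 := (idx_mono hH).trans h.idx

theorem bound (hH : H ≤ S ⊓ N_(T)) (e : EA H K) (hg : g ∈ H) (h1 : g ∉ T) : K.relIndex (T ⊓ H) ≤ 4 :=
  (comm_bound (inf_normalizer_le_normalizer_inf ⟨(hH hg).2, le_norm H hg⟩) fun y hy => e.comm g hg y hy.2).trans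
    ((card_le (inf_le_inf_right _ inf_le_left)).trans (h.fix (hH hg).1 h1))

theorem case1 (hH : H ≤ S ⊓ N_(T)) (e : EA H K) : K.relIndex H ≤ 16 := by
  by_cases k : H ≤ T
  · exact (le_card K H).trans ((card_le k).trans h.card.le)
  obtain ⟨g, hg, h1⟩ := SetLike.not_le_iff_exists.1 k
  exact (step K T H).trans (Nat.mul_le_mul (h.bound hH e hg h1) (h.idx' hH))

theorem conj (hu : u ∈ S) : St S (cj u T) (cj u B) := by
  refine ⟨h.pg, cj_le_of_mem h.le hu, by rw [card_cj, h.card], fun t ht => ?_, cj_mono u h.BT, by rw [card_cj, h.cB],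
    fun b hb b1 => ?_⟩
  · obtain ⟨t, ht', rfl⟩ := mem_cj'.1 ht
    rw [conj_mul, h.sq t ht']; simp
  · obtain ⟨b, hb', rfl⟩ := mem_cj'.1 hb
    have := cj_mono u (h.cent b hb' (by simpa using b1))
    rwa [cj_inf, cj_of_mem hu, cj_cent1] at this

end One

section Two
variable (h : St S T B) (h' : St S T' B') (hne : T ≠ T') (hn : T' ≤ N_(T))
include h h' hne hn

theorem two : Nat.card (T ⊓ T' : Subgroup G) = 4 ∧ T ⊔ T' = S ⊓ N_(T) := by
  obtain ⟨g, hg, h1⟩ := SetLike.not_le_iff_exists.1 fun e => hne (eq_of_le_of_card_eq e (h'.card.trans h.card.symm)).symm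
  have a1 := (card_le (inf_le_inf_left T (h'.ab.trans (cent_le_cent1 hg)))).trans (h.fix (h'.le hg) h1)
  have a2 := card_sup_mul hn
  have hle : T ⊔ T' ≤ S ⊓ N_(T) := sup_le (le_inf h.le (le_norm T)) (le_inf h'.le hn)
  have a3 := card_le hle
  have a4 := card_mul_relIndex (le_inf h.le (le_norm T))
  have a5 := h.idx
  rw [h.card, h'.card] at a2
  rw [h.card] at a4
  have a6 : Nat.card (S ⊓ N_(T) : Subgroup G) ≤ 64 := by omega
  refine ⟨by nlinarith, eq_of_le_of_card_le hle (by nlinarith)⟩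

theorem cz (hg : g ∈ S ⊓ N_(T)) (h1 : g ∉ T) : T ⊓ C_[g] ≤ T' := by
  have k : T ⊓ T' ≤ T ⊓ C_[g] := le_inf inf_le_left ((le_cent_sup (inf_le_left.trans h.ab) (inf_le_right.trans h'.ab)).trans
    (cent_le_cent1 ((h.two h' hne hn).2.ge hg)))
  rw [← eq_of_le_of_card_le k ((h.fix hg.1 h1).trans (h.two h' hne hn).1.ge)]
  exact inf_le_right

theorem dec (hx : x ∈ S ⊓ N_(T)) : ∃ t ∈ T, ∃ t' ∈ T', t * t' = x := (mem_sup_norm hn).1 ((h.two h' hne hn).2.ge hx)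

theorem sqT (hx : x ∈ S ⊓ N_(T)) : x * x ∈ T := by
  obtain ⟨t, ht, t', ht', rfl⟩ := h.dec h' hne hn hx
  rw [show t * t' * (t * t') = t * (t' * t * t'⁻¹) * (t' * t') by group, h'.sq t' ht', mul_one]
  exact mul_mem ht (conj_mem_of_norm (hn ht') ht)

theorem inv (hx : x ∈ S ⊓ N_(T)) (e : x * x = 1) : x ∈ T ∨ x ∈ T' := by
  obtain ⟨t, ht, t', ht', rfl⟩ := h.dec h' hne hn hx
  by_cases k : t' ∈ T
  · exact .inl (mul_mem ht k)
  refine .inr (mul_mem (h.cz h' hne hn ⟨h'.le ht', hn ht'⟩ k ⟨ht, mem_cent1.2 ?_⟩) ht')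
  have := inv_eq_of_mul_eq_one_right e
  rw [mul_inv_rev, inv_eq_of_mul_eq_one_right (h.sq t ht), inv_eq_of_mul_eq_one_right (h'.sq t' ht')] at this
  exact this.symm

theorem sub (hX : X ≤ S ⊓ N_(T)) (e : ∀ x ∈ X, x * x = 1) : X ≤ T ∨ X ≤ T' := by
  by_contra! k
  obtain ⟨a, ha, a1⟩ := SetLike.not_le_iff_exists.1 k.1
  obtain ⟨b, hb, b1⟩ := SetLike.not_le_iff_exists.1 k.2
  have i := fun x hx => h.inv h' hne hn (hX hx) (e x hx)
  rcases i _ (mul_mem ha hb) with c | c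
  · exact a1 ((mul_mem_cancel_right ((i b hb).resolve_right b1)).1 c)
  · exact b1 ((mul_mem_cancel_left ((i a ha).resolve_left a1)).1 c)

theorem sw (hu : u ∈ S ⊓ N_(S ⊓ N_(T))) (h1 : u ∉ S ⊓ N_(T)) : cj u T = T' := by
  have c := h.conj hu.1
  rcases h.sub h' hne hn (cj_le_of_mem_norm (le_inf h.le (le_norm T)) hu.2) c.sq with k | k
  · exact absurd ⟨hu.1, mem_norm_of_cj_le k⟩ h1
  · exact eq_of_le_of_card_eq k (c.card.trans h'.card.symm)

end Two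

section Three
variable (h : St S T B) (h' : St S T' B') (hne : T ≠ T') (hn : T' ≤ N_(T)) (hn' : T ≤ N_(T'))
include h h' hne hn hn'

theorem neq : S ⊓ N_(T') = S ⊓ N_(T) := by rw [← (h.two h' hne hn).2, ← (h'.two h hne.symm hn').2, sup_comm]

theorem sw' (hu : u ∈ S ⊓ N_(S ⊓ N_(T))) (h1 : u ∉ S ⊓ N_(T)) : cj u T' = T := by
  rw [← h.neq h' hne hn hn'] at hu h1
  exact h'.sw h hne.symm hn' hu h1

theorem idx2 (hX : X ≤ S ⊓ N_(S ⊓ N_(T))) : (S ⊓ N_(T)).relIndex X ≤ 2 := by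
  by_cases k : X ≤ S ⊓ N_(T)
  · rw [relIndex_eq_one.2 k]; norm_num
  obtain ⟨u, hu, h1⟩ := SetLike.not_le_iff_exists.1 k
  refine (relIndex_eq_two_iff.2 ⟨u, hu, fun b hb => ?_⟩).le
  by_cases c : b ∈ S ⊓ N_(T)
  · exact .inr ⟨c, fun e => h1 ((mul_mem_cancel_left c).1 e)⟩
  · refine .inl ⟨⟨mul_mem (hX hb).1 (hX hu).1, cj_eq_self_iff.1 ?_⟩, c⟩
    rw [← cj_cj, h.sw h' hne hn (hX hu) h1, h.sw' h' hne hn hn' (hX hb) c]

theorem e16 (hE : E ≤ S ⊓ N_(S ⊓ N_(T))) (e : ∀ x ∈ E, x * x = 1) (hc : Nat.card E = 16) : E ≤ S ⊓ N_(T) := by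
  by_contra k
  obtain ⟨u, hu, h1⟩ := SetLike.not_le_iff_exists.1 k
  have c : cj u (S ⊓ N_(T) ⊓ E) = S ⊓ N_(T) ⊓ E := cj_of_mem_cent (cent_anti inf_le_right (el_comm e hu))
  have hle : S ⊓ N_(T) ⊓ E ≤ T ⊓ T' := by
    rcases h.sub h' hne hn (X := S ⊓ N_(T) ⊓ E) inf_le_left fun x hx => e x hx.2 with k | k
    · exact le_inf k (c.ge.trans ((cj_mono u k).trans (h.sw h' hne hn (hE hu) h1).le))
    · exact le_inf (c.ge.trans ((cj_mono u k).trans (h.sw' h' hne hn hn' (hE hu) h1).le)) k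
  have a1 := card_le hle
  have a2 := card_inf_mul_relIndex (S ⊓ N_(T)) E
  have a3 := h.idx2 h' hne hn hn' hE
  rw [(h.two h' hne hn).1] at a1
  nlinarith

theorem top : S ≤ N_(S ⊓ N_(T)) := by
  refine (nil_eq_of_norm_le (pg_nil Nat.prime_two h.pg) (inf_le_left : S ⊓ N_(S ⊓ N_(T)) ≤ S) fun s hs =>
    ⟨hs.1, mem_norm_of_cj_le ?_⟩).ge.trans inf_le_right
  have l : S ⊓ N_(T) ≤ S ⊓ N_(S ⊓ N_(T)) := le_inf inf_le_left (le_norm _)
  nth_rewrite 1 [← (h.two h' hne hn).2]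
  rw [cj_sup]
  exact sup_le (h.e16 h' hne hn hn' (cj_le_of_mem_norm ((le_inf h.le (le_norm T)).trans l) hs.2) (h.conj hs.1).sq (h.conj hs.1).card)
    (h.e16 h' hne hn hn' (cj_le_of_mem_norm ((le_inf h'.le hn).trans l) hs.2) (h'.conj hs.1).sq (h'.conj hs.1).card)

theorem case2 (hH : H ≤ S) (e : EA H K) : K.relIndex H ≤ 16 := by
  by_cases k : H ≤ S ⊓ N_(T)
  · exact h.case1 k e
  obtain ⟨u, hu, h1⟩ := SetLike.not_le_iff_exists.1 k
  have hS : H ≤ S ⊓ N_(S ⊓ N_(T)) := le_inf hH (hH.trans (h.top h' hne hn hn'))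
  refine (step K (S ⊓ N_(T)) H).trans ((Nat.mul_le_mul (?_ : _ ≤ 8) (h.idx2 h' hne hn hn' hS)).trans (by norm_num))
  set H0 := S ⊓ N_(T) ⊓ H with eH
  have l0 : H0 ≤ S ⊓ N_(T) := inf_le_left
  have e0 : EA H0 K := e.mono inf_le_right
  have uH : ∀ x ∈ H0, u * x * u⁻¹ ∈ H0 := fun x hx =>
    ⟨conj_mem_of_norm (hS hu).2 hx.1, H.mul_mem (H.mul_mem hu hx.2) (H.inv_mem hu)⟩
  have s1 := h.sw h' hne hn (hS hu) h1
  have s2 := h.sw' h' hne hn hn' (hS hu) h1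
  have m1 : ∀ x, u * x * u⁻¹ ∈ T' ↔ x ∈ T := fun x => by rw [← s1, mem_cj]; simp [mul_assoc]
  have m2 : ∀ x, u * x * u⁻¹ ∈ T ↔ x ∈ T' := fun x => by rw [← s2, mem_cj]; simp [mul_assoc]
  have c4 := (h.two h' hne hn).1
  by_cases k1 : T ⊓ H0 ≤ T'
  · have c0 : Nat.card (T ⊓ H0 : Subgroup G) ≤ 4 := (card_le (le_inf inf_le_left k1)).trans c4.le
    by_cases k2 : H0 ≤ T
    · rw [inf_eq_right.2 k2] at c0
      exact (le_card K H0).trans (by omega)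
    obtain ⟨g, hg, g1⟩ := SetLike.not_le_iff_exists.1 k2
    have g2 : g * g ≠ 1 := fun e => (h.inv h' hne hn (l0 hg) e).elim g1 fun c =>
      g1 ((m1 g).1 (k1 ⟨(m2 g).2 c, uH g hg⟩))
    have a1 := card_inf_mul_relIndex K (T ⊓ H0)
    have a2 : 1 < Nat.card (K ⊓ (T ⊓ H0) : Subgroup G) := one_lt_card_iff_ne_bot _ |>.2
      (ne_bot_of_mem ⟨e0.sq g hg, h.sqT h' hne hn (l0 hg), mul_mem hg hg⟩ g2)
    exact (step K T H0).trans ((Nat.mul_le_mul (by nlinarith : _ ≤ 2) (h.idx' l0)).trans (by norm_num))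
  obtain ⟨t, ht, t1⟩ := SetLike.not_le_iff_exists.1 k1
  have t2 : u * t * u⁻¹ ∉ T := fun c => t1 ((m2 t).1 c)
  have nK : H0 ≤ N_(K ⊓ H0) := le_norm_of_der_le (commutator_le.2 fun a ha b hb =>
    ⟨e0.comm a ha b hb, der_le H0 (commutator_mem_commutator ha hb)⟩) inf_le_right
  have l1 : K ⊓ H0 ⊔ T ⊓ H0 ≤ H0 := sup_le inf_le_right inf_le_right
  have a1 := relIndex_mul (le_sup_left : K ⊓ H0 ≤ K ⊓ H0 ⊔ T ⊓ H0) l1
  have a2 := relIndex_mul (le_sup_right : T ⊓ H0 ≤ K ⊓ H0 ⊔ T ⊓ H0) l1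
  have a3 := h.bound l0 e0 (uH t ht.2) t2
  have a4 := h.idx' l0
  have a5 : (T ⊓ H0).relIndex (K ⊓ H0 ⊔ T ⊓ H0) ≠ 1 := fun c => t2 ((T.mul_mem_cancel_right (T.inv_mem ht.1)).1
    (relIndex_eq_one.1 c (mem_sup_left ⟨e.comm u hu t ht.2.2, H0.mul_mem (uH t ht.2) (H0.inv_mem ht.2)⟩)).1)
  have a6 := relIndex_ne_zero (T ⊓ H0) (K ⊓ H0 ⊔ T ⊓ H0)
  rw [BG.relIndex_sup (inf_le_right.trans nK), inf_relIndex_right, ← inf_relIndex_right, inf_assoc,
    inf_eq_right.2 (inf_le_right : T ⊓ H0 ≤ H0), inf_relIndex_right] at a1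
  rw [inf_relIndex_right] at a2
  have a7 : (K ⊓ H0 ⊔ T ⊓ H0).relIndex H0 ≤ 2 := by
    have : 2 ≤ (T ⊓ H0).relIndex (K ⊓ H0 ⊔ T ⊓ H0) := by omega
    nlinarith
  nlinarith

end Three

theorem main (h : St S T B) (hH : H ≤ S) (e : EA H K) : K.relIndex H ≤ 16 := by
  by_cases k : S ≤ N_(T)
  · exact h.case1 (le_inf hH (hH.trans k)) e
  obtain ⟨u, hu, h1⟩ := SetLike.exists_of_lt (nil_lt_norm (pg_nil Nat.prime_two h.pg)
    (lt_of_le_of_ne (inf_le_left : S ⊓ N_(T) ≤ S) fun c => k (inf_eq_left.1 c)))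
  have l : T ≤ S ⊓ N_(T) := le_inf h.le (le_norm T)
  refine h.case2 (h.conj hu.1) (fun c => h1 ⟨hu.1, cj_eq_self_iff.1 c.symm⟩) ((cj_le_of_mem_norm l hu.2).trans inf_le_right) ?_ hH e
  rw [← cj_norm, le_cj_iff]
  exact (cj_le_of_mem_norm l (inv_mem hu.2)).trans inf_le_right

end St

end H01.SR
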