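import Mathlib
import Cfsg.Agent.H01.XT2

/-!
# Quadratic spaces of order 4096 over `𝔽₂` (namespace `H01.XF`)

`QF`, `QF.iso64`, `QF.perp`, `QF.gauss` (number of singular vectors of a non-degenerate subspace), `QF.fpf`.
-/

set_option autoImplicit false
set_option linter.unusedSectionVars false
open H01.XT

namespace H01.XF
universe u
variable {V : Type u} [AddCommGroup V] [Module (ZMod 2) V] [Finite V] {U W : AddSubgroup V} {u v w : V}

structure QF (β : V →+ V →+ ZMod 2) (q : V → ZMod 2) : Prop where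
  card : Nat.card V = 4096
  pol : ∀ u v, q (u + v) = q u + q v + β u v
  nd : ∀ u, (∀ v, β u v = 0) → u = 0

def ch (x : ZMod 2) : ℤ := if x = 0 then 1 else -1
theorem ch_add : ∀ x y, ch (x + y) = ch x * ch y := by decide
theorem ch_sq : ∀ x, ch x * ch x = 1 := by decide

namespace QF
variable {β : V →+ V →+ ZMod 2} {q : V → ZMod 2} (h : QF β q)
include h

theorem q0 : q 0 = 0 := by
  have := h.pol 0 0
  simp only [add_zero, map_zero] at this
  exact lc this
theorem sym (u v : V) : β u v = β v u := by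
  have := h.pol u v
  rw [add_comm, h.pol] at this
  exact lc this
theorem alt (v : V) : β v v = 0 := by
  have := h.pol v v
  rw [show v + v = 0 from lc0, h.q0] at this
  exact lc this
theorem inv {f : V →+ V} (k : ∀ v, q (f v) = q v) (u v : V) : β (f u) (f v) = β u v := by
  have := h.pol (f u) (f v)
  rw [← map_add, k, k, k, h.pol] at this
  exact lc this

theorem iso64 (k : ∀ u ∈ U, ∀ v ∈ U, β u v = 0) : Nat.card U ≤ 64 := by
  let B : LinearMap.BilinForm (ZMod 2) V := LinearMap.mk₂ (ZMod 2) (fun u v => β u v) (by simp)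
    (fun c u v => ZMod.map_smul (β.flip v) c u) (by simp) fun c u v => ZMod.map_smul (β u) c v
  let S := AddSubgroup.toZModSubmodule 2 U
  have l : S ≤ B.orthogonal S := fun u hu v hv => k v hv u hu
  have a := Submodule.finrank_mono l
  rw [LinearMap.BilinForm.finrank_orthogonal (B := B)
    ⟨fun u m => h.nd u m, fun u m => h.nd u fun v => (h.sym _ _).trans (m v)⟩] at a
  have b := Module.natCard_eq_pow_finrank (K := ZMod 2) (V := V)
  have c : Nat.card U = _ := Module.natCard_eq_pow_finrank (K := ZMod 2) (V := S)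
  rw [h.card, Nat.card_zmod] at b
  have d : Module.finrank (ZMod 2) V = 12 := (Nat.pow_right_injective le_rfl (b.symm.trans (by norm_num : 4096 = 2 ^ 12)))
  rw [c, Nat.card_zmod]
  exact Nat.pow_le_pow_right (i := Module.finrank (ZMod 2) S) (j := 6) two_pos (by omega)

theorem perp (k : ∀ u ∈ U, ∀ v ∈ U, β u v = 0) (c : 32 < Nat.card U) (m : ∀ u ∈ U, β w u = 0) : w ∈ U := by
  by_contra n
  have k' : ∀ v ∈ ex U w, ∀ u ∈ U, β v u = 0 := by
    rintro v (a | a) u hu
    · exact k v a u hu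
    · have := k _ a u hu
      rwa [map_add, AddMonoidHom.add_apply, m u hu, add_zero] at this
  have := h.iso64 (U := ex U w) (by
    rintro v a u (b | b)
    · exact k' v a u b
    · have := k' v a _ b
      rw [map_add, h.sym v w] at this
      rcases a with a | a
      · rwa [m v a, add_zero] at this
      · have e := m _ a
        rw [map_add, h.alt, add_zero] at e
        rwa [e, add_zero] at this)
  have := card_ex n
  omega

theorem gauss (k : ∀ u ∈ U, (∀ v ∈ U, β u v = 0) → u = 0) :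
    (2 * (Nat.card {v | v ∈ U ∧ q v = 0} : ℤ) - Nat.card U) ^ 2 = Nat.card U := by
  classical
  have := Fintype.ofFinite U
  have e1 : ∑ v : U, ch (q v) = 2 * (Nat.card {v | v ∈ U ∧ q v = 0} : ℤ) - Nat.card U := by
    have : ∀ v : U, ch (q v) = 2 * (if q v = 0 then 1 else 0) - 1 := fun v => by unfold ch; split_ifs <;> rfl
    simp only [this, Finset.sum_sub_distrib, ← Finset.mul_sum, Finset.sum_boole, Finset.sum_const, Finset.card_univ,
      nsmul_eq_mul, mul_one, Nat.card_eq_fintype_card (α := U)]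
    congr 3
    rw [← Fintype.card_subtype, ← Nat.card_eq_fintype_card]
    exact Nat.card_congr (Equiv.subtypeSubtypeEquivSubtypeInter (· ∈ U) fun v => q v = 0)
  have e2 : ∀ w : U, ∑ v : U, ch (β v w) = if w = 0 then (Nat.card U : ℤ) else 0 := fun w => by
    split_ifs with n
    · simp [n, ch]
    · obtain ⟨x, i, j⟩ : ∃ x ∈ U, β x w = 1 := by
        by_contra! o
        exact n (Subtype.ext (k w w.2 fun v i => (h.sym _ _).trans ((z2 _).resolve_right (o v i))))
      have := Equiv.sum_comp (Equiv.addRight (⟨x, i⟩ : U)) fun v : U => ch (β v w)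
      simp only [Equiv.coe_addRight, AddSubgroup.coe_add, map_add, AddMonoidHom.add_apply, ch_add, j,
        show ch 1 = -1 from rfl, mul_neg, mul_one, Finset.sum_neg_distrib] at this
      omega
  rw [← e1, sq, Finset.sum_mul_sum]
  have e3 : ∀ u : U, ∑ v : U, ch (q u) * ch (q v) = ∑ w : U, ch (q w) * ch (β u w) := fun u => by
    rw [← Equiv.sum_comp (Equiv.addLeft u)]
    refine Finset.sum_congr rfl fun w _ => ?_
    simp only [Equiv.coe_addLeft, AddSubgroup.coe_add, h.pol, ch_add, ← mul_assoc, ch_sq, one_mul]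
  simp only [e3]
  rw [Finset.sum_comm]
  simp only [← Finset.mul_sum, e2]
  simp [h.q0, ch]

theorem fpf {ω Y : V →+ V} (hω : ∀ v, ω (ω (ω v)) = v) (hY : ∀ v, Y (Y (Y (Y (Y (Y (Y v)))))) = v)
    (c : ∀ v, ω (Y v) = Y (ω v)) (qω : ∀ v, q (ω v) = q v) (qY : ∀ v, q (Y v) = q v) (hu : u + ω u + ω (ω u) = 0)
    (n : Y u ≠ u) (v : V) : v + ω v + ω (ω v) = 0 ∧ (Y v = v → v = 0) := by
  have : Fact (Nat.Prime 7) := ⟨by norm_num⟩
  obtain ⟨σ, hσ⟩ : ∃ σ : V →+ V, ∀ v, σ v = v + Y v + Y (Y v) + Y (Y (Y v)) + Y (Y (Y (Y v))) + Y (Y (Y (Y (Y v)))) +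
      Y (Y (Y (Y (Y (Y v))))) := ⟨AddMonoidHom.id V + Y + Y.comp Y + Y.comp (Y.comp Y) + Y.comp (Y.comp (Y.comp Y)) +
    Y.comp (Y.comp (Y.comp (Y.comp Y))) + Y.comp (Y.comp (Y.comp (Y.comp (Y.comp Y)))), fun _ => rfl⟩
  have σω : ∀ v, σ (ω v) = ω (σ v) := fun v => by simp only [hσ, map_add, c]
  have σY : ∀ v, σ (Y v) = σ v := fun v => by simp only [hσ, hY]; exact lc0
  have Yσ : ∀ v, Y (σ v) = σ v := fun v => by simp only [hσ, map_add, hY]; exact lc0
  have σσ : ∀ v, σ (σ v) = σ v := fun v => by rw [hσ (σ v)]; simp only [Yσ]; exact lc0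
  let U : AddSubgroup V := (AddMonoidHom.id V + ω + ω.comp ω).ker ⊓ σ.ker
  have mU : ∀ v, v ∈ U ↔ v + ω v + ω (ω v) = 0 ∧ σ v = 0 := fun _ => Iff.rfl
  have uω : ∀ v ∈ U, ω v ∈ U := fun v m => (mU _).2 ⟨by simpa using congrArg ω ((mU _).1 m).1, by
    rw [σω, ((mU _).1 m).2, map_zero]⟩
  have uY : ∀ v ∈ U, Y v ∈ U := fun v m => (mU _).2 ⟨by simpa [c] using congrArg Y ((mU _).1 m).1, by
    rw [σY, ((mU _).1 m).2]⟩
  have fω : ∀ v ∈ U, ω v = v → v = 0 := fun v m e => by
    have := ((mU _).1 m).1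
    rw [e, e] at this; exact lc this
  have fY : ∀ v ∈ U, Y v = v → v = 0 := fun v m e => by
    have := ((mU _).1 m).2
    rw [hσ, e, e, e, e, e, e] at this; exact lc this
  have c3 := cnt 3 ω hω U U.zero_mem ω.map_zero uω fω
  have c5 := cnt 7 Y hY U U.zero_mem Y.map_zero uY fY
  have d3 := cnt 3 ω hω {v | v ∈ U ∧ q v = 0} ⟨U.zero_mem, h.q0⟩ ω.map_zero (fun v m => ⟨uω v m.1, (qω v).trans m.2⟩)
    fun v m => fω v m.1
  have d5 := cnt 7 Y hY {v | v ∈ U ∧ q v = 0} ⟨U.zero_mem, h.q0⟩ Y.map_zero (fun v m => ⟨uY v m.1, (qY v).trans m.2⟩)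
    fun v m => fY v m.1
  have m1 : u + Y u ∈ U := (mU _).2 ⟨by
    have := congrArg Y hu
    simp only [map_add, map_zero, c] at this ⊢
    exact lc congr($hu + $this), by rw [map_add, σY]; exact lc0⟩
  have n1 : u + Y u ≠ 0 := fun e => n (lc e)
  have dv : Nat.card U ∣ 2 ^ 12 := by have := U.card_addSubgroup_dvd_card; rwa [h.card] at this
  have g2 := grow (U := ⊥) bot_le m1 n1
  obtain ⟨k, hk, e⟩ := (Nat.dvd_prime_pow Nat.prime_two).1 dv
  simp only [SetLike.coe_sort_coe, Nat.ModEq, AddSubgroup.card_bot] at c3 c5 d3 d5 g2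
  have : Nat.card U = 64 ∨ Nat.card U = 4096 := by
    interval_cases k <;> omega
  rcases this with e | e
  swap
  · have : U = ⊤ := AddSubgroup.eq_top_of_card_eq _ (e.trans h.card.symm)
    exact ⟨((mU v).1 (this ▸ trivial)).1, fY v (this ▸ trivial)⟩
  exfalso
  have := h.gauss (U := U) fun x m1 k => h.nd x fun v => by
    have aω : ∀ u v, β u (ω v) = β (ω (ω u)) v := fun u v => by rw [← h.inv qω (ω (ω u)), hω]
    have aY : ∀ u v, β u (Y v) = β (Y (Y (Y (Y (Y (Y u)))))) v := fun u v => by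
      rw [← h.inv qY (Y (Y (Y (Y (Y (Y u)))))), hY]
    have aσ : ∀ u v, β u (σ v) = β (σ u) v := fun u v => by
      simp only [hσ, map_add, aY, hY, AddMonoidHom.add_apply]; exact lc0
    obtain ⟨w, hw⟩ : ∃ w, w = ω v + ω (ω v) := ⟨_, rfl⟩
    have w0 : w + ω w + ω (ω w) = 0 := by simp only [hw, map_add, hω]; exact lc0
    have a := k (w + σ w) ((mU _).2 ⟨by
      have a1 := congrArg σ w0
      simp only [map_add, map_zero, σω] at a1 ⊢
      exact lc congr($a1 + $w0), by rw [map_add, σσ]; exact lc0⟩)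
    have c := congrArg (β · v) ((mU x).1 m1).1
    rw [map_add, aσ, ((mU x).1 m1).2, hw] at a
    simp only [map_add, aω, hω, AddMonoidHom.add_apply, map_zero, AddMonoidHom.zero_apply] at a c
    exact lc congr($a + $c)
  rw [e] at this
  generalize Nat.card {v | v ∈ U ∧ q v = 0} = m at *
  have : (2 * (m : ℤ) - 72) * (2 * m - 56) = 0 := by push_cast at this; linarith
  rcases mul_eq_zero.1 this with e | e <;> omega

theorem n0 {ω : V →+ V} (hω : ∀ v, ω (ω (ω v)) = v) (qω : ∀ v, q (ω v) = q v) (f : ∀ v, v + ω v + ω (ω v) = 0) :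
    {v | v ≠ 0 ∧ q v = 0}.ncard = 2079 := by
  have a := h.gauss (U := ⊤) fun u _ k => h.nd u fun v => k v trivial
  have b := cnt 3 ω hω {v | v ∈ (⊤ : AddSubgroup V) ∧ q v = 0} ⟨trivial, h.q0⟩ ω.map_zero
    (fun v m => ⟨trivial, (qω v).trans m.2⟩) fun v _ e => by have := f v; rw [e, e] at this; exact lc this
  have c : {v | v ∈ (⊤ : AddSubgroup V) ∧ q v = 0} = insert 0 {v | v ≠ 0 ∧ q v = 0} := by
    ext v; by_cases e : v = 0 <;> simp [e, h.q0]
  rw [c, Nat.card_coe_set_eq, Set.ncard_insert_of_notMem (by simp)] at a b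
  rw [AddSubgroup.card_top, h.card] at a
  generalize {v | v ≠ 0 ∧ q v = 0}.ncard = m at *
  have : (2 * (m : ℤ) - 4158) * (2 * m - 4030) = 0 := by push_cast at a; linarith
  unfold Nat.ModEq at b
  rcases mul_eq_zero.1 this with e | e <;> omega

end QF
end H01.XF
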