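import Mathlib
import Cfsg.Agent.H01.XF1
import Cfsg.Agent.BG.Api1

/-!
# The module `Q/Z(Q)` for `2^{1+12}.3.U₄(3).2`, part 1 (namespace `H01.XF`)

`Gm` (the acting group), `Hy` (data of a conjugate `a` of the central involution), `Hy.fp`, `Hy.main`.
-/

set_option autoImplicit false
set_option linter.unusedSectionVars false
open H01.XT Subgroup

namespace H01.XF
universe u
variable {V : Type u} [AddCommGroup V] [Module (ZMod 2) V] [Finite V] {Γ : Type u} [Group Γ] [Finite Γ]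

structure Gm (T : Γ → V →+ V) (d : Γ) (M : Subgroup Γ) (β : V →+ V →+ ZMod 2) (q : V → ZMod 2) : Prop extends QF β q where
  one : ∀ v, T 1 v = v
  mul : ∀ x y v, T (x * y) v = T x (T y v)
  fai : ∀ x, (∀ v, T x v = v) → x = 1
  qT : ∀ x v, q (T x v) = q v
  d3 : d * (d * d) = 1
  d1 : d ≠ 1
  dn : ∀ g, g * d * g⁻¹ = d ∨ g * d * g⁻¹ = d * d
  dM : d ∈ M
  Md : ∀ g ∈ M, g * d = d * g
  Mi : M.index = 2
  cΓ : Nat.card Γ = 19595520
  sm : ∀ K : Subgroup Γ, K ≤ M → (∀ g ∈ M, ∀ k ∈ K, g * k * g⁻¹ ∈ K) → K ≤ zpowers d ∨ ∀ g ∈ M, g ^ 3 ∈ K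
  mi : ∀ S : Subgroup Γ, S ≤ M → d ∈ S → S ≠ M → 112 ≤ S.relIndex M

structure Hy (T : Γ → V →+ V) (d : Γ) (M X : Subgroup Γ) (β : V →+ V →+ ZMod 2) (q : V → ZMod 2) (a : V)
    (R : AddSubgroup V) : Prop extends Gm T d M β q where
  a0 : a ≠ 0
  qa : q a = 0
  aR : a ∈ R
  iso : ∀ u ∈ R, ∀ v ∈ R, β u v = 0
  qR : ∀ u ∈ R, q u = 0
  X2 : ∀ x ∈ X, x * x = 1
  Xa : ∀ x ∈ X, T x a = a
  Xp : ∀ x ∈ X, ∀ v, β a v = 0 → v + T x v ∈ R
  XR : ∀ x ∈ X, ∀ r ∈ R, T x r = r ∨ T x r = r + a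
  Xe : ∀ x ∈ X, ∀ e, β a e = 1 → e + T x e ∈ R → x = 1
  cX : Nat.card X * Nat.card R = 2048
  st : ∀ g, T g a = a → (∀ x ∈ X, g * x * g⁻¹ ∈ X) ∧ ∀ r ∈ R, T g r ∈ R

abbrev NN (ω : V →+ V) (a : V) : AddSubgroup V := ex (ex ⊥ a) (ω a)

theorem mem_NN {ω : V →+ V} {a v : V} : v ∈ NN ω a ↔ v = 0 ∨ v = a ∨ v = ω a ∨ v = ω a + a := by
  simp only [mem_ex, AddSubgroup.mem_bot, or_assoc]
  exact or_congr_right (or_congr ⟨fun e => lc e, fun e => lc e⟩ (or_congr ⟨fun e => lc e, fun e => lc e⟩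
    ⟨fun e => lc e, fun e => lc e⟩))

variable {T : Γ → V →+ V} {d x y g : Γ} {M X : Subgroup Γ} {β : V →+ V →+ ZMod 2} {q : V → ZMod 2} {a u v w : V}
  {R : AddSubgroup V}

namespace Gm
variable (h : Gm T d M β q)
include h

theorem li (x : Γ) (v : V) : T x⁻¹ (T x v) = v := by rw [← h.mul, inv_mul_cancel, h.one]
theorem ri (x : Γ) (v : V) : T x (T x⁻¹ v) = v := by rw [← h.mul, mul_inv_cancel, h.one]
theorem inj (x : Γ) (e : T x u = T x v) : u = v := by rw [← h.li x u, e, h.li]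
theorem nz (x : Γ) (n : v ≠ 0) : T x v ≠ 0 := fun e => n (h.inj x (e.trans (map_zero _).symm))
theorem βT (x : Γ) (u v : V) : β (T x u) (T x v) = β u v := h.inv (h.qT x) u v
theorem ω3 (v : V) : T d (T d (T d v)) = v := by rw [← h.mul d d v, ← h.mul, h.d3, h.one]
theorem cω (hx : x ∈ M) (v : V) : T x (T d v) = T d (T x v) := by rw [← h.mul, ← h.mul, h.Md x hx]
theorem aω (u v : V) : β u (T d v) = β (T d (T d u)) v := by rw [← h.βT d (T d (T d u)), h.ω3]
theorem fx (e : T x u = u) (v : V) : β u (v + T x v) = 0 := by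
  rw [map_add, ← h.βT x u v, e]; exact lc0
theorem cM : Nat.card M = 9797760 := by
  have := M.card_mul_index
  rw [h.Mi, h.cΓ] at this; omega

end Gm

namespace Hy
variable (h : Hy T d M X β q a R)
include h

theorem xx (hx : x ∈ X) (v : V) : T x (T x v) = v := by rw [← h.mul, h.X2 x hx, h.one]

theorem hω : T d a ≠ a := fun e => by
  have x1 : ∀ x ∈ X, ∀ v, T x (T d v) = T d (T x v) := fun x hx v => by
    rw [← h.mul, ← h.mul]; congr 2
    rcases h.dn x with k | k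
    · exact mul_inv_eq_iff_eq_mul.1 k
    · have m := h.X2 _ (mul_mem hx (inv_mem ((h.st d e).1 x hx)))
      rw [show x * (d * x * d⁻¹)⁻¹ = x * d * x⁻¹ * d⁻¹ by group, k, mul_inv_cancel_right] at m
      have := h.d3
      rw [m, mul_one] at this; exact absurd this h.d1
  have ba : ∀ v, β a (T d v) = β a v := fun v => by rw [← h.βT d a v, e]
  obtain ⟨e0, he⟩ := not_forall.1 (mt (h.nd a) h.a0)
  obtain ⟨c, hc⟩ : ∃ c, c = e0 + T d e0 + T d (T d e0) := ⟨_, rfl⟩
  have c1 : β a c = 1 := by simp only [hc, map_add, ba, z2' _ he]; rfl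
  have c2 : T d c = c := by simp only [hc, map_add, h.ω3]; exact lc0
  let f : X × R → (β a).ker := fun p => ⟨c + T p.1 c + p.2, by
    rw [AddMonoidHom.mem_ker, map_add, h.fx (h.Xa _ p.1.2), h.iso a h.aR _ p.2.2, add_zero]⟩
  have fi : Function.Injective f := by
    rintro ⟨⟨x, hx⟩, r, hr⟩ ⟨⟨y, hy⟩, s, hs⟩ k
    have k : c + T x c + r = c + T y c + s := congrArg Subtype.val k
    have m := (h.st x (h.Xa x hx)).2 _ (add_mem hr hs)
    rw [show r + s = T x c + T y c from lc k, map_add, h.xx hx, ← h.mul] at m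
    obtain rfl : x = y := mul_left_cancel ((h.X2 x hx).trans (h.Xe _ (mul_mem hx hy) c c1 m).symm)
    obtain rfl : r = s := lc k
    rfl
  have g := grow (U := (β a).ker) (W := ⊤) le_top trivial (v := c) (by simp [AddMonoidHom.mem_ker, c1])
  rw [AddSubgroup.card_top, h.card] at g
  have fs := (fi.bijective_of_nat_card_le (by rw [Nat.card_prod, h.cX]; omega)).2
  have m : ∀ v, T d v + T d (T d v) ∈ R := fun v => by
    obtain ⟨⟨⟨x, hx⟩, r, hr⟩, k⟩ := fs ⟨T d v + T d (T d v), by simp only [AddMonoidHom.mem_ker, map_add, ba]; exact lc0⟩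
    have k : c + T x c + r = T d v + T d (T d v) := congrArg Subtype.val k
    have k1 := congrArg (T d) k
    have k2 := congrArg (T d) k1
    simp only [map_add, ← x1 x hx, c2, h.ω3] at k1 k2
    rw [show T d v + T d (T d v) = T d r + T d (T d r) from lc congr($k1 + $k2)]
    have := (h.st d e).2
    exact add_mem (this _ hr) (this _ (this _ hr))
  refine h.d1 (h.fai d fun v => h.inj d (lc (h.nd (T d v + T d (T d v)) fun w => ?_)))
  have := h.iso _ (m v) _ (m w)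
  simp only [map_add, h.aω, h.ω3, AddMonoidHom.add_apply] at this ⊢
  exact lc this

theorem v0 : ∃ v, β a v = 0 ∧ β a (T d v) = 1 := by
  have : a + T d (T d a) ≠ 0 := fun e => h.hω (by
    have := congrArg (T d) e
    simp only [map_add, h.ω3, map_zero] at this; exact lc this)
  obtain ⟨v, n⟩ := not_forall.1 (mt (h.nd _) this)
  rw [map_add, AddMonoidHom.add_apply, ← h.aω] at n
  rcases z2 (β a v) with e | e <;> rcases z2 (β a (T d v)) with f | f
  · simp [e, f] at n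
  · exact ⟨v, e, f⟩
  · rcases z2 (β a (T d (T d v))) with g | g
    · exact ⟨_, g, by rw [h.ω3, e]⟩
    · exact ⟨_, f, g⟩
  · rw [e, f] at n; exact absurd rfl n

theorem wn (hv : β a (T d v) = 1) (hx : x ∈ X) (e : x ∈ M) (m : T d (v + T x v) ∈ R) : x = 1 :=
  h.Xe x hx _ hv (by rwa [map_add, ← h.cω e] at m)

theorem X0 : Nat.card X ≤ 2 * Nat.card ↥(M ⊓ X) ∧ 32 ≤ Nat.card X := by
  have := normal_of_index_eq_two h.Mi
  have a1 := BG.card_inf_mul_relIndex M X
  have a2 := Nat.le_of_dvd two_pos (h.Mi ▸ relIndex_dvd_index_of_normal M X)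
  have a3 := h.iso64 h.iso
  have a4 := h.cX
  constructor <;> nlinarith

theorem ex2 (S : Finset Γ) (c : S.card ≤ 2) : ∃ x ∈ X, x ∈ M ∧ x ∉ S := by
  by_contra! k
  have := Set.ncard_le_ncard (show ((M ⊓ X : Subgroup Γ) : Set Γ) ⊆ S from fun x i => k x i.2 i.1)
  rw [Set.ncard_coe_finset, ← Nat.card_coe_set_eq] at this
  have := h.X0
  simp only [SetLike.coe_sort_coe] at *; omega

theorem fp : ∃ y ∈ M, y ^ 7 = 1 ∧ ∀ v, v + T d v + T d (T d v) = 0 ∧ (T y v = v → v = 0) := by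
  have : Fact (Nat.Prime 7) := ⟨by norm_num⟩
  let K : Subgroup Γ :=
    { carrier := {g | g ∈ M ∧ ∀ u, u + T d u + T d (T d u) = 0 → T g u = u}
      one_mem' := ⟨one_mem _, fun u _ => h.one u⟩
      mul_mem' := fun i j => ⟨mul_mem i.1 j.1, fun u k => by rw [h.mul, j.2 u k, i.2 u k]⟩
      inv_mem' := fun {g} i => ⟨inv_mem i.1, fun u k => by rw [← i.2 u k, h.li, i.2 u k]⟩ }
  rcases h.sm K (fun _ i => i.1) (fun g i k j => ⟨mul_mem (mul_mem i j.1) (inv_mem i), fun u o => by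
    rw [h.mul, h.mul, j.2, h.ri]
    simpa only [map_add, map_zero, h.cω (inv_mem i)] using congrArg (T g⁻¹) o⟩) with k | k
  · obtain ⟨y, o⟩ := exists_prime_orderOf_dvd_card' (G := M) 7 (by rw [h.cM]; norm_num)
    have o7 : y.1 ^ 7 = 1 := by rw [← Subgroup.coe_pow, ← o, pow_orderOf_eq_one]; rfl
    have : y.1 ∉ K := fun m => by
      have a := orderOf_dvd_of_mem_zpowers (k m)
      rw [Subgroup.orderOf_coe, o] at a
      exact absurd (a.trans (orderOf_dvd_of_pow_eq_one (n := 3) (by rw [← h.d3, pow_three]))) (by decide)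
    obtain ⟨u, n⟩ := not_forall.1 (mt (And.intro y.2) this)
    push Not at n
    refine ⟨y, y.2, o7, h.fpf h.ω3 (fun v => ?_) (fun v => (h.cω y.2 v).symm) (h.qT _) (h.qT _) n.1 n.2⟩
    simp only [← h.mul]
    rw [show y.1 * (y * (y * (y * (y * (y * y))))) = y ^ 7 by simp [pow_succ, mul_assoc], o7, h.one]
  · exfalso
    obtain ⟨x, hx, m, n⟩ := h.ex2 {1} (by simp)
    obtain ⟨w, w0, w1⟩ := h.v0
    have e := (k x m).2 (T d w + T d (T d w)) (by simp only [map_add, h.ω3]; exact lc0)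
    rw [pow_three, h.X2 x hx, mul_one] at e
    refine n (Finset.mem_singleton.2 (h.wn w1 hx m ?_))
    have := congrArg (T d) (congrArg (T d) e)
    simp only [map_add, h.cω m, h.ω3] at this
    rw [show T d (w + T x w) = w + T x w by rw [map_add]; exact lc this]
    exact h.Xp _ hx _ w0

theorem hf (v : V) : v + T d v + T d (T d v) = 0 := h.fp.elim fun _ k => (k.2.2 v).1
theorem ω2 (v : V) : T d (T d v) = T d v + v := lc (h.hf v)

theorem c4 {U : AddSubgroup V} (n : v ≠ 0) (m : v ∈ U) (m' : T d v ∈ U) : 4 ≤ Nat.card U := by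
  have a1 := card_ex (U := ⊥) n
  have a2 := grow (ex_le bot_le m) m' (by
    rintro (e | e)
    · exact h.nz d n e
    · have e : T d v = v := lc (show T d v + v = 0 from e)
      have := h.hf v
      rw [e, e] at this; exact n (lc this))
  rw [AddSubgroup.card_bot] at a1
  omega

theorem NP (k : ∀ u, β a u = 0 → β (T d a) u = 0 → β w u = 0) : w ∈ NN (T d) a := by
  obtain ⟨v0, a0, a1⟩ := h.v0
  have b0 : β (T d a) v0 = 1 := by
    rw [h.aω, h.ω2, map_add, AddMonoidHom.add_apply, a0, add_zero] at a1; exact a1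
  have b1 : β (T d a) (T d v0) = 0 := by rw [h.βT, a0]
  have sm : ∀ (u : V) (c : ZMod 2) v, β u (c • v) = c * β u v := fun u c v => ZMod.map_smul (β u) c v
  have sm' : ∀ (u : V) (c : ZMod 2) v, β (c • u) v = c * β u v := fun u c v => ZMod.map_smul (β.flip v) c u
  have := h.nd (w + β w (T d v0) • a + β w v0 • T d a) fun v => by
    have := k (v + β a v • T d v0 + β (T d a) v • v0) (by simp only [map_add, sm, a0, a1, mul_one, mul_zero]; exact lc0)
      (by simp only [map_add, sm, b0, b1, mul_one, mul_zero]; exact lc0)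
    simp only [map_add, sm, sm', AddMonoidHom.add_apply] at this ⊢
    rw [mul_comm, mul_comm (β w v0)]; exact this
  rw [mem_NN]
  rcases z2 (β w (T d v0)) with e | e <;> rcases z2 (β w v0) with f | f <;> rw [e, f] at this
  exacts [.inl (lc this), .inr (.inr (.inl (lc this))), .inr (.inl (lc this)), .inr (.inr (.inr (lc this)))]

theorem main : T d a ∈ R ∧ Nat.card R = 64 ∧ Nat.card X = 32 ∧ ∀ r ∈ R, T d r ∈ R → r ∈ NN (T d) a := by
  obtain ⟨v0, a0, a1⟩ := h.v0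
  obtain ⟨R0, hR⟩ : ∃ R0, R0 = R ⊓ R.comap (T d) := ⟨_, rfl⟩
  have mR : ∀ v, v ∈ R0 ↔ v ∈ R ∧ T d v ∈ R := fun v => hR ▸ Iff.rfl
  have Rω : ∀ v ∈ R0, T d v ∈ R0 := fun v m => (mR _).2 ⟨((mR _).1 m).2, by
    rw [h.ω2]; exact add_mem ((mR _).1 m).2 ((mR _).1 m).1⟩
  have wR : ∀ x ∈ X, v0 + T x v0 ∈ R := fun x hx => h.Xp x hx _ a0
  have wn : ∀ x ∈ X, x ∈ M → v0 + T x v0 ∈ R0 → x = 1 := fun x hx e m => h.wn a1 hx e ((mR _).1 m).2
  have w12 : ∀ x ∈ X, ∀ y ∈ X, x ∈ M → y ∈ M → v0 + T y v0 + (v0 + T x v0) ∈ R0 → x = y := fun x m1 y m2 e1 e2 m => by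
    refine mul_left_cancel ((h.X2 x m1).trans (wn _ (mul_mem m1 m2) (mul_mem e1 e2) ?_).symm)
    rw [show v0 + T (x * y) v0 = v0 + T x v0 + T x (v0 + T y v0) by rw [h.mul, map_add]; exact lc0]
    rcases h.XR _ m1 _ (wR _ m2) with e | e
    · rw [e, add_comm]; exact m
    · have : T x (v0 + T y v0 + (v0 + T x v0)) ∈ R0 := (mR _).2 ⟨(h.st _ (h.Xa _ m1)).2 _ ((mR _).1 m).1, by
        rw [← h.cω e1]; exact (h.st _ (h.Xa _ m1)).2 _ ((mR _).1 m).2⟩
      rwa [map_add, map_add (T x) v0 (T x v0), h.xx m1, add_comm, add_comm _ v0] at this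
  have l0 : R0 ≤ R := hR ▸ inf_le_left
  let f : ↥(M ⊓ X) × R0 → R := fun p => ⟨v0 + T p.1 v0 + p.2, add_mem (wR _ p.1.2.2) (l0 p.2.2)⟩
  have fi : Function.Injective f := by
    rintro ⟨⟨x, hx⟩, r, hr⟩ ⟨⟨y, hy⟩, s, hs⟩ k
    have k : v0 + T x v0 + r = v0 + T y v0 + s := congrArg Subtype.val k
    obtain rfl : x = y := w12 x hx.2 y hy.2 hx.1 hy.1 (by
      rw [show v0 + T y v0 + (v0 + T x v0) = r + s from lc k]; exact add_mem hr hs)
    obtain rfl : r = s := lc k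
    rfl
  have cf := Nat.card_le_card_of_injective f fi
  rw [Nat.card_prod] at cf
  have c64 := h.iso64 h.iso
  obtain ⟨x2, x32⟩ := h.X0
  have cX := h.cX
  have key : 4 ≤ Nat.card R0 → Nat.card R = 64 ∧ Nat.card X = 32 ∧ Nat.card R0 = 4 ∧ Nat.card ↥(M ⊓ X) = 16 := fun c => by
    have a1 : Nat.card ↥(M ⊓ X) = 16 := by nlinarith
    rw [a1] at cf x2
    have a2 : Nat.card X = 32 := by omega
    rw [a2] at cX
    omega
  have r1 : T d a ∈ R := by
    by_cases k : ∀ r ∈ R0, r = 0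
    · by_contra n
      have : ∀ x ∈ X, x ∈ M → x ≠ 1 → v0 + T x v0 = a := fun x hx e n' => by
        have := h.NP (w := v0 + T x v0) fun u a0 a1 => (h.sym _ _).trans (h.fx (lc (k (u + T x u) ((mR _).2 ⟨h.Xp x hx u a0, by
          rw [map_add, ← h.cω e]
          exact h.Xp x hx _ (by rw [h.aω, h.ω2, map_add, AddMonoidHom.add_apply, a0, a1, add_zero])⟩))) v0)
        rcases mem_NN.1 this with f | f | f | f
        · exact absurd (wn x hx e (f ▸ zero_mem _)) n'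
        · exact f
        · exact absurd (f ▸ wR x hx) n
        · exact absurd ((add_mem_cancel_right h.aR).1 (f ▸ wR x hx)) n
      classical
      obtain ⟨x, m1, e1, n1⟩ := h.ex2 {1} (by simp)
      obtain ⟨y, m2, e2, n2⟩ := h.ex2 {1, x} Finset.card_le_two
      simp only [Finset.mem_insert, Finset.mem_singleton, not_or] at n1 n2
      refine n2.2 (w12 _ m2 _ m1 e2 e1 ?_)
      rw [this _ m1 e1 n1, this _ m2 e2 n2.1, show a + a = 0 from lc0]; exact zero_mem _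
    · push Not at k
      obtain ⟨r, m, n⟩ := k
      obtain ⟨c1, -, c2, c3⟩ := key (h.c4 n m (Rω r m))
      refine h.perp h.iso (by omega) fun u hu => ?_
      obtain ⟨⟨⟨x, hx⟩, r, m⟩, e⟩ := (fi.bijective_of_nat_card_le (by rw [Nat.card_prod, c1, c2, c3])).2 ⟨u, hu⟩
      rw [← show v0 + T x v0 + r = u from congrArg Subtype.val e, map_add,
        h.fx (by rw [h.cω hx.1, h.Xa x hx.2]), ← h.ω3 r, h.βT, zero_add]
      exact h.iso a h.aR _ (l0 (Rω _ (Rω _ m)))
  have aR : a ∈ R0 := (mR _).2 ⟨h.aR, r1⟩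
  obtain ⟨c1, c2, c3, -⟩ := key (h.c4 h.a0 aR (Rω _ aR))
  have RN : NN (T d) a = R0 := AddSubgroup.eq_of_le_of_card_ge (ex_le (ex_le bot_le aR) (Rω _ aR)) (by
    have := h.c4 h.a0 (U := NN (T d) a) (le_ex self_ex) self_ex
    omega)
  exact ⟨r1, c1, c2, fun r i j => RN ▸ (mR r).2 ⟨i, j⟩⟩

end Hy
end H01.XF
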