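import Mathlib
import Cfsg.Agent.H01.XF2
import Cfsg.Agent.S0247
import Cfsg.Agent.H09.TwC

/-!
# The module `Q/Z(Q)` for `2^{1+12}.3.U₄(3).2`, part 2 (namespace `H01.XF`)

`Hy.sp` (the stabiliser of `a` maps to `Sp₄(2) ≅ S₆` with 2-group kernel), `Hy.orb` (orbit length 1701, `2⁵.A₆`),
`Hy.tr1`, `Hy.tr2` (two orbits on singular vectors).
-/

set_option autoImplicit false
set_option linter.unusedSectionVars false
open H01.XT Subgroup Equiv BG

namespace H01.XF
universe u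
variable {V : Type u} [AddCommGroup V] [Module (ZMod 2) V] [Finite V] {Γ : Type u} [Group Γ] [Finite Γ]
  {T : Γ → V →+ V} {d x y g : Γ} {M X : Subgroup Γ} {β : V →+ V →+ ZMod 2} {q : V → ZMod 2} {a u v w : V}
  {R : AddSubgroup V}

theorem s6 (H : Subgroup (Perm (Fin 6))) (a : Nat.card H ∣ 360) (b : 45 ∣ Nat.card H) : Nat.card H = 360 := by
  have : Fact (Nat.Prime 5) := ⟨by norm_num⟩
  have : Fact (Nat.Prime 3) := ⟨by norm_num⟩
  obtain ⟨P⟩ : Nonempty (Sylow 5 H) := inferInstance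
  obtain ⟨m, e⟩ := b
  have m8 : m ∣ 8 := Nat.dvd_of_mul_dvd_mul_left (by norm_num) (e ▸ a : 45 * m ∣ 45 * 8)
  have cP : Nat.card P = 5 := by
    obtain ⟨k, c⟩ := IsPGroup.iff_card.1 P.2
    have a1 := P.1.card_mul_index
    have a2 := P.not_dvd_index
    have a3 := (card_subgroup_dvd_card P.1).trans a
    rw [c] at a1 a3 ⊢
    obtain _ | _ | k := k
    · omega
    · rfl
    · exact absurd ((pow_dvd_pow 5 (by omega : 2 ≤ k + 1 + 1)).trans a3) (by norm_num)
  have := isCyclic_of_prime_card cP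
  have n3 : ¬ 3 ∣ Nat.card (normalizer (P.1 : Set H)) := fun k => by
    have i1 := P.1.normalizerMonoidHom.ker.card_mul_index
    have i2 := card_subgroup_dvd_card P.1.normalizerMonoidHom.range
    rw [IsCyclic.card_mulAut, cP, show Nat.totient 5 = 4 from rfl] at i2
    rw [index_ker, normalizerMonoidHom_ker] at i1
    obtain ⟨y, o⟩ := exists_prime_orderOf_dvd_card' 3
      ((Nat.Coprime.coprime_dvd_right i2 (by norm_num)).dvd_of_dvd_mul_right (i1 ▸ k))
    obtain ⟨x, ox⟩ := exists_prime_orderOf_dvd_card' (G := P) 5 cP.symm.dvd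
    have c : y.1.1.1 ∈ centralizer {x.1.1} := mem_centralizer_singleton_iff.2 (congrArg Subtype.val (y.2 x x.2)).symm
    have c1 := (centralizer {x.1.1}).orderOf_dvd_natCard c
    rw [← Subgroup.orderOf_coe, ← Subgroup.orderOf_coe] at ox
    have c2 := Perm.isCycle_of_prime_order' (σ := x.1.1) (by rw [ox]; norm_num) (by rw [ox]; simp)
    rw [Perm.nat_card_centralizer, c2.cycleType, ← c2.orderOf, ox, Subgroup.orderOf_coe, Subgroup.orderOf_coe, Subgroup.orderOf_coe, o] at c1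
    simp at c1
  have b1 := (normalizer (P.1 : Set H)).card_mul_index
  have b2 := card_sylow_modEq_one 5 H
  rw [P.card_eq_index_normalizer] at b2
  replace b2 : (normalizer (P.1 : Set H)).index % 5 = 1 := b2
  have b3 : 9 ∣ (normalizer (P.1 : Set H)).index :=
    (Nat.Coprime.pow_left 2 ((Nat.Prime.coprime_iff_not_dvd Nat.prime_three).2 n3)).dvd_of_dvd_mul_left (by rw [b1, e]; omega)
  have b4 : 5 ≤ Nat.card (normalizer (P.1 : Set H)) := cP.ge.trans (card_le_of_le le_normalizer)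
  have b5 : (normalizer (P.1 : Set H)).index ≠ 0 := index_ne_zero_of_finite
  have b6 : 36 ≤ (normalizer (P.1 : Set H)).index := by omega
  have b7 : 180 ≤ Nat.card H := by nlinarith
  rcases H09.sub_S6 H (by omega) with rfl | rfl | ⟨⟨f⟩⟩
  · rw [card_top, Nat.card_perm] at a; simp [Nat.factorial] at a
  · rw [nat_card_alternatingGroup]; simp [Nat.factorial]
  · rw [Nat.card_congr f.toEquiv, Nat.card_perm] at b7; simp [Nat.factorial] at b7

def Gm.S (h : Gm T d M β q) (v : V) : Subgroup Γ where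
  carrier := {g | T g v = v}
  one_mem' := h.one v
  mul_mem' := fun {x y} (i : T x v = v) (j : T y v = v) => show T (x * y) v = v by rw [h.mul, j, i]
  inv_mem' := fun {x} (i : T x v = v) => show T x⁻¹ v = v by rw [← i, h.li, i]

theorem Gm.idx (h : Gm T d M β q) (v : V) : (h.S v).index = {w | ∃ g, T g v = w}.ncard := by
  let _ : MulAction Γ V := { smul := fun g v => T g v, one_smul := h.one, mul_smul := h.mul }
  exact MulAction.index_stabilizer Γ v

theorem Gm.meet (h : Gm T d M β q) {s : Set V} (i : ∀ g, T g u ∈ s) (j : ∀ g, T g v ∈ s)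
    (c : s.ncard < (h.S u).index + (h.S v).index) : ∃ g, T g u = v := by
  by_contra! n
  rw [h.idx, h.idx, ← Set.ncard_union_eq (Set.disjoint_left.2 (by
    rintro _ ⟨g, rfl⟩ ⟨k, e⟩
    exact n (k⁻¹ * g) (by rw [h.mul, ← e, h.li])))] at c
  exact c.not_ge (Set.ncard_le_ncard (by rintro _ (⟨g, rfl⟩ | ⟨g, rfl⟩); exacts [i g, j g]))

namespace Hy
variable (h : Hy T d M X β q a R)
include h

theorem hs (i : u ∈ R) (j : v ∈ R) : β u (T d v) = β v (T d u) := by
  rw [h.aω, h.ω2, map_add, AddMonoidHom.add_apply, h.iso u i v j, add_zero, h.sym]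

theorem ha (i : u ∈ R) : β u (T d u) = 0 := by
  have := h.pol (T d u) u
  rw [← h.ω2, h.qT, h.qT, h.qR u i, h.sym] at this; exact lc this

theorem NR : NN (T d) a ≤ R := ex_le (ex_le bot_le h.aR) h.main.1

theorem hN (i : u ∈ R) (j : v ∈ NN (T d) a) : β u (T d v) = 0 := h.iso u i _ (by
  rcases mem_NN.1 j with e | e | e | e <;> simp only [e, map_zero, map_add, h.ω2]
  exacts [zero_mem _, h.main.1, add_mem h.main.1 h.aR, add_mem (add_mem h.main.1 h.aR) h.main.1])

theorem rad (i : u ∈ R) (k : ∀ v ∈ R, β u (T d v) = 0) : u ∈ NN (T d) a := by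
  have := h.perp h.iso (by rw [h.main.2.1]; omega) (w := T d (T d u)) fun v j => (h.aω u v).symm.trans (k v j)
  rw [h.ω2] at this
  exact h.main.2.2.2 u i ((add_mem_cancel_right i).1 this)

theorem gd (g : Γ) (v : V) : T g (T d v) = T d (T g v) ∨ T g (T d v) = T d (T g v) + T g v := by
  rcases h.dn g with e | e
  · exact .inl (by rw [← h.mul, mul_inv_eq_iff_eq_mul.1 e, h.mul])
  · exact .inr (by rw [← h.mul, mul_inv_eq_iff_eq_mul.1 e, h.mul, h.mul, h.ω2])

theorem hg (i : u ∈ R) (j : v ∈ R) : β (T g u) (T d (T g v)) = β u (T d v) := by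
  rw [← h.βT g u]
  rcases h.gd g v with k | k <;> rw [k]
  rw [map_add, h.βT, h.iso u i v j, add_zero]

theorem basis : ∃ b c : Fin 2 ⊕ Fin 2 → V, (∀ i, b i ∈ R) ∧ (∀ i, c i ∈ R) ∧
    (∀ i j, β (b i) (T d (b j)) = Matrix.J (Fin 2) (ZMod 2) i j) ∧
    (∀ i j, β (c i) (T d (b j)) = (1 : Matrix _ _ (ZMod 2)) i j) ∧
    ∀ v ∈ R, v + ∑ i, β (c i) (T d v) • b i ∈ NN (T d) a := by
  have cR := h.main.2.1
  have c4 : Nat.card (NN (T d) a) ≤ 2 * Nat.card (ex ⊥ a) := card_ex_le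
  have c2 := card_ex_le (U := ⊥) (v := a)
  have c5 := h.c4 h.a0 (U := NN (T d) a) (le_ex self_ex) self_ex
  rw [AddSubgroup.card_bot] at c2
  have sm : ∀ (u : V) (c : ZMod 2) v, β u (T d (c • v)) = c * β u (T d v) := fun u c v =>
    ZMod.map_smul ((β u).comp (T d)) c v
  have sR : ∀ (c : ZMod 2), ∀ v ∈ R, c • v ∈ R := fun c v i => ZMod.smul_mem i c
  have ex1 : ∀ U : AddSubgroup V, Nat.card U < 64 → ∃ r ∈ R, r ∉ U := fun U c => by
    by_contra! k
    have := AddSubgroup.card_le_of_le (show R ≤ U from k); omega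
  have ex2 : ∀ r ∈ R, r ∉ NN (T d) a → ∃ s ∈ R, β r (T d s) = 1 := fun r i n => by
    by_contra! k
    exact n (h.rad i fun v j => (z2 _).resolve_right (k v j))
  obtain ⟨r1, i1, n1⟩ := ex1 (NN (T d) a) (by omega)
  obtain ⟨s1, j1, e1⟩ := ex2 r1 i1 n1
  have e1' := (h.hs j1 i1).trans e1
  have d1 := card_ex_le (U := NN (T d) a) (v := r1)
  have d2 := card_ex_le (U := ex (NN (T d) a) r1) (v := s1)
  obtain ⟨r, i, n⟩ := ex1 (ex (ex (NN (T d) a) r1) s1) (by omega)
  obtain ⟨p, hp⟩ : ∃ p : V → V, ∀ v, p v = v + β s1 (T d v) • r1 + β r1 (T d v) • s1 := ⟨_, fun _ => rfl⟩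
  have pR : ∀ v ∈ R, p v ∈ R := fun v i => hp v ▸ add_mem (add_mem i (sR _ _ i1)) (sR _ _ j1)
  have p1 : ∀ v, β r1 (T d (p v)) = 0 := fun v => by
    simp only [hp, map_add, sm, h.ha i1, e1, mul_one, mul_zero]; exact lc0
  have p2 : ∀ v, β s1 (T d (p v)) = 0 := fun v => by
    simp only [hp, map_add, sm, h.ha j1, e1', mul_one, mul_zero]; exact lc0
  have n2 : p r ∉ NN (T d) a := fun m => n (by
    rw [show r = p r + β s1 (T d r) • r1 + β r1 (T d r) • s1 by
      rw [hp]; generalize β s1 (T d r) • r1 = x; generalize β r1 (T d r) • s1 = y; exact lc0]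
    exact add_mem (add_mem (le_ex (le_ex m)) (ZMod.smul_mem (le_ex self_ex) _)) (ZMod.smul_mem self_ex _))
  obtain ⟨s, j, e⟩ := ex2 _ (pR r i) n2
  have i2 := pR r i
  have j2 := pR s j
  have a1 := p1 r
  have a2 := p2 r
  have a3 := p1 s
  have a4 := p2 s
  have e2 : β (p r) (T d (p s)) = 1 := by
    rw [hp s]; simp only [map_add, sm, e, h.hs i2 i1, h.hs i2 j1, a1, a2, mul_zero, add_zero]
  generalize p r = r2 at *
  generalize p s = s2 at *
  have e2' := (h.hs j2 i2).trans e2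
  have b1 := (h.hs i2 i1).trans a1
  have b2 := (h.hs i2 j1).trans a2
  have b3 := (h.hs j2 i1).trans a3
  have b4 := (h.hs j2 j1).trans a4
  have kr : ∀ u ∈ R, NN (T d) a ≤ ((β u).comp (T d)).ker := fun u i v j => h.hN i j
  have g1 := card_ex n1
  have g2 := card_ex (U := ex (NN (T d) a) r1) (v := s1) fun m => by
    have : β r1 (T d s1) = 0 := ex_le (kr _ i1) (h.ha i1) m
    rw [e1] at this; exact absurd this (by decide)
  have g3 := card_ex (U := ex (ex (NN (T d) a) r1) s1) (v := r2) fun m => by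
    have : β s2 (T d r2) = 0 := ex_le (ex_le (kr _ j2) b3) b4 m
    rw [e2'] at this; exact absurd this (by decide)
  have g4 := card_ex (U := ex (ex (ex (NN (T d) a) r1) s1) r2) (v := s2) fun m => by
    have : β r2 (T d s2) = 0 := ex_le (ex_le (ex_le (kr _ i2) b1) b2) (h.ha i2) m
    rw [e2] at this; exact absurd this (by decide)
  have eR := AddSubgroup.eq_of_le_of_card_ge (ex_le (ex_le (ex_le (ex_le h.NR i1) j1) i2) j2) (by omega)
  have z1 := h.ha i1
  have z2 := h.ha j1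
  have z3 := h.ha i2
  have z4 := h.ha j2
  refine ⟨Sum.elim ![r1, r2] ![s1, s2], Sum.elim ![s1, s2] ![r1, r2], by simp [*, Fin.forall_fin_two],
    by simp [*, Fin.forall_fin_two], ?_, ?_, fun v o => ?_⟩
  · simp [Matrix.J, Fin.forall_fin_two, z1, z2, z3, z4, e1, e1', e2, e2', a1, a2, a3, a4, b1, b2, b3, b4]
  · simp [Fin.forall_fin_two, z1, z2, z3, z4, e1, e1', e2, e2', a1, a2, a3, a4, b1, b2, b3, b4]
  · simp only [Fintype.sum_sum_type, Fin.sum_univ_two, Sum.elim_inl, Sum.elim_inr, Matrix.cons_val_zero,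
      Matrix.cons_val_one]
    have m := add_mem o (add_mem (add_mem (sR (β s1 (T d v)) _ i1) (sR (β s2 (T d v)) _ i2))
      (add_mem (sR (β r1 (T d v)) _ j1) (sR (β r2 (T d v)) _ j2)))
    refine h.rad m fun w k => ?_
    have t : ∀ w ∈ R, β w (T d (v + (β s1 (T d v) • r1 + β s2 (T d v) • r2 + (β r1 (T d v) • s1 + β r2 (T d v) • s2)))) = 0 →
        w ∈ ((β (v + (β s1 (T d v) • r1 + β s2 (T d v) • r2 + (β r1 (T d v) • s1 + β r2 (T d v) • s2)))).comp (T d)).ker :=
      fun w i k => (h.hs m i).trans k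
    refine ex_le (ex_le (ex_le (ex_le (kr _ m) (t _ i1 ?_)) (t _ j1 ?_)) (t _ i2 ?_)) (t _ j2 ?_) (eR.ge k) <;>
    simp only [map_add, sm, z1, z2, z3, z4, e1, e1', e2, e2', a1, a2, a3, a4, b1, b2, b3, b4, mul_one, mul_zero] <;>
    exact lc0

theorem sp : ∃ φ : h.S a →* Perm (Fin 6), ∀ g, φ g = 1 ↔ ∀ r ∈ R, r + T g r ∈ NN (T d) a := by
  obtain ⟨b, c, bR, cR, e1, e2, e3⟩ := h.basis
  obtain ⟨ψ⟩ := Cfsg.Agent.S0247.result (F := ZMod 2) (by simp)
  have ep : ∀ u ∈ R, ∀ v ∈ R, β u (T d v) = ∑ i, β (c i) (T d v) * β u (T d (b i)) := fun u i v j => by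
    have := h.hN i (e3 v j)
    rw [map_add, map_add, map_sum, map_sum] at this
    refine (show _ = ∑ i, β u (T d (β (c i) (T d v) • b i)) from lc this).trans ?_
    exact Finset.sum_congr rfl fun i _ => ZMod.map_smul ((β u).comp (T d)) _ _
  have gR : ∀ g : h.S a, ∀ r ∈ R, T g r ∈ R := fun g => (h.st g g.2).2
  let A : h.S a → Matrix _ _ (ZMod 2) := fun g => Matrix.of fun i j => β (c i) (T d (T g (b j)))
  have sy : ∀ g, A g ∈ Matrix.symplecticGroup (Fin 2) (ZMod 2) := fun g => by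
    rw [SymplecticGroup.mem_iff']
    ext i j
    rw [← e1, ← h.hg (bR i) (bR j), ep _ (gR g _ (bR i)) _ (gR g _ (bR j)), Matrix.mul_apply]
    refine Finset.sum_congr rfl fun l _ => ?_
    rw [mul_comm, h.hs (gR g _ (bR i)) (bR l), ep _ (bR l) _ (gR g _ (bR i)), Matrix.mul_apply]
    simp only [A, Matrix.of_apply, Matrix.transpose_apply, fun x => (h.hs (bR l) (bR x)).trans (e1 x l)]
  let f : h.S a →* Matrix.symplecticGroup (Fin 2) (ZMod 2) := MonoidHom.mk' (fun g => ⟨A g, sy g⟩) fun g k => by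
    refine Subtype.ext (Matrix.ext fun i j => ?_)
    show β (c i) (T d (T (g.1 * k.1) (b j))) = ∑ l, β (c i) (T d (T g (b l))) * β (c l) (T d (T k (b j)))
    have t : ∀ v ∈ R, β (c i) (T d (T g v)) = β (T g⁻¹.1 (c i)) (T d v) := fun v o => by
      rw [← h.hg (gR g⁻¹ _ (cR i)) o, Subgroup.coe_inv, h.ri]
    rw [h.mul, t _ (gR k _ (bR j)), ep _ (gR g⁻¹ _ (cR i)) _ (gR k _ (bR j))]
    exact Finset.sum_congr rfl fun l _ => by rw [mul_comm, t _ (bR l)]
  refine ⟨ψ.toMonoidHom.comp f, fun g => ?_⟩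
  rw [MonoidHom.comp_apply, MulEquiv.coe_toMonoidHom, map_eq_one_iff ψ ψ.injective, Subtype.ext_iff]
  refine ⟨fun k r i => h.rad (add_mem i (gR g r i)) fun v j => ?_, fun k => Matrix.ext fun i j => ?_⟩
  · have k : ∀ i j, β (c i) (T d (T g (b j))) = β (c i) (T d (b j)) := fun i j => (congrFun (congrFun k i) j).trans (e2 i j).symm
    have t : ∀ u ∈ R, ∀ j, β u (T d (T g (b j))) = β u (T d (b j)) := fun u o j => by
      rw [ep u o _ (gR g _ (bR j)), ep u o _ (bR j)]; simp only [k]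
    have : β v (T d (T g r)) = β v (T d r) := by
      have o : T g.1⁻¹ v ∈ R := gR g⁻¹ v j
      have hh : ∀ w ∈ R, β (T g.1⁻¹ v) (T d w) = β v (T d (T g w)) := fun w m => by rw [← h.hg o m, h.ri]
      rw [← hh r i, ep _ o _ i, ep _ j _ i]
      exact Finset.sum_congr rfl fun l _ => by rw [hh _ (bR l), t v j]
    rw [h.hs (add_mem i (gR g r i)) j, map_add, map_add, this]; exact lc0
  · have := h.hN (cR i) (k _ (bR j))
    rw [map_add, map_add] at this
    exact (show β (c i) (T d (T g (b j))) = β (c i) (T d (b j)) from lc this).trans (e2 i j)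

theorem orb : (h.S a).index = 1701 ∧ X ≤ h.S a ∧ ∃ φ : h.S a →* Perm (Fin 6), φ.ker = X.subgroupOf (h.S a) ∧
    φ.range = alternatingGroup (Fin 6) := by
  obtain ⟨φ, e⟩ := h.sp
  have l : X ≤ h.S a := h.Xa
  have pk : IsPGroup 2 φ.ker := fun g => ⟨3, Subtype.ext (Subtype.ext (h.fai _ fun v => by
    obtain ⟨⟨g, i⟩, j⟩ := g
    have j := (e _).1 j
    have i : T g a = a := i
    have a1 : ∀ n ∈ NN (T d) a, T g (T g n) = n := by
      have : T g (T g (T d a)) = T d a := by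
        rcases h.gd g a with k | k <;> rw [i] at k <;> simp only [k, map_add, i]
        exact lc0
      exact fun n m => (ex_le (ex_le bot_le (show T g (T g a) = a by rw [i, i])) this :
        NN (T d) a ≤ ((T g).comp (T g)).eqLocus (AddMonoidHom.id V)) m
    have a2 : ∀ r ∈ R, T g (T g (T g (T g r))) = r := fun r m => by
      have := a1 _ (add_mem (j r m) (j _ ((h.st g i).2 r m)))
      simp only [map_add] at this; exact lc this
    have a3 := a2 _ (h.perp h.iso (by rw [h.main.2.1]; omega) (w := v + T g (T g (T g (T g v)))) fun r m => by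
      rw [map_add, AddMonoidHom.add_apply, ← a2 r m, h.βT, h.βT, h.βT, h.βT, a2 r m]; exact lc0)
    simp only [map_add] at a3
    show T (g ^ 2 ^ 3) v = v
    simp only [show 2 ^ 3 = 8 from rfl, pow_succ, pow_zero, one_mul, h.mul]
    exact lc a3))⟩
  obtain ⟨k, ck⟩ := IsPGroup.iff_card.1 pk
  have a1 := φ.ker.card_mul_index
  have a2 := (h.S a).card_mul_index
  have a3 := φ.range.card_mul_index
  rw [index_ker, ck] at a1
  rw [Nat.card_perm, Nat.card_fin, show Nat.factorial 6 = 720 from rfl] at a3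
  rw [h.cΓ] at a2
  have a4 : 1701 ∣ (h.S a).index := by
    have : 9 * 1701 ∣ 9 * (2 ^ k * 80 * (h.S a).index) := by
      rw [show 9 * (2 ^ k * 80 * (h.S a).index) = 2 ^ k * (720 * (h.S a).index) by ring, ← a3, mul_right_comm, ← mul_assoc,
        ← mul_assoc, a1, a2]
      exact Dvd.dvd.mul_right (by norm_num) _
    rw [Nat.mul_dvd_mul_iff_left (by norm_num)] at this
    exact (Nat.Coprime.mul_right (Nat.Coprime.pow_right k (by norm_num)) (by norm_num)).dvd_of_dvd_mul_left this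
  have a5 : (h.S a).index ≤ 2079 := by
    rw [h.idx, ← h.n0 h.ω3 (h.qT d) h.hf]
    exact Set.ncard_le_ncard (by rintro _ ⟨g, rfl⟩; exact ⟨h.nz g h.a0, (h.qT g a).trans h.qa⟩)
  have a6 : (h.S a).index = 1701 := by
    have : (h.S a).index ≠ 0 := index_ne_zero_of_finite
    omega
  rw [a6] at a2
  have l2 : X.subgroupOf (h.S a) ≤ φ.ker := fun x i => (e x).2 fun r j => mem_NN.2 (by
    rcases h.XR x.1 i r j with o | o <;> rw [o]
    exacts [.inl lc0, .inr (.inl lc0)])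
  have a7 := card_dvd_of_le l2
  have cX : Nat.card (X.subgroupOf (h.S a)) = 32 := (Nat.card_congr (subgroupOfEquivOfLe l).toEquiv).trans h.main.2.2.1
  rw [cX, ck] at a7
  have a8 : Nat.card φ.range ∣ 360 := by
    obtain ⟨m, o⟩ := a7
    exact ⟨m, by rw [o] at a1; linarith⟩
  have a9 : 45 ∣ Nat.card φ.range :=
    (Nat.Coprime.pow_right k (by norm_num : Nat.Coprime 45 2)).dvd_of_dvd_mul_left (by rw [a1]; omega)
  have b1 := s6 _ a8 a9
  rw [b1] at a1 a3
  exact ⟨a6, l, φ, (Subgroup.eq_of_le_of_card_ge l2 (by omega)).symm, Perm.eq_alternatingGroup_of_index_eq_two (by omega)⟩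

theorem tr1 {X' : Subgroup Γ} {R' : AddSubgroup V} (h' : Hy T d M X' β q u R') : ∃ g, T g a = u :=
  h.meet (s := {v | v ≠ 0 ∧ q v = 0}) (fun g => ⟨h.nz g h.a0, (h.qT g a).trans h.qa⟩)
    (fun g => ⟨h.nz g h'.a0, (h.qT g u).trans h'.qa⟩) (by
      rw [h.n0 h.ω3 (h.qT d) h.hf, h.orb.1, show (h.S u).index = 1701 from h'.orb.1]; omega)

theorem big (n : v ≠ 0) : 224 ≤ (h.S v).index := by
  obtain ⟨y, yM, y7, f⟩ := h.fp
  have c : zpowers d ≤ N_(M ⊓ h.S v) := zpowers_le.2 (BG.cent_le_norm _ (BG.mem_cent.2 fun g i => h.Md g i.1))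
  have l : M ⊓ h.S v ⊔ zpowers d ≤ M := sup_le inf_le_left (zpowers_le.2 h.dM)
  have a1 := h.mi _ l (mem_sup_right (mem_zpowers d)) fun e => by
    obtain ⟨k, i, _, ⟨m, rfl⟩, o⟩ := (BG.mem_sup_norm c).1 (e.ge yM)
    have c : Commute k (d ^ m) := (show Commute k d from h.Md k i.1).zpow_right m
    have : y ^ 3 = k ^ 3 := by
      rw [← o, c.mul_pow, ← zpow_natCast (d ^ m), ← zpow_mul, mul_comm m, zpow_mul, zpow_natCast, pow_three d, h.d3,
        one_zpow, mul_one]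
    have m := pow_mem (this ▸ pow_mem i.2 3) 5
    rw [← pow_mul, show 3 * 5 = 7 * 2 + 1 from rfl, pow_succ, pow_mul, y7, one_pow, one_mul] at m
    exact n ((f v).2 m)
  have a2 := BG.relIndex_mul (le_sup_left : M ⊓ h.S v ≤ _) l
  have a3 : (M ⊓ h.S v).relIndex (M ⊓ h.S v ⊔ zpowers d) ≠ 1 := fun e => by
    have m : T d v = v := (relIndex_eq_one.1 e (mem_sup_right (mem_zpowers d))).2
    have := h.hf v
    rw [m, m] at this; exact n (lc this)
  have a4 := BG.relIndex_ne_zero (M ⊓ h.S v) (M ⊓ h.S v ⊔ zpowers d)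
  have a5 : (M ⊓ h.S v).relIndex M ≤ (h.S v).index := by
    rw [inf_relIndex_left, ← relIndex_top_right]; exact relIndex_le_of_le_right le_top (by simp [index_ne_zero_of_finite])
  have : 2 ≤ (M ⊓ h.S v).relIndex (M ⊓ h.S v ⊔ zpowers d) := by omega
  nlinarith

theorem tr2 : ∃ t, t ≠ 0 ∧ q t = 0 ∧ (¬ ∃ g, T g a = t) ∧ ∀ v, v ≠ 0 → q v = 0 → (∃ g, T g a = v) ∨ ∃ g, T g t = v := by
  have s : {w | ∃ g, T g a = w} ⊆ {v | v ≠ 0 ∧ q v = 0} := by
    rintro _ ⟨g, rfl⟩; exact ⟨h.nz g h.a0, (h.qT g a).trans h.qa⟩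
  have c := Set.ncard_sdiff s
  rw [h.n0 h.ω3 (h.qT d) h.hf, ← h.idx, h.orb.1] at c
  obtain ⟨t, i⟩ := Set.nonempty_of_ncard_ne_zero (c.trans_ne (by norm_num))
  have k : ∀ v ∈ {v | v ≠ 0 ∧ q v = 0} \ {w | ∃ g, T g a = w}, ∀ g, T g v ∈ {v | v ≠ 0 ∧ q v = 0} \ {w | ∃ g, T g a = w} :=
    fun v i g => ⟨⟨h.nz g i.1.1, (h.qT g v).trans i.1.2⟩, fun ⟨k, e⟩ => i.2 ⟨g⁻¹ * k, by rw [h.mul, e, h.li]⟩⟩
  refine ⟨t, i.1.1, i.1.2, i.2, fun v n o => (em _).imp_right fun j => h.meet (k t i) (k v ⟨⟨n, o⟩, j⟩) ?_⟩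
  have := h.big n
  have := h.big i.1.1
  omega

end Hy
end H01.XF
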