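import Mathlib
import Cfsg.Agent.H01.XF3
import Cfsg.Agent.H01.XT6
import Cfsg.Agent.H22.FStar
import Cfsg.Agent.S2150
import Cfsg.Agent.S0283
import Cfsg.Agent.S0280
import Cfsg.Prelude.Def_MonsterType

/-!
# Groups of large Fischer type: the bridge to the module `Q/Z(Q)` (namespace `H01.XF`)

`grp` (the quotient `3.U₄(3).2`), `Br` (the module), `Br.hy`, `Br.adj`, `br`.
-/

set_option autoImplicit false
set_option linter.unusedSectionVars false
open Cfsg BG Subgroup H01.XS Equiv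
open H01.XT hiding Hy QS

namespace H01.XF
universe u

theorem grp {H Γ P : Type*} [Group H] [Finite H] [Group Γ] [Finite Γ] [Group P] [IsSimpleGroup P] (f : H →* Γ)
    (fs : Function.Surjective f) {N M : Subgroup H} [n : N.Normal] (l1 : f.ker ≤ N) (l2 : N ≤ M)
    (c : Nat.card N = 3 * Nat.card f.ker) (ρ : M →* P) (ρs : Function.Surjective ρ) (ρk : ρ.ker = N.subgroupOf M)
    (i : M.index = 2) (cP : Nat.card P = 3265920) (mP : ∀ S : Subgroup P, S ≠ ⊤ → 112 ≤ S.index) :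
    ∃ (d : Γ) (M : Subgroup Γ), d * (d * d) = 1 ∧ d ≠ 1 ∧ (∀ g, g * d * g⁻¹ = d ∨ g * d * g⁻¹ = d * d) ∧ d ∈ M ∧
      (∀ g ∈ M, g * d = d * g) ∧ M.index = 2 ∧ Nat.card Γ = 19595520 ∧
      (∀ K : Subgroup Γ, K ≤ M → (∀ g ∈ M, ∀ k ∈ K, g * k * g⁻¹ ∈ K) → K ≤ zpowers d ∨ ∀ g ∈ M, g ^ 3 ∈ K) ∧
      ∀ S : Subgroup Γ, S ≤ M → d ∈ S → S ≠ M → 112 ≤ S.relIndex M := by
  classical
  have : Fact (Nat.Prime 3) := ⟨by norm_num⟩
  have k0 : 0 < Nat.card f.ker := Nat.card_pos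
  have c3 : Nat.card (N.map f) = 3 := by
    have := card_inf_mul_relIndex f.ker N
    rw [relIndex_ker, inf_eq_left.2 l1, c, mul_comm] at this
    exact Nat.eq_of_mul_eq_mul_right k0 this
  obtain ⟨⟨d, dN⟩, o⟩ := exists_prime_orderOf_dvd_card' (G := N.map f) 3 c3.symm.dvd
  rw [← Subgroup.orderOf_coe] at o
  replace o : orderOf d = 3 := o
  have zd : zpowers d = N.map f := Subgroup.eq_of_le_of_card_ge (zpowers_le.2 dN) (by rw [c3, Nat.card_zpowers, o])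
  have d3 : d * (d * d) = 1 := by rw [← pow_three, ← o, pow_orderOf_eq_one]
  have d1 : d ≠ 1 := fun e => by simp [e] at o
  have dn : ∀ g, g * d * g⁻¹ = d ∨ g * d * g⁻¹ = d * d := fun g => by
    have m := zd.ge ((n.map f fs).conj_mem d dN g)
    rw [mem_zpowers_iff_mem_range_orderOf, o] at m
    simp only [Finset.mem_image, Finset.mem_range] at m
    obtain ⟨k, m, e⟩ := m
    obtain _ | _ | _ | k := k
    · exact absurd (conj_eq_one_iff.1 (e.symm.trans (pow_zero d))) d1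
    · exact .inl (by simpa using e.symm)
    · exact .inr (e.symm.trans (pow_two d))
    · omega
  have dM : d ∈ M.map f := map_mono l2 dN
  have top : ∀ S : Subgroup Γ, ((S.comap f).subgroupOf M).map ρ = ⊤ → ∀ g ∈ M.map f, ∃ k ∈ S, ∃ m ∈ zpowers d, g = k * m := by
    rintro S e _ ⟨g, i, rfl⟩
    obtain ⟨k, j, e⟩ := e.ge (mem_top (ρ ⟨g, i⟩))
    have : k⁻¹ * ⟨g, i⟩ ∈ ρ.ker := by rw [MonoidHom.mem_ker, map_mul, map_inv, e, inv_mul_cancel]
    exact ⟨f k, j, f (k⁻¹ * g), zd.ge ⟨_, ρk.le this, rfl⟩, by simp⟩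
  have mi : ∀ S : Subgroup Γ, S ≤ M.map f → d ∈ S → S ≠ M.map f → 112 ≤ S.relIndex (M.map f) := fun S l j m => by
    have := mP _ fun e => m (le_antisymm l fun g o => by
      obtain ⟨k, a, m, b, rfl⟩ := top S e g o
      exact mul_mem a (zpowers_le.2 j b))
    rwa [index_map, MonoidHom.range_eq_top.2 ρs, index_top, mul_one, sup_eq_left.2 fun x a =>
      zpowers_le.2 j (zd.ge ⟨_, ρk.le a, rfl⟩), ← relIndex, relIndex_comap] at this
  have Md : ∀ g ∈ M.map f, g * d = d * g := fun g j => by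
    by_contra m
    have a1 := mi (M.map f ⊓ C_[d]) inf_le_left ⟨dM, mem_cent1_self d⟩ fun e => m (mem_cent1.1 (e.ge j).2)
    have a2 : C_[d].index ∣ 2 := index_dvd_two_iff.2 ⟨g, fun b => (dn b).symm.imp (fun e => mem_cent1.2 (by
      rw [← mul_inv_eq_iff_eq_mul, show b * g * d * (b * g)⁻¹ = b * (g * d * g⁻¹) * b⁻¹ by group,
        (dn g).resolve_left fun e => m (mul_inv_eq_iff_eq_mul.1 e), ← conj_mul, e, mul_assoc, d3, mul_one])) fun e => mem_cent1.2 (mul_inv_eq_iff_eq_mul.1 e)⟩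
    have a3 : (M.map f ⊓ C_[d]).relIndex (M.map f) ≤ C_[d].index := by
      rw [inf_relIndex_left, ← relIndex_top_right]; exact relIndex_le_of_le_right le_top (by simp [index_ne_zero_of_finite])
    have := Nat.le_of_dvd two_pos a2
    omega
  refine ⟨d, M.map f, d3, d1, dn, dM, Md, ?_, ?_, fun K l k => ?_, mi⟩
  · rw [index_map, MonoidHom.range_eq_top.2 fs, index_top, mul_one, sup_eq_left.2 (l1.trans l2), i]
  · have a1 := M.card_mul_index
    have a2 := ρ.ker.card_mul_index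
    have a3 := f.ker.card_mul_index
    rw [index_ker, MonoidHom.range_eq_top.2 ρs, card_top, cP, ρk, Nat.card_congr (subgroupOfEquivOfLe l2).toEquiv, c] at a2
    rw [index_ker, MonoidHom.range_eq_top.2 fs, card_top, ← a1, ← a2, i] at a3
    exact Nat.eq_of_mul_eq_mul_left k0 (by rw [a3]; ring)
  · have : ((K.comap f).subgroupOf M).Normal := ⟨fun x a g => by
      simpa [mem_subgroupOf] using k _ ⟨g, g.2, rfl⟩ _ a⟩
    refine (this.map ρ ρs).eq_bot_or_eq_top.imp (fun e x a => ?_) fun e g a => ?_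
    · obtain ⟨y, b, rfl⟩ := l a
      exact zd.ge ⟨y, ρk.le ((Subgroup.map_eq_bot_iff _).1 e (x := ⟨y, b⟩) a), rfl⟩
    · obtain ⟨x, b, _, ⟨m, rfl⟩, rfl⟩ := top K e g a
      rw [((show Commute x d from Md x (l b)).zpow_right m).mul_pow, ← zpow_natCast (d ^ m), ← zpow_mul, mul_comm m, zpow_mul,
        zpow_natCast, pow_three d, d3, one_zpow, mul_one]
      exact pow_mem b 3

variable {G : Type u} [Group G] [Finite G] {a e g r x y w z : G} {Q Q' : Subgroup G}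
  {V : Type u} [AddCommGroup V] [Module (ZMod 2) V] [Finite V] {Γ : Type u} [Group Γ] [Finite Γ]
  {T : Γ → V →+ V} {d : Γ} {M : Subgroup Γ} {β : V →+ V →+ ZMod 2} {q : V → ZMod 2} {ν : G → V} {f : C_[z] →* Γ} {π : G → Γ}

structure Br (z : G) (Q : Subgroup G) (f : C_[z] →* Γ) (π : G → Γ) (ν : G → V) (T : Γ → V →+ V) (d : Γ) (M : Subgroup Γ)
    (β : V →+ V →+ ZMod 2) (q : V → ZMod 2) : Prop where
  gm : Gm T d M β q
  md : Md0 z Q ν
  card : Nat.card Q = 8192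
  pf : ∀ x, f x = π x
  sur : ∀ k, ∃ x ∈ C_[z], π x = k
  ker : ∀ x ∈ C_[z], π x = 1 ↔ x ∈ Q
  b : ∀ x ∈ Q, ∀ y ∈ Q, β (ν x) (ν y) = 0 ↔ Commute x y
  sq : ∀ x ∈ Q, q (ν x) = 0 ↔ x * x = 1
  act : ∀ g ∈ C_[z], ∀ x ∈ Q, T (π g) (ν x) = ν (g * x * g⁻¹)

namespace Br
variable (s : Br z Q f π ν T d M β q)
include s

theorem mul (x : G) (i : x ∈ C_[z]) (y : G) (j : y ∈ C_[z]) : π (x * y) = π x * π y :=
  (s.pf (⟨x, i⟩ * ⟨y, j⟩)).symm.trans ((map_mul f _ _).trans (by rw [s.pf, s.pf]))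
theorem inv (x : G) (i : x ∈ C_[z]) : π x⁻¹ = (π x)⁻¹ :=
  (s.pf ⟨x, i⟩⁻¹).symm.trans ((map_inv f _).trans (by rw [s.pf]))

theorem adj (i : g ∈ C_[z]) (j : x ∈ Q) (k : y ∈ Q) (y2 : y * y = 1) (n : ν y ≠ 0) (e : T (π g) (ν x) = ν y) :
    ∃ k ∈ C_[z], k * x * k⁻¹ = y ∧ π k = π g := by
  have h := s.md.lx
  rw [s.act g i x j] at e
  rcases s.md.eq (h.cE i j) k e with e | e
  · exact ⟨g, i, e, rfl⟩
  · obtain ⟨c, kQ, ek⟩ := (⟨h.aes, h.cent, h.norm⟩ : H03.ES Q z).lx.exists_conj k y2 fun m =>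
      n ((s.md.ker y k).2 (h.aes.eq_or m))
    refine ⟨c⁻¹ * g, mul_mem (inv_mem (h.le kQ)) i, ?_, by
      rw [s.mul _ (inv_mem (h.le kQ)) _ i, (s.ker _ (inv_mem (h.le kQ))).2 (inv_mem kQ), one_mul]⟩
    rw [show c⁻¹ * g * x * (c⁻¹ * g)⁻¹ = c⁻¹ * (g * x * g⁻¹) * c by group, e, ← mem_cent1.1 (h.le k), ← ek]; group

theorem hy (p : H03.PP Q z Q' a) (c' : Nat.card Q' = 8192) :
    Hy T d M (((Q' ⊓ C_[z]).subgroupOf C_[z]).map f) β q (ν a) (s.md.push Q') := by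
  have m := s.md
  have h := m.lx
  have h' := lx_of p.h'
  have aQ := p.hs
  have act := s.act
  have mX : ∀ k, k ∈ ((Q' ⊓ C_[z]).subgroupOf C_[z]).map f ↔ ∃ x ∈ Q', x ∈ C_[z] ∧ π x = k := fun k =>
    ⟨fun ⟨x, i, e⟩ => ⟨x, i.1, x.2, (s.pf x).symm.trans e⟩, fun ⟨x, i, j, e⟩ => ⟨⟨x, j⟩, ⟨i, j⟩, (s.pf _).trans e⟩⟩
  have mR : ∀ x ∈ Q, ν x ∈ m.push Q' ↔ x ∈ Q' := fun x i => m.mem_push p.hz i
  have add : ∀ x ∈ Q, ∀ y ∈ Q, ν x + ν y = ν (x⁻¹ * y) := fun x i y j => by rw [m.mul _ (inv_mem i) _ j, m.inv i]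
  have a0 : ν a ≠ 0 := fun e => ((m.ker a aQ).1 e).elim h'.z1 p.ne
  refine { s.gm with
    a0 := a0, qa := (s.sq a aQ).2 h'.zz, aR := (mR a aQ).2 h'.aes.mem, iso := ?_, qR := ?_, X2 := fun k i => ?_
    Xa := fun k i => ?_, Xp := fun k i v n => ?_, XR := fun k i r j => ?_, Xe := fun k i v n j => ?_, cX := ?_
    st := fun g e => ?_ }
  · rintro _ ⟨x, i, i', rfl⟩ _ ⟨y, j, j', rfl⟩
    refine (s.b x i y j).2 ((h.cm i j).elim id fun e => (h'.cm i' j').elim id fun e' => absurd ?_ p.ne)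
    exact mul_right_cancel (mul_right_cancel (e'.symm.trans e))
  · rintro _ ⟨x, i, i', rfl⟩
    exact (s.sq x i).2 ((pow_two x).symm.trans ((h.sq i).elim id fun e => (h'.sq i').elim id fun e' =>
      absurd (e'.symm.trans e) p.ne))
  all_goals try (replace i := (mX k).1 i; obtain ⟨x, i, j', rfl⟩ := i)
  · rw [← s.mul x j' x j', s.ker _ (mul_mem j' j'), ← pow_two]
    rcases h'.sq i with e | e <;> rw [e]
    exacts [one_mem _, aQ]
  · rw [act x j' a aQ, H03.mem_cent1c.1 (h'.le i)]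
  · obtain ⟨w, k, rfl⟩ := m.sur v
    rw [act x j' w k, add _ k _ (h.cE j' k), mR _ (mul_mem (inv_mem k) (h.cE j' k)), ← mul_assoc, ← mul_assoc]
    exact mul_mem (h'.cE' (cc.2 ((s.b a aQ w k).1 n).symm) i) (inv_mem i)
  · obtain ⟨r, k, k', rfl⟩ := j
    rw [act x j' r k]
    rcases h'.cj2 i k' with e | e <;> rw [e]
    exacts [.inl rfl, .inr (by rw [m.mul _ aQ _ k, add_comm])]
  · obtain ⟨w, k, rfl⟩ := m.sur v
    rw [act x j' w k, add _ k _ (h.cE j' k), mR _ (mul_mem (inv_mem k) (h.cE j' k)), ← mul_assoc, ← mul_assoc,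
      mul_mem_cancel_right (inv_mem i)] at j
    exact (s.ker x j').2 (xe p i k (fun c => by rw [(s.b a aQ w k).2 c.symm] at n; exact absurd n (by decide)) j)
  · have a1 := card_inf_mul_relIndex f.ker ((Q' ⊓ C_[z]).subgroupOf C_[z])
    rw [relIndex_ker, show f.ker ⊓ (Q' ⊓ C_[z]).subgroupOf C_[z] = (Q ⊓ Q').subgroupOf C_[z] from Subgroup.ext fun x =>
      ⟨fun i => ⟨(s.ker _ x.2).1 ((s.pf x).symm.trans i.1), i.2.1⟩,
        fun i => ⟨(s.pf x).trans ((s.ker _ x.2).2 i.1), i.2, x.2⟩⟩,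
      Nat.card_congr (subgroupOfEquivOfLe (inf_le_left.trans h.le)).toEquiv,
      Nat.card_congr (subgroupOfEquivOfLe inf_le_right).toEquiv, m.card_push p.hz] at a1
    have a2 := h'.perp p.V_le' (subset_closure (by simp))
    rw [p.card_V, c', H03.cent_pair, ← inf_assoc, inf_eq_left.2 (inf_le_left.trans h'.le), ← a1] at a2
    linarith
  · obtain ⟨g, i, rfl⟩ := s.sur g
    obtain ⟨k, i, i', ek⟩ := s.adj i aQ aQ h'.zz a0 e
    replace i' := H03.mem_cent1c.2 i'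
    rw [← ek]
    refine ⟨fun y j => ?_, ?_⟩
    · replace j := (mX y).1 j
      obtain ⟨x, j, j', rfl⟩ := j
      exact (mX _).2 ⟨_, h'.cE i' j, mul_mem (mul_mem i j') (inv_mem i), by
        rw [s.mul _ (mul_mem i j') _ (inv_mem i), s.mul _ i _ j', s.inv k i]⟩
    · rintro _ ⟨r, j, j', rfl⟩
      rw [act k i r j]; exact ⟨_, h.cE i j, h'.cE i' j', rfl⟩

theorem pt (g : G) (i : g * z * g⁻¹ ∈ Q) (n : g * z * g⁻¹ ≠ z) :
    Hy T d M (((cj g Q ⊓ C_[z]).subgroupOf C_[z]).map f) β q (ν (g * z * g⁻¹)) (s.md.push (cj g Q)) :=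
  s.hy (H03.ES.pp ⟨s.md.lx.aes, s.md.lx.cent, s.md.lx.norm⟩ i n (by rw [s.card]; omega)) ((card_cj _ _).trans s.card)

end Br

theorem br {Q : Subgroup C_[z]} [n : Q.Normal] (hF : IsOfLargeFischerTypeAt z Q) :
    ∃ (V : Type u) (_ : AddCommGroup V) (_ : Module (ZMod 2) V) (_ : Finite V) (π : G → C_[z] ⧸ Q) (ν : G → V) (T : _ → V →+ V)
      (d : _) (M : Subgroup _) (β : V →+ V →+ ZMod 2) (q : V → ZMod 2),
      Br z (Q.map C_[z].subtype) (QuotientGroup.mk' Q) π ν T d M β q := by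
  classical
  obtain ⟨⟨hz, hf, hx, c, -⟩, N, M, _, _, l1, l2, cN, ⟨K, _, _, cK, ⟨e⟩⟩, i⟩ := hF
  have hc : centralizer (Q : Set C_[z]) ≤ Q := hf ▸ H22.centralizer_fstar_le
  obtain ⟨w, h1, h2, -⟩ := H04.exists_aes_of_isExtraspecial' hx
  have zc : (⟨z, mem_cent1_self z⟩ : C_[z]) ∈ centralizer (Q : Set C_[z]) := fun x _ => Subtype.ext (mem_cent1.1 x.2)
  obtain rfl : ⟨z, mem_cent1_self z⟩ = w := (h1.eq_or (h2.le ⟨hc zc, zc⟩)).resolve_left fun e => by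
    rw [show z = 1 from congrArg Subtype.val e] at hz; simp at hz
  have a := h1.map C_[z].subtype (subtype_injective _)
  have h : LX z (Q.map C_[z].subtype) := ⟨a, fun x i => by
    have m : (⟨x, cent_le_cent1 a.mem i⟩ : C_[z]) ∈ centralizer (Q : Set C_[z]) :=
      fun y k => Subtype.ext (i _ ⟨y, k, rfl⟩)
    obtain ⟨k, e⟩ := h2.le ⟨hc m, m⟩
    exact ⟨k, congrArg Subtype.val e⟩, le_norm_iff.2 (by
      rintro g i _ ⟨k, hk, rfl⟩
      exact ⟨_, n.conj_mem k hk ⟨g, i⟩, rfl⟩)⟩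
  have cK' : Fintype.card K = 3 ^ 2 := cK
  have := Agent.S0283.result cK' 4 (by norm_num) (by norm_num)
  obtain ⟨d, M', d3, d1, dn, dM, Md, Mi, cΓ, sm, mi⟩ := grp (QuotientGroup.mk' Q) (QuotientGroup.mk'_surjective Q)
    (by rwa [QuotientGroup.ker_mk']) l2 (by rwa [QuotientGroup.ker_mk']) (e.toMonoidHom.comp (QuotientGroup.mk' _))
    (e.surjective.comp (QuotientGroup.mk'_surjective _))
    (by ext x; simp) i (by
      have := Agent.S0280.result cK' 4 (by norm_num)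
      generalize Nat.card (PSU 4 K 3) = n at this ⊢
      simp [Finset.prod_range_succ, Nat.even_iff] at this; omega) (Agent.S2150.result 3 cK' (by norm_num)).1
  have c' : Nat.card (Q.map C_[z].subtype) = 8192 := (card_map_of_injective (subtype_injective _)).trans c
  have mq : ∀ x : C_[z], x.1 ∈ Q.map C_[z].subtype ↔ x ∈ Q := fun x =>
    ⟨fun ⟨y, k, e⟩ => by obtain rfl : y = x := Subtype.ext e; exact k, fun k => ⟨_, k, rfl⟩⟩
  generalize Q.map C_[z].subtype = Q' at *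
  obtain ⟨V, _, _, ν, m0⟩ := mkV0 h
  obtain ⟨β, q, A, m⟩ := m0.md
  let _ : Module (ZMod 2) V := AddCommGroup.zmodModule fun v => (two_nsmul v).trans (m0.two v)
  have act : ∀ g : C_[z], ∀ x ∈ Q', A (QuotientGroup.mk g : C_[z] ⧸ Q).out (ν x) = ν (g * x * g.1⁻¹) := fun g x j => by
    obtain ⟨⟨k, o⟩, e⟩ := QuotientGroup.mk_out_eq_mul Q g
    have o' := (mq k).2 o
    rw [e, m.act _ (g * k).2 x j, ← m.act _ g.2 x j, ← m0.cq o' j, m.act _ g.2 _ (h.cE k.2 j)]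
    congr 1; push_cast; group
  refine ⟨V, _, ‹_›, ‹_›, fun x => if i : x ∈ C_[z] then QuotientGroup.mk ⟨x, i⟩ else 1, ν, fun k => A k.out, d, M', β, q,
    ⟨⟨?_, m.pol, fun u k => ?_⟩, fun v => ?_, fun x y v => ?_, fun x k => ?_, fun x v => ?_, d3, d1, dn, dM, Md, Mi, cΓ, sm, mi⟩,
    m0, c', fun x => by rw [dif_pos x.2]; rfl, fun k => ⟨k.out, k.out.2, by rw [dif_pos k.out.2]; exact k.out_eq⟩,
    fun x i => by rw [dif_pos i, QuotientGroup.eq_one_iff, ← mq], m.b, m.sq, fun g i x j => by rw [dif_pos i]; exact act _ x j⟩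
  · have := m0.card_pull ⊤
    rw [show m0.pull ⊤ = Q' from Subgroup.ext fun x => and_iff_left trivial, AddSubgroup.card_top] at this
    omega
  · obtain ⟨x, i, rfl⟩ := m0.sur u
    exact (m0.ker x i).2 (h.cz fun e j => ((m.b x i e j).1 (k _)).symm.eq)
  · obtain ⟨x, i, rfl⟩ := m0.sur v
    exact (act 1 x i).trans (by simp)
  · obtain ⟨w, k, rfl⟩ := m0.sur v
    obtain ⟨x, rfl⟩ := QuotientGroup.mk_surjective x
    obtain ⟨y, rfl⟩ := QuotientGroup.mk_surjective y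
    rw [← QuotientGroup.mk_mul, act _ w k, act y w k, act x _ (h.cE y.2 k)]; congr 1; push_cast; group
  · obtain ⟨x, rfl⟩ := QuotientGroup.mk_surjective x
    refine (QuotientGroup.eq_one_iff x).2 ((mq x).1 (H03.ES.inner ⟨h.aes, h.cent, h.norm⟩ x.2 fun w j => ?_))
    rcases m0.eq (h.cE x.2 j) j ((act x w j).symm.trans (k _)) with e | e <;> rw [e]
    · simp
    · simp
  · obtain ⟨w, k, rfl⟩ := m0.sur v
    obtain ⟨x, rfl⟩ := QuotientGroup.mk_surjective x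
    rw [act x w k]
    have := m.sq _ (h.cE x.2 k)
    rw [conj_mul, conj_eq_one_iff, ← m.sq w k] at this
    revert this; generalize q (ν _) = s, q (ν w) = t; revert s t; decide

end H01.XF
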