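import Mathlib
import Cfsg.Agent.H13.O6m
import Cfsg.Agent.S0279
import Cfsg.Agent.S2150
import Cfsg.Agent.BG.Api1

/-!
# Subgroups of `U₄(2)` of order divisible by 135 (namespace `H01.XF`)

`su_psu`, `no15` (no element of order 15), `ns`.
-/

set_option autoImplicit false
open Cfsg Subgroup H29 H29.F4 Matrix

namespace H01.XF

theorem su_z : center (SU 4 F4 2) = ⊥ := card_eq_one.1 (Agent.S0279.result (q := 2) rfl 4 (by norm_num))

noncomputable def su_psu : SU 4 F4 2 ≃* PSU 4 F4 2 :=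
  ((QuotientGroup.quotientMulEquivOfEq su_z).trans QuotientGroup.quotientBot).symm

theorem su_card : Nat.card (SU 4 F4 2) = 25920 := (Nat.card_congr su_psu.toEquiv).trans H13.O6.card_u4

def F5 : Matrix (Fin 4) (Fin 4) F4 := !![v, i, o, i; o, o, i, o; i, v, o, i; v, v, o, w]
def G5 : Fin 4 → Matrix (Fin 4) (Fin 4) F4 := ![!![i, o, o, o; o, i, o, o; o, o, i, o; o, o, o, i],
  !![o, o, i, o; i, w, v, o; o, v, w, w; o, i, o, i], !![o, i, o, o; o, v, w, i; i, w, v, o; o, o, v, i],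
  !![o, o, o, w; o, o, i, w; o, w, o, w; i, i, i, o]]
def C5 : Matrix (Fin 4) (Fin 4) F4 := !![i, o, o, o; w, w, i, w; o, v, o, w; i, v, o, v]

theorem herm_of {A : Matrix (Fin 4) (Fin 4) F4} (h : Aᵀ * A.map (· ^ 2) = 1) (x y : Fin 4 → F4) :
    hermForm 4 F4 2 (A *ᵥ x) (A *ᵥ y) = hermForm 4 F4 2 x y := by
  have k : ∀ y : Fin 4 → F4, (fun j => (A *ᵥ y) j ^ 2) = A.map (· ^ 2) *ᵥ fun j => y j ^ 2 := fun y => funext fun j =>
    RingHom.map_mulVec (H10.conj F4.card) A y j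
  show (A *ᵥ x) ⬝ᵥ (fun j => (A *ᵥ y) j ^ 2) = x ⬝ᵥ fun j => y j ^ 2
  rw [k, dotProduct_comm, dotProduct_mulVec, ← mulVec_transpose, mulVec_mulVec, h, one_mulVec, dotProduct_comm]

def f5 : SU 4 F4 2 := ⟨⟨F5, by decide +kernel⟩, herm_of (by decide +kernel)⟩

theorem no15 (x y : SU 4 F4 2) (o : orderOf x = 5) (c : Commute x y) (y3 : y ^ 3 = 1) : y = 1 := by
  have : Fact (Nat.Prime 5) := ⟨by norm_num⟩
  have : Finite (SU 4 F4 2) := Nat.finite_of_card_ne_zero (by rw [su_card]; norm_num)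
  have o5 : orderOf f5 = 5 := orderOf_eq_prime (Subtype.ext (Subtype.ext (show F5 ^ 5 = 1 by decide +kernel)))
    fun e => absurd (congrArg (·.1.1) e) (show F5 ≠ 1 by decide +kernel)
  have s : ∀ x : SU 4 F4 2, orderOf x = 5 → ∃ P : Sylow 5 (SU 4 F4 2), P.1 = zpowers x := fun x o =>
    ⟨(IsPGroup.of_card (G := zpowers x) (n := 1) (by rw [Nat.card_zpowers, o]; rfl)).toSylow (by
      have := (zpowers x).card_mul_index
      rw [Nat.card_zpowers, o, su_card] at this; omega), rfl⟩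
  obtain ⟨P, e⟩ := s x o
  obtain ⟨P0, e0⟩ := s _ o5
  obtain ⟨g, rfl⟩ := MulAction.exists_smul_eq (SU 4 F4 2) P P0
  obtain ⟨_, m, e1⟩ := e0.ge (mem_zpowers f5)
  obtain ⟨k, rfl⟩ := e.le m
  have c : Commute (g * y * g⁻¹) f5 := e1 ▸ ((c.zpow_left k).symm.conj g)
  replace y3 : (g * y * g⁻¹) ^ 3 = 1 := by rw [conj_pow, y3]; simp
  refine conj_eq_one_iff.1 (?_ : g * y * g⁻¹ = 1)
  generalize g * y * g⁻¹ = y at c y3
  obtain ⟨⟨Y, d⟩, u⟩ := y
  replace c : Commute Y F5 := congrArg (fun x : SU 4 F4 2 => x.1.1) c.eq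
  replace y3 : Y * (Y * Y) = 1 := congrArg (·.1.1) ((pow_three _).symm.trans y3)
  have a : ∀ j, Y *ᵥ Pi.single j 1 = G5 j *ᵥ (Y *ᵥ Pi.single 0 1) := fun j => by
    have : Commute Y (G5 j) := by
      rw [(by decide +kernel : ∀ j, G5 j = C5 j 0 • 1 + C5 j 1 • F5 + C5 j 2 • F5 ^ 2 + C5 j 3 • F5 ^ 3) j]
      exact ((((Commute.one_right Y).smul_right _).add_right (c.smul_right _)).add_right
        ((c.pow_right 2).smul_right _)).add_right ((c.pow_right 3).smul_right _)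
    rw [mulVec_mulVec, ← this.eq, ← mulVec_mulVec, (by decide +kernel : ∀ j, G5 j *ᵥ Pi.single 0 1 = Pi.single j 1)]
  have b : ∀ j l, hermForm 4 F4 2 (G5 j *ᵥ (Y *ᵥ Pi.single 0 1)) (G5 l *ᵥ (Y *ᵥ Pi.single 0 1)) = if j = l then 1 else 0 :=
    fun j l => by
      rw [← a, ← a]
      exact (u _ _).trans ((by decide +kernel : ∀ j l : Fin 4, hermForm 4 F4 2 (Pi.single j 1) (Pi.single l 1) =
        if j = l then 1 else 0) j l)
  have e : Y = of fun i j => (G5 j *ᵥ (Y *ᵥ Pi.single 0 1)) i := by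
    ext i j; rw [of_apply, ← a]; simp
  generalize Y *ᵥ Pi.single 0 1 = x at b e
  obtain ⟨r, e'⟩ := (by decide +kernel : ∀ x : Fin 4 → F4, (∀ j l, hermForm 4 F4 2 (G5 j *ᵥ x) (G5 l *ᵥ x) = if j = l then 1 else 0) →
    (of fun i j => (G5 j *ᵥ x) i) * ((of fun i j => (G5 j *ᵥ x) i) * of fun i j => (G5 j *ᵥ x) i) = 1 →
    ∃ r : F4, (of fun i j => (G5 j *ᵥ x) i) = r • (1 : Matrix (Fin 4) (Fin 4) F4)) x b (e ▸ y3)
  rw [← e] at e'
  subst e'
  rw [det_smul, det_one, mul_one] at d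
  obtain rfl := (by decide : ∀ r : F4, r ^ 4 = 1 → r = 1) r d
  exact Subtype.ext (Subtype.ext (one_smul _ _))

theorem n5 {U : Type*} [Group U] [Finite U] (F : ∀ x y : U, orderOf x = 5 → Commute x y → y ^ 3 = 1 → y = 1) (H : Subgroup U)
    {m : ℕ} (e : Nat.card H = 5 * m) (n : ¬ 5 ∣ m) : ∃ a b, a * b = Nat.card H ∧ ¬ 3 ∣ a ∧ b % 5 = 1 := by
  have : Fact (Nat.Prime 5) := ⟨by norm_num⟩
  have : Fact (Nat.Prime 3) := ⟨by norm_num⟩
  obtain ⟨P⟩ : Nonempty (Sylow 5 H) := inferInstance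
  have cP : Nat.card P = 5 := by
    obtain ⟨k, c⟩ := IsPGroup.iff_card.1 P.2
    have a1 := P.1.card_mul_index
    have a2 := P.not_dvd_index
    have a3 := card_subgroup_dvd_card P.1
    rw [c] at a1 a3 ⊢
    obtain _ | _ | k := k
    · omega
    · rfl
    · have := (pow_dvd_pow 5 (by omega : 2 ≤ k + 1 + 1)).trans a3
      omega
  have := isCyclic_of_prime_card cP
  refine ⟨_, _, (normalizer (P.1 : Set H)).card_mul_index, fun k => ?_, ?_⟩
  · have i1 := P.1.normalizerMonoidHom.ker.card_mul_index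
    have i2 := card_subgroup_dvd_card P.1.normalizerMonoidHom.range
    rw [IsCyclic.card_mulAut, cP, show Nat.totient 5 = 4 from rfl] at i2
    rw [index_ker, normalizerMonoidHom_ker] at i1
    obtain ⟨y, o⟩ := exists_prime_orderOf_dvd_card' 3
      ((Nat.Coprime.coprime_dvd_right i2 (by norm_num)).dvd_of_dvd_mul_right (i1 ▸ k))
    obtain ⟨x, ox⟩ := exists_prime_orderOf_dvd_card' (G := P) 5 cP.symm.dvd
    rw [← Subgroup.orderOf_coe, ← Subgroup.orderOf_coe] at ox
    rw [← Subgroup.orderOf_coe, ← Subgroup.orderOf_coe, ← Subgroup.orderOf_coe] at o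
    rw [F _ y.1.1.1 ox (congrArg Subtype.val (y.2 x x.2)) (o ▸ pow_orderOf_eq_one _)] at o
    simp at o
  · have b2 := card_sylow_modEq_one 5 H
    rwa [P.card_eq_index_normalizer] at b2

theorem ns (J : Subgroup (SU 4 F4 2)) (c : 135 ∣ Nat.card J) : J = ⊤ := by
  have : Finite (SU 4 F4 2) := Nat.finite_of_card_ne_zero (by rw [su_card]; norm_num)
  obtain ⟨a, H, b⟩ := Agent.S2150.result (F := F4) 2 rfl le_rfl
  have nH : ∀ K : Subgroup (SU 4 F4 2), Nat.card K ≠ 405 := fun K e => by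
    have a2 : (H.comap su_psu.toMonoidHom).index = 27 := (index_comap_of_surjective _ su_psu.surjective).trans b
    generalize H.comap su_psu.toMonoidHom = H at a2
    have a1 := BG.card_inf_mul_relIndex H K
    have a3 := H.card_mul_index
    have a4 := card_dvd_of_le (inf_le_left : H ⊓ K ≤ _)
    have a5 : H.relIndex K ≤ 27 := by
      rw [← a2, ← relIndex_top_right]; exact relIndex_le_of_le_right le_top (by simp [a2])
    rw [a2, su_card] at a3
    rw [e] at a1
    rw [show Nat.card H = 960 by omega] at a4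
    have a6 : _ ∣ 15 := Nat.dvd_gcd (Dvd.intro _ a1) a4
    have a7 := Nat.le_of_dvd (by norm_num) a6
    have a8 : Nat.card ↥(H ⊓ K) = 15 := by nlinarith
    obtain ⟨x, y, i, j, k⟩ := n5 no15 (H ⊓ K) (m := 3) a8 (by norm_num)
    rw [a8] at i
    have : 3 ∣ y := ((Nat.Prime.dvd_mul Nat.prime_three).1 (i ▸ by norm_num)).resolve_left j
    have : y ∣ 15 := Dvd.intro_left _ i
    have := Nat.le_of_dvd (by norm_num) this
    interval_cases y <;> omega
  by_contra n
  have a1 := a (J.map su_psu.toMonoidHom) fun e => n (by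
    rw [← comap_map_eq_self_of_injective (f := su_psu.toMonoidHom) su_psu.injective J, e, comap_top])
  rw [index_map_of_bijective su_psu.bijective] at a1
  have a2 := J.card_mul_index
  obtain ⟨m, e⟩ := c
  rw [su_card, e] at a2
  have a3 : m ≤ 7 := by nlinarith
  have a4 : m ∣ 192 := ⟨J.index, by linarith⟩
  have a5 : (m = 1 ∨ m = 2 ∨ m = 4) ∨ m = 3 ∨ m = 6 := by interval_cases m <;> omega
  have k : ¬ (m = 1 ∨ m = 2 ∨ m = 4) := fun k => by
    obtain ⟨x, y, i, j, l⟩ := n5 no15 J (m := 27 * m) (by omega) (by omega)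
    have : 27 ∣ y := (Nat.Coprime.pow_left 3 ((Nat.Prime.coprime_iff_not_dvd Nat.prime_three).2 j)).dvd_of_dvd_mul_left
      (by rw [i, e]; omega)
    obtain ⟨z, rfl⟩ := this
    have : z ∣ 5 * 4 := (show z ∣ 5 * m from ⟨x, by linarith⟩).trans (mul_dvd_mul_left 5 (by rcases k with k | k | k <;> simp [k]))
    have := Nat.le_of_dvd (by norm_num) this
    interval_cases z <;> omega
  obtain rfl | rfl := a5.resolve_left k
  · exact nH J e
  · have : Fact (Nat.Prime 2) := ⟨by norm_num⟩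
    obtain ⟨P⟩ : Nonempty (Sylow 2 J) := inferInstance
    have cP : Nat.card P = 2 := by
      obtain ⟨k, c⟩ := IsPGroup.iff_card.1 P.2
      have a1 := P.1.card_mul_index
      have a2 := P.not_dvd_index
      have a3 := card_subgroup_dvd_card P.1
      rw [c] at a1 a3 ⊢
      obtain _ | _ | k := k
      · omega
      · rfl
      · have := (pow_dvd_pow 2 (by omega : 2 ≤ k + 1 + 1)).trans a3
        omega
    have := ((isCyclic_of_prime_card cP).isComplement' (by rw [e]; norm_num)).card_mul_card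
    rw [cP] at this
    exact nH _ ((card_map_of_injective J.subtype_injective).trans (Nat.eq_of_mul_eq_mul_right two_pos (this.trans e)))

end H01.XF
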