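import Mathlib
import Cfsg.Agent.H01.XF3
import Cfsg.Agent.H10.Herm
import Cfsg.Agent.H29.ULab

/-!
# The module `Q/Z(Q)` for `2^{1+12}.3.U₄(3).2`, part 3 (namespace `H01.XF`)

`QF.coord` (unitary coordinates on `t^⊥/⟨t⟩`), `Hy.nc`, `Hy.iv` (outer elements invert `d`), `Hy.cards`.
-/

set_option autoImplicit false
set_option linter.unusedSectionVars false
open Cfsg Subgroup H01.XT H10 H29 H29.F4 Matrix Module

namespace H01.XF
universe u

theorem frame {F V : Type*} [Field F] [AddCommGroup V] [Module F V] [FiniteDimensional F V] {φ : Form F V} [φ.Nondeg] {q n : ℕ}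
    (h : φ.IsUnitary q) (d : finrank F V = n + 2) {t : V} (o : φ.Q t = 0) (n0 : t ≠ 0) : ∃ b : Fin n → V,
      (∀ i j, φ.B (b i) (b j) = if i = j then 1 else 0) ∧ (∀ i, φ.B t (b i) = 0) ∧
      ∀ x, φ.B t x = 0 → ∃ c : F, x = c • t + ∑ i, φ.B (b i) x • b i := by
  obtain ⟨f, y⟩ := φ.exists_hyp o n0
  have := y.nondegOn.perp.nondeg
  obtain ⟨b, e⟩ := (h.restrict (φ.perp (Submodule.span F {t, f}))).exists_orthonormal_basis
  have r := y.finrank_perp
  obtain rfl : finrank F (φ.perp (Submodule.span F {t, f})) = n := by omega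
  have k := fun i => (φ.mem_perp_pair.1 (b i).2).1
  refine ⟨fun i => b i, e, k, fun x m => ⟨φ.ε * φ.B f x, ?_⟩⟩
  have p := y.proj_mem x
  rw [m, zero_smul, sub_zero] at p
  have s := b.sum_repr ⟨_, p⟩
  have : ∀ i, b.repr ⟨_, p⟩ i = φ.B (b i) x := fun i => by
    have := congrArg ((φ.restrict _).B (b i)) s
    simp only [map_sum, map_smul, e, smul_eq_mul, mul_ite, mul_one, mul_zero, Finset.sum_ite_eq, Finset.mem_univ,
      if_true] at this
    rw [this]
    show φ.B (b i) (x - _) = _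
    rw [map_sub, map_smul, φ.B_eq_zero_comm.1 (k i), smul_zero, sub_zero]
  simp only [this] at s
  simpa [sub_eq_iff_eq_add', eq_comm] using congrArg Subtype.val s

variable {V : Type u} [AddCommGroup V] [Module (ZMod 2) V] [Finite V] {β : V →+ V →+ ZMod 2} {q : V → ZMod 2}

def hf (x y : ZMod 2) : F4 := (if x = 0 then 0 else v) + if y = 0 then 0 else 1

def sm (ω : V →+ V) : F4 → V → V
  | o, _ => 0
  | i, x => x
  | w, x => ω x
  | v, x => ω x + x

theorem QF.coord (h : QF β q) {ω : V →+ V} (ω2 : ∀ x, ω (ω x) = ω x + x) (qω : ∀ x, q (ω x) = q x) {t : V} (n : t ≠ 0)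
    (qt : q t = 0) : ∃ (κ : V →+ Fin 4 → F4) (σ : (Fin 4 → F4) →+ V), (∀ x, κ (σ x) = x) ∧
      (∀ x, β t (σ x) = 0 ∧ β t (ω (σ x)) = 0) ∧ (∀ x, β t x = 0 → β t (ω x) = 0 → x + σ (κ x) ∈ NN ω t) ∧ κ t = 0 ∧
      (∀ x, κ (ω x) = w • κ x) ∧ (∀ x, σ (w • x) = ω (σ x)) ∧
      (∀ x y, hermForm 4 F4 2 y x = hf (β (σ x) (σ y)) (β (σ x) (ω (σ y)))) ∧
      ∀ u, (∀ x, β t x = 0 → β t (ω x) = 0 → β u x = 0) → u ∈ NN ω t := by
  have bω := h.inv qω
  have b1 : ∀ x y, β (ω x) y = β x (ω y) + β x y := fun x y => by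
    rw [← bω, ω2, map_add, AddMonoidHom.add_apply, bω, add_comm]
  let _ : Module F4 V :=
    { smul := sm ω
      one_smul := fun _ => rfl
      mul_smul := fun a b x => by
        show sm ω (F4.mul a b) x = sm ω a (sm ω b x)
        cases a <;> cases b <;> delta F4.mul <;> simp only [sm, map_add, map_zero, ω2] <;> exact lc0
      smul_zero := fun a => by
        show sm ω a 0 = 0
        cases a <;> simp only [sm, map_zero, add_zero]
      smul_add := fun a x y => by
        show sm ω a (x + y) = sm ω a x + sm ω a y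
        cases a <;> simp only [sm, map_add] <;> exact lc0
      add_smul := fun a b x => by
        show sm ω (F4.add a b) x = sm ω a x + sm ω b x
        cases a <;> cases b <;> delta F4.add <;> simp only [sm] <;> exact lc0
      zero_smul := fun _ => rfl }
  have s : ∀ (a : F4) (x : V), a • x = sm ω a x := fun _ _ => rfl
  have ha : ∀ a b c d, hf (a + b) (c + d) = hf a c + hf b d := by decide
  let B : V →ₛₗ[conj F4.card] V →ₗ[F4] F4 := LinearMap.mk₂'ₛₗ _ (RingHom.id _) (fun x y => hf (β x y) (β x (ω y)))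
    (fun x x' y => by simp only [map_add, AddMonoidHom.add_apply, ha])
    (fun a x y => by
      cases a <;> simp only [s, sm, map_add, map_zero, AddMonoidHom.add_apply, AddMonoidHom.zero_apply, b1, ω2, conj_apply] <;>
      generalize β x y = a, β x (ω y) = b <;> revert a b <;> decide)
    (fun x y y' => by simp only [map_add, ha])
    (fun a x y => by
      cases a <;> simp only [s, sm, map_add, map_zero, ω2] <;>
      generalize β x y = a, β x (ω y) = b <;> revert a b <;> decide)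
  have eB : ∀ x y, B x y = hf (β x y) (β x (ω y)) := fun _ _ => rfl
  have h0 : ∀ a b, hf a b = 0 ↔ a = 0 ∧ b = 0 := by decide
  let φ := Form.ofHerm (conj F4.card) (conj_conj _) (Form.exists_theta (conj_ne_id _) (conj_conj _)) B ⟨fun x y => by
    rw [eB, eB, h.sym y, h.sym y, b1, conj_apply]
    generalize β x y = a, β x (ω y) = b; revert a b; decide⟩
  have : φ.Nondeg := ⟨fun x k => h.nd x fun y => ((h0 _ _).1 (k y)).1⟩
  have u : φ.IsUnitary 2 := ⟨Form.isHerm_ofHerm _ _ _ _ _, F4.card, fun _ => rfl⟩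
  have d : finrank F4 V = 4 + 2 := by
    have := Module.natCard_eq_pow_finrank (K := F4) (V := V)
    rw [h.card, F4.card] at this
    exact Nat.pow_right_injective (a := 2 ^ 2) (by norm_num) (this.symm.trans (by norm_num : 4096 = (2 ^ 2) ^ (4 + 2)))
  have t0 : B t t = 0 := (h0 _ _).2 ⟨h.alt t, by
    have := h.pol t (ω t)
    rw [add_comm, ← ω2, qω, qω, qt] at this; exact lc this⟩
  obtain ⟨b, e1, e2, e3⟩ := frame u d (t := t) t0 n
  have nn : ∀ c : F4, c • t ∈ NN ω t := fun c => mem_NN.2 (by cases c <;> simp [s, sm])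
  let σ := Fintype.linearCombination F4 b
  have eσ : ∀ x, σ x = ∑ i, x i • b i := fun _ => rfl
  replace e1 : ∀ i j, B (b i) (b j) = if i = j then 1 else 0 := e1
  replace e2 : ∀ i, B t (b i) = 0 := e2
  have k1 : ∀ x i, B (b i) (σ x) = x i := fun x i => by simp [eσ, e1]
  refine ⟨(LinearMap.pi fun i => B (b i)).toAddMonoidHom, σ.toAddMonoidHom, fun x => funext (k1 x), fun x => (h0 _ _).1 ?_,
    fun x m m' => ?_, funext fun i => φ.B_eq_zero_comm.1 (e2 i), fun x => map_smul (LinearMap.pi fun i => B (b i)) w x,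
    fun x => map_smul σ w x, fun x y => ?_, fun x k => ?_⟩
  · show B t (σ x) = 0
    simp [eσ, e2]
  · obtain ⟨c, e⟩ := e3 x ((h0 _ _).2 ⟨m, m'⟩)
    replace e : x = c • t + σ fun i => B (b i) x := e
    show x + σ (fun i => B (b i) x) ∈ _
    have := nn c
    generalize σ _ = y, c • t = z at e this ⊢
    rwa [show x + y = z from lc e]
  · show _ = B (σ x) (σ y)
    rw [eσ x]
    simp [map_smulₛₗ, k1, hermForm, conj_apply, mul_comm]
  · have : x ∈ φ.perp (φ.perp (F4 ∙ t)) := φ.mem_perp'.2 fun y m => by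
      replace m := (h0 _ _).1 (φ.mem_perp_singleton.1 m)
      exact (h0 _ _).2 ⟨k y m.1 m.2, k _ m.2 (by rw [ω2, map_add, m.1, m.2, add_zero])⟩
    rw [φ.perp_perp] at this
    obtain ⟨c, rfl⟩ := Submodule.mem_span_singleton.1 this
    exact nn c

variable {Γ : Type u} [Group Γ] [Finite Γ] {T : Γ → V →+ V} {d x : Γ} {M X : Subgroup Γ} {a t : V} {R : AddSubgroup V}

namespace Hy
variable (h : Hy T d M X β q a R)
include h

theorem nc : ∃ x, x * d ≠ d * x := by
  by_contra! c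
  obtain ⟨v0, a0, a1⟩ := h.v0
  have cω : ∀ x y, T x (T d y) = T d (T x y) := fun x y => by rw [← h.mul, ← h.mul, c]
  let f : X × NN (T d) a → R := fun p => ⟨v0 + T p.1 v0 + p.2, add_mem (h.Xp _ p.1.2 _ a0) (h.NR p.2.2)⟩
  have fi : Function.Injective f := by
    rintro ⟨⟨x, hx⟩, r, hr⟩ ⟨⟨y, hy⟩, s, hs⟩ k
    have k : v0 + T x v0 + r = v0 + T y v0 + s := congrArg Subtype.val k
    have l : NN (T d) a ≤ R.comap ((T d).comp (T x)) := ex_le (ex_le bot_le (show T d (T x a) ∈ R by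
      rw [h.Xa x hx]; exact h.main.1)) (show T d (T x (T d a)) ∈ R by
      rw [cω, h.Xa x hx, h.ω2]; exact add_mem h.main.1 h.aR)
    have m : T d (T x (r + s)) ∈ R := l (add_mem hr hs)
    rw [show r + s = T x v0 + T y v0 from lc k, map_add, h.xx hx, ← h.mul x y, map_add, ← cω] at m
    obtain rfl : x = y := mul_left_cancel ((h.X2 x hx).trans (h.Xe _ (mul_mem hx hy) _ a1 m).symm)
    obtain rfl : r = s := lc k
    rfl
  have a2 := Nat.card_le_card_of_injective f fi
  have a3 := h.c4 h.a0 (U := NN (T d) a) (le_ex self_ex) self_ex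
  rw [Nat.card_prod, h.main.2.1, h.main.2.2.1] at a2
  omega

theorem iv (n : x ∉ M) (y : V) : T x (T d y) = T d (T x y) + T x y := by
  rcases h.dn x with e | e
  · obtain ⟨g, k⟩ := h.nc
    by_cases m : g ∈ M
    · exact absurd (h.Md g m) k
    · have := h.Md _ ((mul_mem_iff_of_index_two h.Mi).2 (iff_of_false m n))
      rw [mul_assoc, mul_inv_eq_iff_eq_mul.1 e, ← mul_assoc, ← mul_assoc] at this
      exact absurd (mul_right_cancel this) k
  · rw [← h.mul, mul_inv_eq_iff_eq_mul.1 e, h.mul, h.mul, h.ω2]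

theorem i378 (n : t ≠ 0) (o : q t = 0) (j : ¬ ∃ g, T g a = t) : (h.S t).index = 378 := by
  have s : {w | ∃ g, T g a = w} ⊆ {v | v ≠ 0 ∧ q v = 0} := by
    rintro _ ⟨g, rfl⟩; exact ⟨h.nz g h.a0, (h.qT g a).trans h.qa⟩
  have c := Set.ncard_sdiff s
  rw [h.n0 h.ω3 (h.qT d) h.hf, ← h.idx, h.orb.1] at c
  obtain ⟨t0, -, -, -, k⟩ := h.tr2
  obtain ⟨g, rfl⟩ := (k t n o).resolve_left j
  rw [h.idx, ← show _ = 378 from c]
  congr 1
  refine Set.ext fun y => ⟨?_, fun m => ?_⟩
  · rintro ⟨l, rfl⟩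
    exact ⟨⟨h.nz l n, (h.qT l _).trans o⟩, fun ⟨p, e⟩ => j ⟨l⁻¹ * p, by rw [h.mul, e, h.li]⟩⟩
  · obtain ⟨l, rfl⟩ := (k y m.1.1 m.1.2).resolve_left m.2
    exact ⟨l * g⁻¹, by rw [h.mul, h.li]⟩

theorem big' (n : t ≠ 0) : 224 ≤ (M ⊓ h.S t).relIndex M := by
  obtain ⟨y, yM, y7, f⟩ := h.fp
  have c : zpowers d ≤ normalizer (M ⊓ h.S t : Subgroup Γ) :=
    zpowers_le.2 (BG.cent_le_norm _ (BG.mem_cent.2 fun g i => h.Md g i.1))
  have l : M ⊓ h.S t ⊔ zpowers d ≤ M := sup_le inf_le_left (zpowers_le.2 h.dM)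
  have a1 := h.mi _ l (mem_sup_right (mem_zpowers d)) fun e => by
    obtain ⟨k, i, _, ⟨m, rfl⟩, o⟩ := (BG.mem_sup_norm c).1 (e.ge yM)
    have c : Commute k (d ^ m) := (show Commute k d from h.Md k i.1).zpow_right m
    have : y ^ 3 = k ^ 3 := by
      rw [← o, c.mul_pow, ← zpow_natCast (d ^ m), ← _root_.zpow_mul, mul_comm m, _root_.zpow_mul, zpow_natCast,
        pow_three d, h.d3, _root_.one_zpow, mul_one]
    have m := pow_mem (this ▸ pow_mem i.2 3) 5
    rw [← pow_mul, show 3 * 5 = 7 * 2 + 1 from rfl, pow_succ, pow_mul, y7, one_pow, one_mul] at m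
    exact n ((f t).2 m)
  have a2 := BG.relIndex_mul (le_sup_left : M ⊓ h.S t ≤ _) l
  have a3 : (M ⊓ h.S t).relIndex (M ⊓ h.S t ⊔ zpowers d) ≠ 1 := fun e => by
    have m : T d t = t := (relIndex_eq_one.1 e (mem_sup_right (mem_zpowers d))).2
    have := h.hf t
    rw [m, m] at this; exact n (lc this)
  have a4 := BG.relIndex_ne_zero (M ⊓ h.S t) (M ⊓ h.S t ⊔ zpowers d)
  have : 2 ≤ (M ⊓ h.S t).relIndex (M ⊓ h.S t ⊔ zpowers d) := by omega
  nlinarith

theorem cards (n : t ≠ 0) (o : q t = 0) (j : ¬ ∃ g, T g a = t) :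
    Nat.card (h.S t) = 51840 ∧ Nat.card (M.subgroupOf (h.S t)) = 25920 := by
  have := normal_of_index_eq_two h.Mi
  have a1 := (h.S t).card_mul_index
  rw [h.i378 n o j, h.cΓ] at a1
  have a2 := BG.card_inf_mul_relIndex M (h.S t)
  have a3 := BG.card_inf_mul_relIndex (h.S t) M
  have a4 := h.big' n
  have a5 := (Nat.dvd_prime Nat.prime_two).1 (h.Mi ▸ relIndex_dvd_index_of_normal M (h.S t))
  rw [inf_relIndex_left] at a4
  rw [inf_comm, h.cM] at a3
  rw [← inf_subgroupOf_right, Nat.card_congr (subgroupOfEquivOfLe inf_le_right).toEquiv]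
  rcases a5 with e | e <;> rw [e] at a2
  · nlinarith
  · omega

end Hy
end H01.XF
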