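import Mathlib
import Cfsg.Agent.H01.XF5
import Cfsg.Agent.H01.XF6

/-!
# The module `Q/Z(Q)` for `2^{1+12}.3.U₄(3).2`, part 4 (namespace `H01.XF`)

`Hy.o6`: the stabiliser of a singular vector in the short orbit is `O₆⁻(2)`.
-/

set_option autoImplicit false
set_option linter.unusedSectionVars false
open Cfsg Subgroup H01.XT H29 H29.F4 Matrix

namespace H01.XF
universe u
variable {V : Type u} [AddCommGroup V] [Module (ZMod 2) V] [Finite V] {β : V →+ V →+ ZMod 2} {q : V → ZMod 2}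
  {Γ : Type u} [Group Γ] [Finite Γ] {T : Γ → V →+ V} {d : Γ} {M X : Subgroup Γ} {a t : V} {R : AddSubgroup V}

def D3 : SU 4 F4 2 := ⟨⟨diagonal ![w, w, w, i], by decide +kernel⟩, herm_of (by decide +kernel)⟩

theorem Hy.o6 (h : Hy T d M X β q a R) (n : t ≠ 0) (o : q t = 0) (j : ¬ ∃ g, T g a = t) : Nonempty (h.S t ≃* H13.O6.O) := by
  obtain ⟨κ, σ, k1, k2, k3, k4, k5, k6, k7, k8⟩ := h.toQF.coord h.ω2 (h.qT d) n o
  obtain ⟨cS, cN⟩ := h.cards n o j
  have := normal_of_index_eq_two h.Mi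
  let P := (β t).ker ⊓ ((β t).comp (T d)).ker
  have mP : ∀ x, x ∈ P ↔ β t x = 0 ∧ β t (T d x) = 0 := fun _ => Iff.rfl
  replace k2 : ∀ x, σ x ∈ P := k2
  replace k3 : ∀ x ∈ P, x + σ (κ x) ∈ NN (T d) t := fun x m => k3 x m.1 m.2
  have gP : ∀ g ∈ h.S t, ∀ x ∈ P, T g x ∈ P := fun g (e : T g t = t) x m => by
    have a1 : ∀ y, β t (T g y) = β t y := fun y => by rw [← h.βT g t y, e]
    have a2 := a1 (T d x)
    obtain ⟨m1, m2⟩ := (mP x).1 m
    refine (mP _).2 ⟨(a1 x).trans m1, ?_⟩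
    rcases h.gd g x with k | k <;> rw [k, m2] at a2
    · exact a2
    · rwa [map_add, a1, m1, add_zero] at a2
  have gN : ∀ g ∈ h.S t, ∀ x ∈ NN (T d) t, κ (T g x) = 0 := fun g (e : T g t = t) =>
    (ex_le (ex_le bot_le (show κ (T g t) = 0 by rw [e, k4])) (show κ (T g (T d t)) = 0 by
      rcases h.gd g t with k | k <;> simp [k, e, k4, k5]) : NN (T d) t ≤ (κ.comp (T g)).ker)
  have gκ : ∀ g ∈ h.S t, ∀ x ∈ P, κ (T g (σ (κ x))) = κ (T g x) := fun g e x m => by
    have := gN g e _ (k3 x m)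
    rw [map_add, map_add, add_eq_zero_iff_neg_eq] at this
    exact this.symm
  have bk : ∀ x ∈ P, ∀ y ∈ P, β (σ (κ x)) y = β x y := fun x m y m' => by
    have : β y (x + σ (κ x)) = 0 := (ex_le (ex_le bot_le (show β y t = 0 from (h.sym _ _).trans m'.1)) (show β y (T d t) = 0 by
      rw [h.aω, h.ω2, h.sym, map_add, ((mP y).1 m').1, ((mP y).1 m').2, add_zero]) : NN (T d) t ≤ (β y).ker) (k3 x m)
    rw [map_add, h.sym y, h.sym y] at this; exact lc this
  have ωP : ∀ x ∈ P, T d x ∈ P := fun x m => (mP _).2 ⟨m.2, by rw [h.ω2, map_add, ((mP x).1 m).1, ((mP x).1 m).2, add_zero]⟩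
  let L : M.subgroupOf (h.S t) → Module.End F4 (Fin 4 → F4) := fun g =>
    { toFun := fun x => κ (T g.1 (σ x))
      map_add' := fun x y => by simp only [map_add]
      map_smul' := fun c x => by
        have e : κ (T g.1 (σ (w • x))) = w • κ (T g.1 (σ x)) := by rw [k6, h.cω (x := g.1.1) g.2, k5]
        rcases (by decide : ∀ c : F4, c = 0 ∨ c = 1 ∨ c = w ∨ c = w + 1) c with rfl | rfl | rfl | rfl <;>
        simp [add_smul, e] }
  let A : M.subgroupOf (h.S t) →* Matrix (Fin 4) (Fin 4) F4 :=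
    { toFun := fun g => LinearMap.toMatrix' (L g)
      map_one' := by rw [← LinearMap.toMatrix'_one]; congr 1; exact LinearMap.ext fun x => (congrArg κ (h.one _)).trans (k1 x)
      map_mul' := fun g k => by
        rw [← LinearMap.toMatrix'_mul]; congr 1
        exact LinearMap.ext fun x => (congrArg κ (h.mul _ _ _)).trans (gκ _ g.1.2 _ (gP _ k.1.2 _ (k2 x))).symm }
  have eA : ∀ g x, A g *ᵥ x = κ (T g.1 (σ x)) := fun g x => LinearMap.toMatrix'_mulVec (L g) x
  let δ := (detMonoidHom.comp A).toHomUnits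
  let f : δ.ker →* SU 4 F4 2 := MonoidHom.mk' (fun g => ⟨⟨A g, congrArg Units.val g.2⟩, fun x y => by
    show hermForm 4 F4 2 (A g *ᵥ x) (A g *ᵥ y) = _
    have m := fun x => gP _ g.1.1.2 _ (k2 x)
    rw [eA, eA, k7, k7, bk _ (m y) _ (k2 _), bk _ (m y) _ (ωP _ (k2 _)), h.sym, bk _ (m x) _ (m y), h.aω, h.sym (T d _),
      bk _ (m x) _ (ωP _ (ωP _ (m y))), h.sym (T _ (σ x)), h.sym (T _ (σ x)), ← h.aω, ← h.cω (x := g.1.1.1) g.1.2, h.βT, h.βT]⟩)
    fun g k => Subtype.ext (Subtype.ext (map_mul A _ _))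
  have pk : IsPGroup 2 f.ker := fun g => ⟨2, Subtype.ext (Subtype.ext (Subtype.ext (Subtype.ext (h.fai _ fun y => by
    obtain ⟨⟨⟨⟨g, i⟩, m⟩, _⟩, e⟩ := g
    replace e : A ⟨⟨g, i⟩, m⟩ = 1 := congrArg (·.1.1) e
    have a1 : ∀ x ∈ NN (T d) t, T g x = x := (ex_le (ex_le bot_le i) (show T g (T d t) = T d t by
      rw [h.cω (x := g) m, show T g t = t from i]) : NN (T d) t ≤ (T g).eqLocus (AddMonoidHom.id V))
    have a2 : ∀ x ∈ P, T g (T g x) = x := fun x k => by
      have e1 := eA ⟨⟨g, i⟩, m⟩ (κ x)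
      rw [e, one_mulVec, gκ g i x k] at e1
      have := a1 _ (add_mem (k3 x k) (k3 _ (gP g i x k)))
      rw [← e1, show x + σ (κ x) + (T g x + σ (κ x)) = x + T g x from lc0, map_add] at this
      exact lc this
    have a3 := k8 (y + T g (T g y)) fun x m1 m2 => by
      rw [map_add, AddMonoidHom.add_apply, ← a2 x ⟨m1, m2⟩, h.βT, h.βT, a2 x ⟨m1, m2⟩]; exact lc0
    have a4 := (congrArg (T g) (a1 _ a3)).trans (a1 _ a3)
    simp only [map_add] at a4
    show T (g ^ 2 ^ 2) y = y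
    simp only [show 2 ^ 2 = 4 from rfl, pow_succ, pow_zero, one_mul, h.mul]
    exact lc a4))))⟩
  obtain ⟨k, ck⟩ := IsPGroup.iff_card.1 pk
  have a1 := δ.ker.card_mul_index
  have a2 := f.ker.card_mul_index
  have a3 := (Nat.dvd_prime Nat.prime_three).1 ((card_subgroup_dvd_card δ.range).trans (by rw [Nat.card_units, F4.card]; rfl))
  rw [index_ker, cN] at a1
  rw [index_ker, ck] at a2
  have fs := MonoidHom.range_eq_top.1 (ns _ ((Nat.Coprime.pow_right k (by norm_num : Nat.Coprime 135 2)).dvd_of_dvd_mul_left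
    (by rw [a2]; rcases a3 with e | e <;> rw [e] at a1 <;> omega)))
  have a4 := Nat.card_le_card_of_surjective f fs
  have a5 := δ.ker.card_le_card_group
  rw [su_card] at a4
  have fb := fs.bijective_of_nat_card_le (by rw [su_card]; omega)
  have tp : δ.ker = ⊤ := eq_top_of_le_card _ (by omega)
  obtain ⟨e⟩ := H13.O6.aut
  refine (H13.aut_of (M.subgroupOf (h.S t)) ((topEquiv.symm.trans (MulEquiv.subgroupCongr tp.symm)).trans
    ((MulEquiv.ofBijective f fb).trans su_psu)) (fun c k => ?_) (by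
      rw [← Nat.card_congr e.toEquiv, H13.O6.card, cS])).map (·.trans e.symm)
  by_cases m : c.1 ∈ M
  · have : f ⟨⟨c, m⟩, tp.ge trivial⟩ = 1 := su_z.le (mem_center_iff.2 fun y => by
      obtain ⟨y, rfl⟩ := fs y
      rw [← map_mul, ← map_mul]; congr 1
      exact Subtype.ext (Subtype.ext (k _ y.1.2).symm))
    exact congrArg (·.1.1) ((map_eq_one_iff f fb.1).1 this)
  · obtain ⟨g, e⟩ := fs D3
    replace e : A g = diagonal ![w, w, w, i] := congrArg (·.1.1) e
    have c1 : T c (T g.1.1 (σ (Pi.single 0 1))) = T g.1.1 (T c (σ (Pi.single 0 1))) := by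
      rw [← h.mul, ← h.mul]; congr 2; exact congrArg Subtype.val (k _ g.1.2)
    have p := gP _ c.2 _ (k2 (Pi.single 0 1))
    have c2 := congrArg κ c1
    rw [← gκ _ c.2 _ (gP _ g.1.1.2 _ (k2 _)), ← eA, ← gκ _ g.1.1.2 _ p, ← eA, e,
      show diagonal ![w, w, w, i] *ᵥ Pi.single 0 1 = w • Pi.single 0 1 by decide +kernel, k6, h.iv m, map_add, k5] at c2
    have c3 := k3 _ p
    rw [(by decide +kernel : ∀ x : Fin 4 → F4, w • x + x = diagonal ![w, w, w, i] *ᵥ x → x = 0) _ c2, map_zero, add_zero] at c3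
    have := gN _ (inv_mem c.2) _ c3
    rw [h.li, k1] at this
    exact absurd this (by decide)

end H01.XF
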