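import Mathlib
import Cfsg.Agent.H03.LX2
import Cfsg.Agent.H09.SLBasic
import Cfsg.Agent.H01.XT2

/-!
# The normaliser of an eight-group spanned by centres of large extraspecial groups (namespace `H01.XF`)

`eight`: `N(W)/O₂ ≅ SL₃(2) × C(W)/O₂`.
-/

set_option autoImplicit false
set_option linter.unusedSectionVars false
open Cfsg BG Subgroup Matrix H01.XT

namespace H01.XF
variable {G : Type*} [Group G] [Finite G]

theorem coord8 {W : Subgroup G} (c : Nat.card W = 8) (ab : W ≤ C_(W)) {e : Fin 3 → G} (eW : ∀ i, e i ∈ W)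
    (e2 : ∀ i, e i * e i = 1) (gen : ∀ K : Subgroup G, (∀ i, e i ∈ K) → W ≤ K) :
    ∃ ε : (Fin 3 → ZMod 2) → G, (∀ x y, ε (x + y) = ε x * ε y) ∧ Function.Injective ε ∧ (∀ w, w ∈ W ↔ ∃ x, ε x = w) ∧
      ∀ i, ε (Pi.single i 1) = e i := by
  let _ : CommGroup W := { (inferInstance : Group W) with mul_comm := fun x y => Subtype.ext (mem_cent.1 (ab y.2) x x.2) }
  let p : W → ZMod 2 → W := fun u s => if s = 0 then 1 else u
  have pa : ∀ u, u * u = 1 → ∀ s t, p u (s + t) = p u s * p u t := fun u k s t => by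
    rcases z2 s with rfl | rfl <;> rcases z2 t with rfl | rfl <;> simp [p, k, show (1 + 1 : ZMod 2) = 0 from rfl]
  let ε : Multiplicative (Fin 3 → ZMod 2) →* W := MonoidHom.mk' (fun x => ∏ i, p ⟨e i, eW i⟩ (x.toAdd i)) fun x y => by
    rw [← Finset.prod_mul_distrib]
    exact Finset.prod_congr rfl fun i _ => pa _ (Subtype.ext (e2 i)) _ _
  have s : ∀ i, (ε (.ofAdd (Pi.single i 1)) : G) = e i := fun i => by
    show ((∏ j, p ⟨e j, eW j⟩ (Pi.single (M := fun _ => ZMod 2) i 1 j) : W) : G) = _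
    rw [Finset.prod_eq_single i (fun j _ n => by simp [p, n]) (by simp)]; simp [p]
  have t : Function.Surjective ε := fun w => by
    obtain ⟨x, k⟩ := gen (W.subtype.comp ε).range (fun i => ⟨_, s i⟩) w.2
    exact ⟨x, Subtype.ext k⟩
  exact ⟨fun x => ε (.ofAdd x), fun x y => congrArg Subtype.val (map_mul ε _ _),
    Subtype.val_injective.comp ((t.bijective_of_nat_card_le (by simp [c])).1.comp Multiplicative.ofAdd.injective),
    fun w => ⟨fun m => (t ⟨w, m⟩).elim fun x k => ⟨x.toAdd, congrArg Subtype.val k⟩, fun ⟨x, k⟩ => k ▸ (ε _).2⟩, s⟩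

theorem eight {W R : Subgroup G} (c : Nat.card W = 8) (ab : W ≤ C_(W)) {e : Fin 3 → G} (eW : ∀ i, e i ∈ W)
    (gen : ∀ K : Subgroup G, (∀ i, e i ∈ K) → W ≤ K) (hE : ∀ i, ∃ E, H03.ES E (e i) ∧ W ≤ E)
    {B : Type*} [Group B] [IsSimpleGroup B] (nB : ¬ IsPGroup 2 B) (zB : center B = ⊥) (φ : C_(W) →* B)
    (φs : Function.Surjective φ) (hR : R = φ.ker.map C_(W).subtype) (pR : IsPGroup 2 R) :
    N_(W) ≤ N_(R) ∧ (∀ N : Subgroup G, N ≤ C_(W) → C_(W) ≤ N_(N) → IsPGroup 2 N → N ≤ R) ∧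
    (∀ w ∈ W, w ≠ 1 → ∃ l ∈ N_(W), l * e 0 * l⁻¹ = w) ∧ R = (pCore 2 N_(W)).map N_(W).subtype ∧
    ∃ _ : (R.subgroupOf N_(W)).Normal, Nonempty (N_(W) ⧸ R.subgroupOf N_(W) ≃* SpecialLinearGroup (Fin 3) (ZMod 2) × B) := by
  classical
  choose E hE WE using hE
  obtain ⟨ε, a1, a2, a3, a4⟩ := coord8 c ab eW (fun i => (hE i).aes.mul_self) gen
  have a0 : ε 0 = 1 := by simpa using a1 0 0
  have ex : ∀ (l : N_(W)) x, ∃ y, ε y = l * ε x * l.1⁻¹ := fun l x =>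
    (a3 _).1 (le_norm_iff.1 le_rfl l.1 l.2 _ ((a3 _).2 ⟨x, rfl⟩))
  choose η hη using ex
  let lin : N_(W) → Module.End (ZMod 2) (Fin 3 → ZMod 2) := fun l => (AddMonoidHom.mk' (η l) fun x y => a2 (by
    rw [a1, hη, hη, hη, a1, conj_mul])).toZModLinearMap 2
  let A : N_(W) →* Matrix (Fin 3) (Fin 3) (ZMod 2) :=
    { toFun := fun l => LinearMap.toMatrix' (lin l)
      map_one' := by rw [← LinearMap.toMatrix'_one]; congr 1; exact LinearMap.ext fun x => a2 ((hη 1 x).trans (by simp))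
      map_mul' := fun l k => by
        rw [← LinearMap.toMatrix'_mul]; congr 1
        refine LinearMap.ext fun x => a2 ((hη _ x).trans (.symm ((hη _ _).trans ?_)))
        show _ * ε (η k x) * _ = _
        rw [hη]; push_cast; group }
  let ψ : N_(W) →* SpecialLinearGroup (Fin 3) (ZMod 2) := MonoidHom.mk' (fun l => ⟨A l, z2' _
    ((A.toHomUnits l).isUnit.map detMonoidHom).ne_zero⟩) fun l k => Subtype.ext (map_mul A l k)
  have eψ : ∀ l x, ε ((ψ l).1 *ᵥ x) = l * ε x * l.1⁻¹ := fun l x =>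
    (congrArg ε (LinearMap.toMatrix'_mulVec (lin l) x)).trans (hη l x)
  have mx : ∀ M N : Matrix (Fin 3) (Fin 3) (ZMod 2), (∀ k, M *ᵥ Pi.single k 1 = N *ᵥ Pi.single k 1) → M = N := fun M N k =>
    Matrix.ext fun i j => by simpa using congrFun (k j) i
  have kψ : ∀ l, ψ l = 1 ↔ l.1 ∈ C_(W) := fun l => ⟨fun k => mem_cent.2 fun w m => by
    obtain ⟨x, rfl⟩ := (a3 w).1 m
    have := eψ l x
    rw [show (ψ l).1 = 1 from congrArg Subtype.val k, one_mulVec] at this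
    exact eq_mul_inv_iff_mul_eq.1 this, fun k => Subtype.ext (show (ψ l).1 = 1 from mx _ _ fun i => a2 (by
      rw [eψ, one_mulVec, a4, ← mem_cent.1 k _ (eW i), mul_inv_cancel_right]))⟩
  have mR : ∀ x : C_(W), x.1 ∈ R ↔ φ x = 1 := fun x => hR ▸
    ⟨fun ⟨y, k, e⟩ => by obtain rfl : y = x := Subtype.ext e; exact k, fun k => ⟨_, k, rfl⟩⟩
  have RC : R ≤ C_(W) := hR ▸ map_subtype_le _
  have CR : C_(W) ≤ N_(R) := le_norm_iff.2 fun g i r j => (mR (⟨g, i⟩ * ⟨r, RC j⟩ * ⟨g, i⟩⁻¹)).2 (by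
    rw [map_mul, map_mul, (mR ⟨r, RC j⟩).1 j]; simp)
  have F : ∀ N : Subgroup G, N ≤ C_(W) → C_(W) ≤ N_(N) → IsPGroup 2 N → N ≤ R := fun N l n p x m => by
    have := ((normal_subgroupOf_iff_le_normalizer l).2 n).map φ φs
    have p' := (p.comap_subtype (K := C_(W))).map φ
    refine (mR ⟨x, l m⟩).2 ((Subgroup.map_eq_bot_iff _).1 (this.eq_bot_or_eq_top.resolve_right fun e => nB ?_) m)
    exact (show IsPGroup 2 (⊤ : Subgroup B) from e ▸ p').of_equiv topEquiv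
  have LC := norm_le_norm_cent W
  have LR : N_(W) ≤ N_(R) := fun l i => mem_norm_of_cj_le (F _ (cj_le_of_mem_norm RC (LC i))
    (by rw [← cj_norm, ← cj_of_mem_norm (LC i)]; exact cj_mono l CR) (pR.map _))
  let K : Subgroup N_(W) :=
    { carrier := {l | ∀ x ∈ C_(W), l * x * l.1⁻¹ * x⁻¹ ∈ R}
      one_mem' := fun x _ => by simp
      mul_mem' := fun {l k} i j x m => by
        have := mul_mem (le_norm_iff.1 LR l l.2 _ (j x m)) (i x m)
        convert this using 1; push_cast; group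
      inv_mem' := fun {l} i x m => by
        have := le_norm_iff.1 LR _ (inv_mem l.2) _ (inv_mem (le_norm_iff.1 CR _ (inv_mem m) _ (i x m)))
        have := le_norm_iff.1 CR _ (le_norm_iff.1 LC _ (inv_mem l.2) _ m) _ this
        convert this using 1; push_cast; group }
  have nK : K.Normal := ⟨fun k i l x m => by
    have := le_norm_iff.1 LR l l.2 _ (i _ (le_norm_iff.1 LC _ (inv_mem l.2) _ m))
    convert this using 1; push_cast; group⟩
  have Kt : K.map ψ = ⊤ := H09.eq_top_of_transvection_mem _ fun i j n s => by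
    rcases z2 s with rfl | rfl
    · exact ⟨1, one_mem _, (map_one ψ).trans (Subtype.ext (Matrix.transvection_zero i j).symm)⟩
    let H : Subgroup G :=
      { carrier := {w | ∃ x, x j = 0 ∧ ε x = w}
        one_mem' := ⟨0, rfl, a0⟩
        mul_mem' := by rintro _ _ ⟨x, a, rfl⟩ ⟨y, b, rfl⟩; exact ⟨x + y, by simp [a, b], a1 x y⟩
        inv_mem' := by
          rintro _ ⟨x, a, rfl⟩
          exact ⟨x, a, eq_inv_of_mul_eq_one_left (by rw [← a1, show x + x = 0 from lc0, a0])⟩ }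
    have eH : ∀ k, k ≠ j → e k ∈ H := fun k o => ⟨_, Pi.single_eq_of_ne' o 1, a4 k⟩
    obtain ⟨t, tE, t1, t2⟩ := (hE i).exists_conj (A := H) (by rintro _ ⟨x, -, rfl⟩; exact WE i ((a3 _).2 ⟨x, rfl⟩))
      (eH i n) (WE i (eW j)) fun ⟨x, a, b⟩ => by rw [a2 (b.trans (a4 j).symm)] at a; simp at a
    have tL := (hE i).aes.le_norm (WE i) (eW i) tE
    have CE : C_(W) ≤ N_(E i) := (cent_le_cent1 (eW i)).trans (hE i).norm
    refine ⟨⟨t, tL⟩, fun x m => F (E i ⊓ C_(W)) inf_le_right (norm_inf CE le_normalizer)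
      ((hE i).aes.isPGroup.to_le inf_le_left) (mem_inf.2 ⟨?_, mul_mem (le_norm_iff.1 LC t tL x m) (inv_mem m)⟩),
      Subtype.ext (show (ψ _).1 = Matrix.transvection i j 1 from mx _ _ fun k => a2 ?_)⟩
    · simpa [mul_assoc] using mul_mem tE (le_norm_iff.1 CE x m _ (inv_mem tE))
    · rw [eψ, a4, (by decide : ∀ i j k : Fin 3, i ≠ j → Matrix.transvection i j (1 : ZMod 2) *ᵥ Pi.single k 1 =
          if k = j then Pi.single j 1 + Pi.single i 1 else Pi.single k 1) i j k n]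
      split_ifs with o
      · rw [a1, a4, a4, o]; exact t2
      · rw [a4, ← mem_cent.1 t1 _ (eH k o), mul_inv_cancel_right]
  have ψs : ∀ s, ∃ k ∈ K, ψ k = s := fun s => Kt.ge (mem_top s)
  have tr : ∀ w ∈ W, w ≠ 1 → ∃ l ∈ N_(W), l * e 0 * l⁻¹ = w := fun w m n => by
    obtain ⟨x, rfl⟩ := (a3 w).1 m
    obtain ⟨M, i, j⟩ := (by decide +kernel : ∀ x : Fin 3 → ZMod 2, x ≠ 0 → ∃ M : Matrix (Fin 3) (Fin 3) (ZMod 2),
      M *ᵥ Pi.single 0 1 = x ∧ M.det = 1) x fun k => n (k ▸ a0)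
    obtain ⟨l, -, k⟩ := ψs ⟨M, j⟩
    exact ⟨l, l.2, by rw [← a4, ← eψ, k, i]⟩
  have n : (R.subgroupOf N_(W)).Normal := (normal_subgroupOf_iff_le_normalizer (RC.trans (cent_le_norm W))).2 LR
  have dc : ∀ l : N_(W), ∃ x : C_(W), ∃ k ∈ K, l.1 = k * x := fun l => by
    obtain ⟨k, i, j⟩ := ψs (ψ l)
    exact ⟨⟨_, (kψ (k⁻¹ * l)).1 (by simp [j])⟩, k, i, by simp⟩
  choose γ κ κK hγ using dc
  have KC : ∀ k ∈ K, ∀ x : C_(W), k.1 = x → φ x = 1 := fun k i x e => zB.le (mem_center_iff.2 fun y => by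
    obtain ⟨y, rfl⟩ := φs y
    have := (mR (x * y * x⁻¹ * y⁻¹)).1 (by simpa [e] using i y y.2)
    rw [map_mul, map_mul, map_mul, map_inv, map_inv, mul_inv_eq_one, mul_inv_eq_iff_eq_mul] at this
    exact this.symm)
  have θe : ∀ l, ∀ x : C_(W), ∀ k ∈ K, l.1 = k.1 * x.1 → φ (γ l) = φ x := fun l x k i e => by
    have := KC _ (mul_mem (inv_mem i) (κK l)) (x * (γ l)⁻¹) (by
      push_cast; rw [inv_mul_eq_iff_eq_mul, ← mul_assoc, ← e, hγ l, mul_inv_cancel_right])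
    rw [map_mul, map_inv, mul_inv_eq_one] at this; exact this.symm
  let θ : N_(W) →* B := MonoidHom.mk' (fun l => φ (γ l)) fun l k => (θe _ (γ l * γ k) _
    (mul_mem (κK l) (nK.conj_mem _ (κK k) ⟨γ l, cent_le_norm W (γ l).2⟩)) (by
      push_cast; conv_lhs => rw [hγ l, hγ k]
      group)).trans (map_mul φ _ _)
  have θC : ∀ x : C_(W), θ ⟨x, cent_le_norm W x.2⟩ = φ x := fun x => θe _ x 1 (one_mem _) (by simp)
  have ker : (ψ.prod θ).ker = R.subgroupOf N_(W) := Subgroup.ext fun l => by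
    rw [MonoidHom.mem_ker, MonoidHom.prod_apply, Prod.mk_eq_one, kψ]
    exact ⟨fun i => (mR ⟨_, i.1⟩).2 ((θC ⟨_, i.1⟩).symm.trans i.2), fun i => ⟨RC i, (θC ⟨_, RC i⟩).trans ((mR ⟨_, RC i⟩).1 i)⟩⟩
  refine ⟨LR, F, tr, le_antisymm (fun x m => ⟨⟨x, cent_le_norm W (RC m)⟩, H02.le_pCore (N := R.subgroupOf N_(W)) pR.comap_subtype m, rfl⟩) ?_, n,
    ⟨(QuotientGroup.quotientMulEquivOfEq ker.symm).trans (QuotientGroup.quotientKerEquivOfSurjective _ fun ⟨s, t⟩ => ?_)⟩⟩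
  · have p := (H02.pCore_isPGroup 2 N_(W)).map N_(W).subtype
    have nO : N_(W) ≤ N_((pCore 2 N_(W)).map N_(W).subtype) := le_norm_iff.2 (by
      rintro g i _ ⟨k, hk, rfl⟩
      exact ⟨_, (inferInstance : (pCore 2 N_(W)).Normal).conj_mem k hk ⟨g, i⟩, rfl⟩)
    refine F _ (cent_symm fun w m => ?_) ((cent_le_norm W).trans nO) p
    obtain ⟨⟨u, i⟩, j⟩ := ne_bot_iff_exists_ne_one.1 (pg_fix_ne_bot Nat.prime_two p (pg_of_card (n := 3) c) (map_subtype_le _)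
      fun k => by simp [k] at c)
    by_cases o : w = 1
    · exact o ▸ one_mem _
    obtain ⟨l, a, rfl⟩ := tr w m o
    obtain ⟨k, b, rfl⟩ := tr u i.1 fun o => j (Subtype.ext o)
    simpa [mul_assoc] using le_norm_iff.1 (norm_cent nO) _ (mul_mem a (inv_mem b)) _ i.2
  · obtain ⟨k, i, rfl⟩ := ψs s
    obtain ⟨x, rfl⟩ := φs t
    refine ⟨k * ⟨x, cent_le_norm W x.2⟩, Prod.ext ?_ (θe _ x k i rfl)⟩
    show ψ _ = _
    rw [map_mul, (kψ ⟨x, cent_le_norm W x.2⟩).2 x.2, mul_one]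

end H01.XF
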