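import Mathlib
import Cfsg.Agent.H01.XF4
import Cfsg.Agent.H01.XF6
import Cfsg.Agent.H01.XF8
import Cfsg.Agent.H04.Frattini

/-!
# Groups of large Fischer type: the local subgroup `2^{3+12}.(L₃(2) × A₆)` (namespace `H01.XF`)

`Hy.orb2`, `Br.loc`.
-/

set_option autoImplicit false
set_option linter.unusedSectionVars false
open Cfsg BG Subgroup H01.XS Equiv
open H01.XT hiding Hy QS
open scoped commutatorElement

namespace H01.XF
universe u
variable {G : Type u} [Group G] [Finite G] {a z : G} {Q Q' : Subgroup G}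
  {V : Type u} [AddCommGroup V] [Module (ZMod 2) V] [Finite V] {Γ : Type u} [Group Γ] [Finite Γ]
  {T : Γ → V →+ V} {d : Γ} {M : Subgroup Γ} {β : V →+ V →+ ZMod 2} {q : V → ZMod 2} {ν : G → V} {f : C_[z] →* Γ} {π : G → Γ}

theorem Hy.orb2 {X : Subgroup Γ} {a : V} {R : AddSubgroup V} (h : Hy T d M X β q a R) : Nat.card ↥(M ⊓ X) = 16 ∧
    ∃ φ : h.S a →* Perm (Fin 6), φ.ker = X.subgroupOf (h.S a) ∧ φ.range = alternatingGroup (Fin 6) ∧
      (M.subgroupOf (h.S a)).map φ = alternatingGroup (Fin 6) := by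
  obtain ⟨i, l, φ, e1, e2⟩ := h.orb
  have := normal_of_index_eq_two h.Mi
  have a1 := (h.S a).card_mul_index
  rw [i, h.cΓ] at a1
  have a2 := card_inf_mul_relIndex M (h.S a)
  have a3 := card_dvd_of_le (inf_le_left : M ⊓ h.S a ≤ M)
  have a5 := (Nat.dvd_prime Nat.prime_two).1 (h.Mi ▸ relIndex_dvd_index_of_normal M (h.S a))
  rw [h.cM] at a3
  have a6 : Nat.card ↥(M ⊓ h.S a) = 5760 := by
    rcases a5 with e | e <;> rw [e] at a2
    · rw [show Nat.card ↥(M ⊓ h.S a) = 11520 by omega] at a3; omega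
    · omega
  have a7 := card_inf_mul_relIndex φ.ker (M.subgroupOf (h.S a))
  rw [relIndex_ker, e1, ← inf_subgroupOf_right M, Nat.card_congr (subgroupOfEquivOfLe inf_le_right).toEquiv, a6,
    inf_subgroupOf_right, show X.subgroupOf (h.S a) ⊓ M.subgroupOf (h.S a) = (M ⊓ X).subgroupOf (h.S a) from
      Subgroup.ext fun _ => and_comm, Nat.card_congr (subgroupOfEquivOfLe (inf_le_right.trans l)).toEquiv] at a7
  have a8 := card_dvd_of_le (inf_le_right : M ⊓ X ≤ X)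
  have a9 := h.X0.1
  rw [h.main.2.2.1] at a8 a9
  have b0 := Nat.le_of_dvd (by norm_num) a8
  have b1 : Nat.card ↥(M ⊓ X) = 16 ∨ Nat.card ↥(M ⊓ X) = 32 := by
    generalize Nat.card ↥(M ⊓ X) = n at *
    have : 16 ≤ n := by omega
    interval_cases n <;> omega
  have b3 : Nat.card ((M.subgroupOf (h.S a)).map φ) = 360 ∨ Nat.card ((M.subgroupOf (h.S a)).map φ) = 180 := by
    rcases b1 with e | e <;> rw [e] at a7 <;> omega
  have b2 := s6 _ (by rcases b3 with e | e <;> rw [e]; norm_num) (by omega)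
  refine ⟨by rw [b2] at a7; omega, φ, e1, e2, Subgroup.eq_of_le_of_card_ge (e2 ▸ map_le_range _ _) ?_⟩
  rw [b2, nat_card_alternatingGroup]; simp [Nat.factorial]

theorem Br.loc (s : Br z Q f π ν T d M β q) (p : H03.PP Q z Q' a) (c' : Nat.card Q' = 8192) :
    ∃ W : Subgroup G, IsElementaryAbelian 2 W ∧ Nat.card W = 8 ∧ z ∈ W ∧ ∃ R : Subgroup G,
      R = (pCore 2 N_(W)).map N_(W).subtype ∧ IsSpecial 2 R ∧ Nat.card R = 2 ^ 15 ∧ (center R).map R.subtype = W ∧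
      ∃ _ : (R.subgroupOf N_(W)).Normal, Nonempty (N_(W) ⧸ R.subgroupOf N_(W) ≃*
        Matrix.SpecialLinearGroup (Fin 3) (ZMod 2) × alternatingGroup (Fin 6)) := by
  have h := s.hy p c'
  have m := s.md
  have l := m.lx
  have l' := lx_of p.h'
  have aQ := p.hs
  have mR : ∀ x ∈ Q, ν x ∈ m.push Q' ↔ x ∈ Q' := fun x i => m.mem_push p.hz i
  have mX : ∀ k, k ∈ ((Q' ⊓ C_[z]).subgroupOf C_[z]).map f ↔ ∃ x ∈ Q', x ∈ C_[z] ∧ π x = k := fun k =>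
    ⟨fun ⟨x, i, e⟩ => ⟨x, i.1, x.2, (s.pf x).symm.trans e⟩, fun ⟨x, i, j, e⟩ => ⟨⟨x, j⟩, ⟨i, j⟩, (s.pf _).trans e⟩⟩
  generalize ((Q' ⊓ C_[z]).subgroupOf C_[z]).map f = X at h mX
  obtain ⟨δ, δz, δd⟩ := s.sur d
  obtain ⟨b, hb⟩ : ∃ b, b = δ * a * δ⁻¹ := ⟨_, rfl⟩
  have bQ : b ∈ Q := hb ▸ l.cE δz aQ
  have νb : ν b = T d (ν a) := by rw [hb, ← s.act δ δz a aQ, δd]
  obtain ⟨W, hW⟩ : ∃ W, W = m.pull (NN (T d) (ν a)) := ⟨_, rfl⟩
  have mW : ∀ x, x ∈ W ↔ x ∈ Q ∧ ν x ∈ NN (T d) (ν a) := fun x => hW ▸ Iff.rfl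
  have WQ : W ≤ Q := fun x i => ((mW x).1 i).1
  have WQ' : W ≤ Q' := fun x i => (mR x (WQ i)).1 (h.NR ((mW x).1 i).2)
  have zW : z ∈ W := (mW z).2 ⟨l.aes.mem, m.zz ▸ zero_mem _⟩
  have aW : a ∈ W := (mW a).2 ⟨aQ, le_ex self_ex⟩
  have bW : b ∈ W := (mW b).2 ⟨bQ, νb ▸ self_ex⟩
  have cW : Nat.card W = 8 := by
    have c4 : Nat.card (NN (T d) (ν a)) ≤ 2 * Nat.card (ex ⊥ (ν a)) := card_ex_le
    have c2 := card_ex_le (U := ⊥) (v := ν a)
    have c5 := h.c4 h.a0 (U := NN (T d) (ν a)) (le_ex self_ex) self_ex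
    rw [AddSubgroup.card_bot] at c2
    rw [hW, m.card_pull]; omega
  have ab : W ≤ C_(W) := fun x i => mem_cent.2 fun y j =>
    (s.b y (WQ j) x (WQ i)).1 (h.iso _ (h.NR ((mW y).1 j).2) _ (h.NR ((mW x).1 i).2))
  have gen : ∀ K : Subgroup G, z ∈ K → a ∈ K → b ∈ K → W ≤ K := fun K i j k x o => by
    have t : ∀ y ∈ Q, y ∈ K → ν x = ν y → x ∈ K := fun y a b e => by
      rcases m.eq (WQ o) a e with rfl | rfl
      exacts [b, mul_mem i b]
    rcases mem_NN.1 ((mW x).1 o).2 with e | e | e | e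
    exacts [t 1 (one_mem _) (one_mem _) (e.trans m.one.symm), t a aQ j e, t b bQ k (e.trans νb.symm),
      t _ (mul_mem bQ aQ) (mul_mem k j) (by rw [m.mul _ bQ _ aQ, νb, e])]
  have mC : ∀ x, x ∈ C_[z] → x ∈ C_[a] → x ∈ C_[b] → x ∈ C_(W) := fun x i j k =>
    le_cent1_iff.1 (gen _ (mem_cent1_comm.1 i) (mem_cent1_comm.1 j) (mem_cent1_comm.1 k))
  have δW : δ ∈ N_(W) := mem_norm_of_cj_le (by
    rintro _ ⟨x, i, rfl⟩
    refine (mW _).2 ⟨l.cE δz (WQ i), ?_⟩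
    show ν (δ * x * δ⁻¹) ∈ _
    rw [← s.act δ δz x (WQ i), δd]
    exact (ex_le (ex_le bot_le (show T d _ ∈ NN _ _ from self_ex)) (show T d (T d _) ∈ NN _ _ from
      h.ω2 _ ▸ add_mem self_ex (le_ex self_ex)) : NN (T d) (ν a) ≤ (NN (T d) (ν a)).comap (T d)) ((mW x).1 i).2)
  have Cz : C_(W) ≤ C_[z] := cent_le_cent1 zW
  have CS : ∀ c ∈ C_(W), ∀ x ∈ W, T (π c) (ν x) = ν x := fun c i x j => by
    rw [s.act c (Cz i) x (WQ j), ← mem_cent.1 i x j, mul_inv_cancel_right]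
  have CM : ∀ c ∈ C_(W), π c ∈ M := fun c i => by
    by_contra n
    have := h.iv n (ν a)
    rw [← νb, CS c i b bW, CS c i a aW, ← νb] at this
    exact h.a0 (lc this)
  have lift : ∀ g ∈ M, T g (ν a) = ν a → ∃ k ∈ C_(W), π k = g := fun g i e => by
    obtain ⟨g, o, rfl⟩ := s.sur g
    obtain ⟨k, o, e, e'⟩ := s.adj o aQ aQ l'.zz h.a0 e
    rw [← e'] at i ⊢
    have a1 : ν (k * b * k⁻¹) = ν b := by rw [← s.act k o b bQ, νb, h.cω i, s.act k o a aQ, e]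
    rcases m.eq (l.cE o bQ) bQ a1 with j | j
    · exact ⟨k, mC k o (H03.mem_cent1c.2 e) (H03.mem_cent1c.2 j), rfl⟩
    obtain ⟨t, tQ, t1, t2⟩ := p.h.exists_conj (A := m.pull (ex ⊥ (ν a))) (fun _ i => i.1) ⟨l.aes.mem, m.zz ▸ zero_mem _⟩ bQ
      fun n => by
        rcases n.2 with n | n <;> rw [νb] at n
        exacts [h.nz d h.a0 n, h.hω (lc (show T d (ν a) + ν a = 0 from n))]
    refine ⟨t⁻¹ * k, mC _ (mul_mem (inv_mem (l.le tQ)) o) (mul_mem (inv_mem (cent_le_cent1 (show a ∈ m.pull (ex ⊥ (ν a)) from ⟨aQ, self_ex⟩) t1))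
      (H03.mem_cent1c.2 e)) (H03.mem_cent1c.2 ?_), by
        rw [s.mul _ (inv_mem (l.le tQ)) _ o, (s.ker _ (inv_mem (l.le tQ))).2 (inv_mem tQ), one_mul]⟩
    rw [show t⁻¹ * k * b * (t⁻¹ * k)⁻¹ = t⁻¹ * (k * b * k⁻¹) * t by group, j, ← mem_cent1.1 (l.le bQ), ← t2]; group
  obtain ⟨c16, φ, e1, e2, e3⟩ := h.orb2
  let ρ : C_(W) →* h.S (ν a) := (f.comp (inclusion Cz)).codRestrict _ fun c => by
    show T (f _) _ = _
    rw [s.pf]; exact CS c c.2 a aW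
  have eρ : ∀ c, (ρ c).1 = π c := fun c => s.pf _
  let φ0 : C_(W) →* alternatingGroup (Fin 6) := (φ.comp ρ).codRestrict _ fun c => e2.le ⟨_, rfl⟩
  have φs : Function.Surjective φ0 := fun σ => by
    obtain ⟨g, i, e⟩ := e3.ge σ.2
    obtain ⟨k, j, o⟩ := lift g i g.2
    exact ⟨⟨k, j⟩, Subtype.ext ((congrArg φ (Subtype.ext ((eρ _).trans o))).trans e)⟩
  obtain ⟨R, hR⟩ : ∃ R, R = φ0.ker.map C_(W).subtype := ⟨_, rfl⟩
  have mk : ∀ c : C_(W), φ0 c = 1 ↔ π c ∈ X := fun c => by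
    rw [Subtype.ext_iff, ← eρ]; exact (MonoidHom.mem_ker (f := φ) (x := ρ c)).symm.trans (by rw [e1]; rfl)
  have mR' : ∀ x, x ∈ R ↔ x ∈ C_(W) ∧ π x ∈ X := fun x => hR ▸
    ⟨by rintro ⟨y, k, rfl⟩; exact ⟨y.2, (mk y).1 k⟩, fun i => ⟨⟨x, i.1⟩, (mk _).2 i.2, rfl⟩⟩
  have RC : R ≤ C_(W) := fun x i => ((mR' x).1 i).1
  have QR : ∀ x ∈ Q, x ∈ C_(W) → x ∈ R := fun x i j => (mR' x).2 ⟨j, (s.ker x (l.le i)).2 i ▸ one_mem _⟩
  have cR : Nat.card R = 2 ^ 15 := by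
    have a1 := card_inf_mul_relIndex f.ker (R.subgroupOf C_[z])
    have a2 := l.perp WQ zW
    rw [relIndex_ker, show f.ker ⊓ R.subgroupOf C_[z] = (Q ⊓ C_(W)).subgroupOf C_[z] from Subgroup.ext fun x =>
      ⟨fun i => ⟨(s.ker _ x.2).1 ((s.pf x).symm.trans i.1), RC i.2⟩,
        fun i => ⟨(s.pf x).trans ((s.ker _ x.2).2 i.1), QR _ i.1 i.2⟩⟩,
      show (R.subgroupOf C_[z]).map f = M ⊓ X from le_antisymm (by
        rintro _ ⟨x, i, rfl⟩
        rw [s.pf]; exact ⟨CM _ (RC i), ((mR' _).1 i).2⟩) fun g i => by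
          obtain ⟨k, j, rfl⟩ := lift g i.1 (h.Xa g i.2)
          exact ⟨⟨k, Cz j⟩, (mR' k).2 ⟨j, i.2⟩, s.pf _⟩,
      Nat.card_congr (subgroupOfEquivOfLe (inf_le_left.trans l.le)).toEquiv,
      Nat.card_congr (subgroupOfEquivOfLe (RC.trans Cz)).toEquiv, c16] at a1
    rw [cW, s.card] at a2
    omega
  have := alternatingGroup.isSimpleGroup (α := Fin 6) (by simp)
  obtain ⟨LR, F, tr, eR, fin⟩ := eight (e := ![z, a, b]) cW ab (by simp [Fin.forall_fin_succ, zW, aW, bW])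
    (fun K i => gen K (i 0) (i 1) (i 2)) (by
      simp only [Fin.forall_fin_succ, IsEmpty.forall_iff, and_true]
      exact ⟨⟨Q, p.h, WQ⟩, ⟨Q', p.h', WQ'⟩, cj δ Q', hb ▸ p.h'.cj δ, cj_of_mem_norm δW ▸ cj_mono δ WQ'⟩)
    (fun k => by
      obtain ⟨n, e⟩ := IsPGroup.iff_card.1 k
      rw [nat_card_alternatingGroup] at e
      exact absurd (Nat.prime_three.dvd_of_dvd_pow (e ▸ by simp [Nat.factorial] : 3 ∣ 2 ^ n)) (by decide))
    (alternatingGroup.center_eq_bot (by simp)) φ0 φs hR (pg_of_card cR)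
  replace tr : ∀ w ∈ W, w ≠ 1 → ∃ l ∈ N_(W), l * z * l⁻¹ = w := tr
  have P : ∀ x ∈ Q, x ∈ C_(W) → ∀ y ∈ W, β (ν y) (ν x) = 0 := fun x i j y k => (s.b y (WQ k) x i).2 (mem_cent.1 j y k)
  have b1 : ∀ r ∈ R, ∀ x ∈ Q, x ∈ C_(W) → r * x * r⁻¹ * x⁻¹ ∈ W := fun r i x j k => by
    have o := l.cE (Cz (RC i)) j
    have i' := ((mR' r).1 i).2
    refine (mW _).2 ⟨mul_mem o (inv_mem j), ?_⟩
    rw [m.mul _ o _ (inv_mem j), m.inv j, ← s.act r (Cz (RC i)) x j, add_comm]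
    refine h.main.2.2.2 _ (h.Xp _ i' _ (P x j k a aW)) ?_
    rw [map_add, ← h.cω (CM r (RC i))]
    exact h.Xp _ i' _ (by rw [h.aω, h.ω2, ← νb, map_add, AddMonoidHom.add_apply, P x j k a aW, P x j k b bW, add_zero])
  have b2 : ∀ r ∈ R, ∀ x ∈ Q', x ∈ C_(W) → r * x * r⁻¹ * x⁻¹ ∈ W := fun r i x j k => by
    obtain ⟨t, o, e⟩ := tr a aW l'.z1
    rw [← p.link t e, mem_cj] at j
    have := le_norm_iff.1 le_rfl t o _ (b1 _ (le_norm_iff.1 LR _ (inv_mem o) r i) _ j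
      (by simpa using le_norm_iff.1 (norm_le_norm_cent W) _ (inv_mem o) x k))
    convert this using 1; group
  have dc : ∀ r ∈ R, ∃ x ∈ Q, x ∈ C_(W) ∧ ∃ y ∈ Q', y ∈ C_(W) ∧ r = x * y := fun r i => by
    obtain ⟨y, j, k, e⟩ := (mX _).1 ((mR' r).1 i).2
    have a1 : ν (y * b * y⁻¹) = ν b := by rw [← s.act y k b bQ, e, CS r (RC i) b bW]
    have yC := mC y k (l'.le j) (H03.mem_cent1c.2 ((m.eq (l.cE k bQ) bQ a1).elim id fun o =>
      (l'.cj2 j (WQ' bW)).elim id fun o' => absurd (mul_right_cancel (o'.symm.trans o)) p.ne))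
    exact ⟨r * y⁻¹, (s.ker _ (mul_mem (Cz (RC i)) (inv_mem k))).1 (by
      rw [s.mul _ (Cz (RC i)) _ (inv_mem k), s.inv y k, e, mul_inv_cancel]), mul_mem (RC i) (inv_mem yC), y, j, yC, by simp⟩
  have WR : W ≤ R := fun x i => QR x (WQ i) (ab i)
  have nW : ∀ x ∈ C_(W), ∀ w ∈ W, x * w * x⁻¹ ∈ W := le_norm_iff.1 (cent_le_norm W)
  have cm : ∀ r ∈ R, ∀ t ∈ R, ⁅r, t⁆ ∈ W := fun r i t j => by
    obtain ⟨x, a, a', y, b, b', rfl⟩ := dc t j
    have := mul_mem (b1 r i x a a') (nW x a' _ (b2 r i y b b'))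
    convert this using 1; rw [commutatorElement_def]; group
  have sq : ∀ r ∈ R, r ^ 2 ∈ W := fun r i => by
    obtain ⟨x, a, a', y, b, b', rfl⟩ := dc r i
    have := mul_mem (mul_mem (zpowers_le.2 zW (l.aes.pow x a)) (b2 _ (inv_mem (QR x a a')) y b b'))
      (zpowers_le.2 aW (l'.aes.pow y b))
    convert this using 1; simp only [pow_two]; group
  have zR : ∀ c ∈ R, c ∈ C_(R) → c ∈ W := fun c i j => by
    have k : ∀ w, (∀ x ∈ Q, x ∈ C_(W) → β w (ν x) = 0) → w ∈ NN (T d) (ν a) := fun w k => h.NP fun u u1 u2 => by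
      obtain ⟨x, o, rfl⟩ := m.sur u
      exact k x o (mC x (l.le o) (cc.2 ((s.b a aQ x o).1 u1).symm) (cc.2 ((s.b b bQ x o).1 (νb ▸ u2)).symm))
    obtain ⟨e0, he⟩ := not_forall.1 (mt (h.nd _) h.a0)
    have cQ := (s.ker c (Cz (RC i))).1 (h.Xe _ ((mR' c).1 i).2 e0 (z2' _ he) (h.NR (k _ fun x o o' =>
      (h.sym _ _).trans (h.fx (by rw [s.act c (Cz (RC i)) x o, ← mem_cent.1 j x (QR x o o'), mul_inv_cancel_right]) _))))
    exact (mW c).2 ⟨cQ, k _ fun x o o' => (s.b c cQ x o).2 (mem_cent.1 j x (QR x o o')).symm⟩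
  have eZ : center R = W.subgroupOf R := Subgroup.ext fun x => ⟨fun i => zR x x.2 (mem_cent.2 fun y j =>
    congrArg Subtype.val (mem_center_iff.1 i ⟨y, j⟩)), fun i => mem_center_iff.2 fun y => Subtype.ext (mem_cent.1 (RC y.2) x i).symm⟩
  have d1 : commutator R ≤ center R := eZ ▸ commutator_le.2 fun x _ y _ => cm x x.2 y y.2
  have d2 : center R ≤ commutator R := by
    obtain ⟨r, i, n⟩ := SetLike.not_le_iff_exists.1 fun k : R ≤ W => by have := card_le_of_le k; omega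
    obtain ⟨t, j, o⟩ : ∃ t ∈ R, ⁅r, t⁆ ≠ 1 := by
      by_contra! k
      exact n (zR r i (mem_cent.2 fun t j => (commutatorElement_eq_one_iff_commute.1 (k t j)).symm))
    obtain ⟨k, k1, k2⟩ := tr _ (cm r i t j) o
    intro x a
    have : x.1 ∈ ⁅R, R⁆ := by
      by_cases e : x.1 = 1
      · exact e ▸ one_mem _
      obtain ⟨y, y1, y2⟩ := tr x (eZ.le a) e
      have := le_norm_iff.1 (norm_der LR) _ (mul_mem y1 (inv_mem k1)) _ (commutator_mem_commutator i j)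
      rw [← k2] at this
      rw [← y2]; convert this using 1; group
    rw [← map_subtype_commutator] at this
    obtain ⟨y, a, e⟩ := this
    exact Subtype.ext e ▸ a
  refine ⟨W, ⟨⟨⟨fun x y => Subtype.ext (mem_cent.1 (ab y.2) x x.2)⟩⟩, fun x i => (l.sq (WQ i)).elim id fun e =>
    (l'.sq (WQ' i)).elim id fun e' => absurd (e'.symm.trans e) p.ne⟩, cW, zW, R, eR, ⟨pg_of_card cR, le_antisymm
      (H04.frattini_le (p := 2) _ d1 fun x => eZ.ge (sq x x.2)) (d2.trans (H04.commutator_le_frattini (pg_of_card cR))),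
      le_antisymm d1 d2⟩, cR, by rw [eZ, map_subgroupOf_eq_of_le WR], fin⟩

end H01.XF
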