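import Mathlib
import Cfsg.Agent.H01.XF6

/-!
# The module `Q/Z(Q)` for `2^{1+12}.3.U₄(3).2`, part 4 (namespace `H01.XF`)

`Hy.nosplit`: `R` does not split over `⟨a, ωa⟩` under a subgroup of order divisible by 45.
-/

set_option autoImplicit false
set_option linter.unusedSectionVars false
open H01.XT Subgroup BG

namespace H01.XF
universe u
variable {V : Type u} [AddCommGroup V] [Module (ZMod 2) V] [Finite V] {Γ : Type u} [Group Γ] [Finite Γ]
  {T : Γ → V →+ V} {d x y g : Γ} {M X B P : Subgroup Γ} {β : V →+ V →+ ZMod 2} {q : V → ZMod 2} {a u v w : V}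
  {R W : AddSubgroup V}

theorem Gm.fixc (h : Gm T d M β q) {p : ℕ} [Fact p.Prime] (hP : IsPGroup p P) (s : Set V) (i : ∀ g ∈ P, ∀ v ∈ s, T g v ∈ s) :
    Nat.card s ≡ Nat.card {v | v ∈ s ∧ ∀ g ∈ P, T g v = v} [MOD p] := by
  let _ : MulAction P s :=
    { smul := fun g v => ⟨T g v, i g g.2 v v.2⟩
      one_smul := fun v => Subtype.ext (h.one v)
      mul_smul := fun x y v => Subtype.ext (h.mul x y v) }
  refine (hP.card_modEq_card_fixedPoints s).trans (Eq.symm (congrArg (· % p) (Nat.card_congr ?_)))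
  exact ⟨fun v => ⟨⟨v, v.2.1⟩, fun g => Subtype.ext (v.2.2 g g.2)⟩,
    fun v => ⟨v.1, v.1.2, fun g j => congrArg Subtype.val (v.2 ⟨g, j⟩)⟩, fun _ => rfl, fun _ => rfl⟩

theorem Gm.free (h : Gm T d M β q) (s : Set V) (i : ∀ g ∈ P, ∀ v ∈ s, T g v ∈ s) (k : ∀ g ∈ P, ∀ v ∈ s, T g v = v → g = 1) :
    Nat.card P ∣ Nat.card s := by
  let _ : MulAction P s :=
    { smul := fun g v => ⟨T g v, i g g.2 v v.2⟩
      one_smul := fun v => Subtype.ext (h.one v)
      mul_smul := fun x y v => Subtype.ext (h.mul x y v) }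
  rw [Nat.card_congr (MulAction.selfEquivOrbitsQuotientProd (G := P) (X := s) fun v => eq_bot_iff.2 fun g j =>
    Subtype.ext (k g g.2 v v.2 (congrArg Subtype.val j))), Nat.card_prod]
  exact dvd_mul_left _ _

theorem Gm.od (h : Gm T d M β q) (c : Nat.Coprime 2 (Nat.card P)) (i : g ∈ P) (e : T g (v + T g v) = v + T g v) : T g v = v := by
  have : g ^ 2 ∈ h.S v := by
    show T _ v = v
    rw [map_add] at e
    rw [pow_two, h.mul]; exact lc e
  exact zpowers_le.2 this (mem_zpowers_pow_iff.2 (c.coprime_dvd_right (P.orderOf_dvd_natCard i)))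

def Gm.F (_ : Gm T d M β q) (P : Subgroup Γ) : AddSubgroup V where
  carrier := {v | ∀ g ∈ P, T g v = v}
  zero_mem' := fun _ _ => map_zero _
  add_mem' := fun i j g k => by rw [map_add, i g k, j g k]
  neg_mem' := fun i g k => by rw [map_neg, i g k]

theorem Hy.c16 (h : Hy T d M X β q a R) (l : P ≤ M) (Pa : ∀ g ∈ P, T g a = a) {p : ℕ} [Fact p.Prime] (hP : IsPGroup p P)
    (c : Nat.Coprime 2 (Nat.card P)) (n : P ≠ ⊥) (m : ¬ R ⊓ h.F P ≤ NN (T d) a) (o : p = 3 ∨ p = 5) :
    p = 3 ∧ Nat.card ↥(R ⊓ h.F P) = 16 := by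
  have cR := h.main.2.1
  have a1 : Nat.card R ≡ Nat.card ↥(R ⊓ h.F P) [MOD p] := h.fixc hP R fun g i => (h.st g (Pa g i)).2
  have a2 : Nat.card ↥(R ⊓ h.F P) ∣ 2 ^ 6 := (AddSubgroup.card_dvd_of_le inf_le_left).trans cR.dvd
  obtain ⟨v, i, j⟩ := SetLike.not_le_iff_exists.1 m
  have a3 := grow (le_inf h.NR (ex_le (ex_le bot_le (show a ∈ h.F P from Pa)) fun g i => by rw [h.cω (l i), Pa g i])) i j
  have a4 := h.c4 h.a0 (U := NN (T d) a) (le_ex self_ex) self_ex
  have a5 : Nat.card ↥(R ⊓ h.F P) ≠ 64 := fun e => n (eq_bot_iff.2 fun g i => h.fai g fun v => by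
    have k : R ≤ h.F P := (AddSubgroup.eq_of_le_of_card_ge inf_le_left (by omega)).ge.trans inf_le_right
    exact h.od c i (k (h.perp h.iso (by omega) fun r j => (h.sym _ _).trans (h.fx (k j g i) v)) g i))
  obtain ⟨k, hk, e⟩ := (Nat.dvd_prime_pow Nat.prime_two).1 a2
  rw [cR] at a1
  unfold Nat.ModEq at a1
  rcases o with rfl | rfl <;> interval_cases k <;> omega

theorem Hy.nosplit (h : Hy T d M X β q a R) (BM : B ≤ M) (Ba : ∀ g ∈ B, T g a = a) (cB : 45 ∣ Nat.card B) (l : W ≤ R)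
    (BW : ∀ g ∈ B, ∀ w ∈ W, T g w ∈ W) (sp : ∀ r ∈ R, ∃ w ∈ W, r + w ∈ NN (T d) a)
    (dj : ∀ w ∈ W, w ∈ NN (T d) a → w = 0) : False := by
  have : Fact (Nat.Prime 5) := ⟨by norm_num⟩
  have : Fact (Nat.Prime 3) := ⟨by norm_num⟩
  have cR := h.main.2.1
  have EN : ∀ v, (∀ w ∈ W, β v w = 0 ∧ β (T d v) w = 0) → β a v = 0 → β (T d a) v = 0 → v ∈ NN (T d) a := fun v k i j => by
    have t : ∀ u, (∀ w ∈ W, β u w = 0) → β u a = 0 → β u (T d a) = 0 → u ∈ R := fun u k i j =>
      h.perp h.iso (by omega) fun r m => by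
        obtain ⟨w, o, m⟩ := sp r m
        have : β u (r + w) = 0 := (ex_le (ex_le bot_le i) j : NN (T d) a ≤ (β u).ker) m
        rwa [map_add, k w o, add_zero] at this
    refine h.main.2.2.2 v (t v (fun w o => (k w o).1) (h.sym _ _ ▸ i) (h.sym _ _ ▸ j)) (t _ (fun w o => (k w o).2) ?_ ?_)
    · rw [h.sym, h.aω, h.ω2, map_add, AddMonoidHom.add_apply, i, j, add_zero]
    · rw [h.βT, h.sym, i]
  have avg : ∀ P ≤ B, Nat.Coprime 2 (Nat.card P) → R ⊓ h.F P ≤ NN (T d) a → ∀ v ∈ h.F P, ∀ w ∈ W,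
      β v w = 0 ∧ β (T d v) w = 0 := fun P lP c k => by
    have := Fintype.ofFinite P
    have t : ∀ v ∈ h.F P, ∀ w ∈ W, β v w = 0 := fun v i w j => by
      have m : ∑ g : P, T g w ∈ W := sum_mem fun g _ => BW g (lP g.2) w j
      have e := congrArg (β v) (dj _ m (k ⟨l m, fun x o => by
        rw [map_sum]
        exact (Finset.sum_congr rfl fun g _ => (h.mul _ _ _).symm).trans
          (Equiv.sum_comp (Equiv.mulLeft (⟨x, o⟩ : P)) fun g : P => T g w)⟩))
      rw [map_sum, map_zero, Finset.sum_congr rfl (g := fun _ => β v w) fun g _ => by rw [← h.βT g v w, i g g.2],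
        Finset.sum_const, Finset.card_univ, ← Nat.card_eq_fintype_card, nsmul_eq_mul,
        (ZMod.natCast_eq_one_iff_odd).2 (Nat.coprime_two_left.1 c), one_mul] at e
      exact e
    exact fun v i w j => ⟨t v i w j, t _ (fun g o => by rw [h.cω (BM (lP o)), i g o]) w j⟩
  have ex : ∀ p n, p.Prime → p ^ n ∣ 45 → ∃ P ≤ B, Nat.card P = p ^ n := fun p n hp k => by
    have := Fact.mk hp
    obtain ⟨P, c⟩ := Sylow.exists_subgroup_card_pow_prime (G := B) p (k.trans cB)
    exact ⟨P.map B.subtype, map_subtype_le _, (card_map_of_injective (subtype_injective _)).trans c⟩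
  obtain ⟨P, lP, cP⟩ := ex 5 1 (by norm_num) (by norm_num)
  obtain ⟨U, lU, cU⟩ := ex 3 2 (by norm_num) (by norm_num)
  have pP : IsPGroup 5 P := IsPGroup.of_card cP
  have pU : IsPGroup 3 U := IsPGroup.of_card cU
  have oP : Nat.Coprime 2 (Nat.card P) := by rw [cP]; norm_num
  have oU : Nat.Coprime 2 (Nat.card U) := by rw [cU]; norm_num
  have fP : R ⊓ h.F P ≤ NN (T d) a := by
    by_contra m
    have := (h.c16 (lP.trans BM) (fun g i => Ba g (lP i)) pP oP (fun e => by simp [e] at cP) m (.inr rfl)).1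
    omega
  have fU : R ⊓ h.F U ≤ NN (T d) a := by
    by_contra m
    have c := (h.c16 (lU.trans BM) (fun g i => Ba g (lU i)) pU oU (fun e => by simp [e] at cU) m (.inl rfl)).2
    have := h.free (P := U) ((R : Set V) \ (R ⊓ h.F U : AddSubgroup V)) (fun g i v j =>
      ⟨(h.st g (Ba g (lU i))).2 v j.1, fun o => j.2 ⟨j.1, fun x k => h.inj g (by
        rw [← o.2 _ (mul_mem (mul_mem i k) (inv_mem i)), h.mul, h.mul, h.li])⟩⟩) fun g i v j e => by
      by_contra n
      have z := zpowers_le.2 i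
      have b : R ⊓ h.F U ≤ R ⊓ h.F (zpowers g) := inf_le_inf_left _ fun v o x k => o x (z k)
      have c' := (h.c16 ((z.trans lU).trans BM) (fun g i => Ba g (lU (z i))) (pU.to_le z)
        (oU.coprime_dvd_right (card_dvd_of_le z)) (mt zpowers_eq_bot.1 n) (fun k => m (b.trans k)) (.inl rfl)).2
      exact j.2 ((AddSubgroup.eq_of_le_of_card_ge b (by omega)).ge ⟨j.1, (zpowers_le (H := h.S v)).2 e⟩)
    rw [cU, Nat.card_coe_set_eq, Set.ncard_sdiff (fun _ i => i.1), ← Nat.card_coe_set_eq, ← Nat.card_coe_set_eq] at this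
    simp only [SetLike.coe_sort_coe, cR, c] at this
    omega
  have s : {w | ∃ g, T g a = w} ⊆ {v | v ≠ 0 ∧ q v = 0} := by
    rintro _ ⟨g, rfl⟩; exact ⟨h.nz g h.a0, (h.qT g a).trans h.qa⟩
  have c := Set.ncard_sdiff s
  rw [h.n0 h.ω3 (h.qT d) h.hf, ← h.idx, h.orb.1] at c
  have c1 := h.fixc pP ({v | v ≠ 0 ∧ q v = 0} \ {w | ∃ g, T g a = w}) fun g _ v i =>
    ⟨⟨h.nz g i.1.1, (h.qT g v).trans i.1.2⟩, fun ⟨k, e⟩ => i.2 ⟨g⁻¹ * k, by rw [h.mul, e, h.li]⟩⟩
  rw [Nat.card_coe_set_eq, c, Nat.card_coe_set_eq] at c1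
  obtain ⟨t, ⟨⟨t0, qt⟩, ta⟩, tP⟩ := Set.nonempty_of_ncard_ne_zero fun e => by rw [e] at c1; exact absurd c1 (by decide)
  have tE := avg P lP oP fP t tP
  have tU : U ≤ h.S t := fun g i => by
    have j := lU i
    have e : T g (T d a) = T d a := by rw [h.cω (BM j), Ba g j]
    have k : ∀ u w, β (T g u) w = β u (T g⁻¹ w) := fun u w => by rw [← h.βT g u, h.ri]
    exact h.od oU i ((ex_le (ex_le bot_le (Ba g j)) e : NN (T d) a ≤ (T g).eqLocus (AddMonoidHom.id V))
      (EN _ (fun w o => by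
        have := tE _ (BW _ (inv_mem j) w o)
        simp only [map_add, AddMonoidHom.add_apply, ← h.cω (BM j), k, this, tE w o, add_zero, and_self])
        (h.fx (Ba g j) t) (h.fx e t)))
  have cL : Nat.card ↥(M ⊓ h.S t) = 25920 := by
    rw [← (h.cards t0 qt ta).2, ← inf_subgroupOf_right, Nat.card_congr (subgroupOfEquivOfLe inf_le_right).toEquiv]
  have lL : U ≤ M ⊓ h.S t := le_inf (lU.trans BM) tU
  obtain ⟨K, cK, lK⟩ := Sylow.exists_subgroup_card_pow_succ (G := ↥(M ⊓ h.S t)) (p := 3) (n := 2) (by rw [cL]; norm_num)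
    (H := U.subgroupOf _) ((Nat.card_congr (subgroupOfEquivOfLe lL).toEquiv).trans cU)
  have nK : ((U.subgroupOf (M ⊓ h.S t)).subgroupOf K).Normal := normal_of_index_eq_minFac_card (by
    have := ((U.subgroupOf (M ⊓ h.S t)).subgroupOf K).card_mul_index
    rw [Nat.card_congr (subgroupOfEquivOfLe lK).toEquiv, Nat.card_congr (subgroupOfEquivOfLe lL).toEquiv, cU, cK] at this
    rw [cK]; norm_num at this ⊢; omega)
  have cK' : Nat.card (K.map (M ⊓ h.S t).subtype) = 27 := (card_map_of_injective (subtype_injective _)).trans cK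
  have tt : β t (T d t) = 0 := by
    have := h.pol (T d t) t
    rw [← h.ω2, h.qT, h.qT, qt, h.sym] at this; exact lc this
  have na : ¬ (β a t = 0 ∧ β (T d a) t = 0) := fun k => by
    rcases mem_NN.1 (EN t tE k.1 k.2) with e | e | e | e
    exacts [t0 e, ta ⟨1, by rw [h.one, e]⟩, ta ⟨d, e.symm⟩, ta ⟨d * d, by rw [h.mul, h.ω2, e]⟩]
  have fin : K.map (M ⊓ h.S t).subtype ≤ h.S a := by
    rintro _ ⟨⟨y, yM, yt⟩, i, rfl⟩
    replace yt : T y t = t := yt
    have yt' : T y (T d t) = T d t := by rw [h.cω yM, yt]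
    refine h.od (P := K.map (M ⊓ h.S t).subtype) (by rw [cK']; norm_num) ⟨_, i, rfl⟩ ?_
    show T y (a + T y a) = a + T y a
    have cE := avg U lU oU fU (a + T y a) (add_mem (fun g j => Ba g (lU j)) fun g j => by
      have m : y⁻¹ * g * y⁻¹⁻¹ ∈ U := nK.conj_mem ⟨⟨g, lL j⟩, lK j⟩ j ⟨⟨y, yM, yt⟩, i⟩⁻¹
      have := Ba _ (lU m)
      rw [inv_inv, h.mul, h.mul] at this
      rw [← h.ri y (T g (T y a)), this])
    have b1 := h.fx yt a
    have b2 := h.fx yt' a
    generalize a + T y a = c at cE b1 b2 ⊢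
    have e1 : β a (T d t) = β (T d a) t + β a t := by rw [h.aω, h.ω2, map_add, AddMonoidHom.add_apply]
    have e2 : β (T d a) (T d t) = β a t := h.βT _ _ _
    have key : ∀ n ∈ NN (T d) t, β a (c + n) = 0 → β (T d a) (c + n) = 0 → T y c = c := fun n m i j => by
      have n1 : ∀ w ∈ W, β n w = 0 ∧ β (T d n) w = 0 := fun w o => by
        rcases mem_NN.1 m with e | e | e | e <;>
        simp only [e, map_add, map_zero, AddMonoidHom.add_apply, AddMonoidHom.zero_apply, h.ω2, tE w o, add_zero, and_self]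
      have n2 : β t (c + n) = 0 ∧ β (T d t) (c + n) = 0 := by
        rcases mem_NN.1 m with e | e | e | e <;>
        simp only [e, map_add, b1, b2, h.alt, tt, h.sym (T d t) t, add_zero, and_self]
      have n3 : c + n = 0 := by
        rcases mem_NN.1 (EN (c + n) (fun w o => by
          simp only [map_add, AddMonoidHom.add_apply, cE w o, n1 w o, add_zero, and_self]) i j) with e | e | e | e
        · exact e
        all_goals
          rw [e] at n2
          simp only [map_add, h.sym t a, h.sym t (T d a), h.sym (T d t) a, h.sym (T d t) (T d a), e1, e2] at n2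
          exfalso; revert na n2; generalize β a t = x, β (T d a) t = z; revert x z; decide
      rw [show c = n from lc n3]
      exact (ex_le (ex_le bot_le yt) yt' : NN (T d) t ≤ (T y).eqLocus (AddMonoidHom.id V)) m
    by_contra n
    have k0 := mt (fun k : _ ∧ _ => key 0 (zero_mem _) k.1 k.2) n
    have k1 := mt (fun k : _ ∧ _ => key t (le_ex self_ex) k.1 k.2) n
    have k2 := mt (fun k : _ ∧ _ => key _ self_ex k.1 k.2) n
    have k3 := mt (fun k : _ ∧ _ => key _ (add_mem self_ex (le_ex self_ex)) k.1 k.2) n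
    simp only [map_add, map_zero, e1, e2] at k0 k1 k2 k3
    revert na k0 k1 k2 k3
    generalize β a t = x, β (T d a) t = z, β a c = r, β (T d a) c = s
    rcases z2 x with rfl | rfl <;> rcases z2 z with rfl | rfl <;> rcases z2 r with rfl | rfl <;> rcases z2 s with rfl | rfl <;>
    decide
  have a1 := (h.S a).card_mul_index
  have a2 := card_dvd_of_le fin
  replace a1 : Nat.card (h.S a) * 1701 = 19595520 := by rw [← h.orb.1, a1, h.cΓ]
  rw [cK'] at a2
  omega

end H01.XF
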