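import Mathlib
import Cfsg.Agent.H01.XF4
import Cfsg.Agent.H01.XG1

/-!
# Groups of large Fischer type: `z` is a product of commutators in `C(z) ∩ C(δ)` (namespace `H01.XF`)

`Hy.cube`, `Br.zc`.
-/

set_option autoImplicit false
set_option linter.unusedSectionVars false
open Cfsg BG Subgroup H01.XS Equiv
open H01.XT hiding Hy QS
open scoped commutatorElement

namespace H01.XF
universe u
variable {G : Type u} [Group G] [Finite G] {a z : G} {Q Q' : Subgroup G}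
  {V : Type u} [AddCommGroup V] [Module (ZMod 2) V] [Finite V] {Γ : Type u} [Group Γ] [Finite Γ]
  {T : Γ → V →+ V} {d : Γ} {M : Subgroup Γ} {β : V →+ V →+ ZMod 2} {q : V → ZMod 2} {ν : G → V} {f : C_[z] →* Γ} {π : G → Γ}

theorem Hy.cube {X K : Subgroup Γ} {a : V} {R : AddSubgroup V} (h : Hy T d M X β q a R) (l : K ≤ M)
    (k : ∀ g ∈ M, ∀ x ∈ M, g * x * g⁻¹ * x⁻¹ ∈ K) : ∀ g ∈ M, g ^ 3 ∈ K := by
  refine (h.sm K l fun g i x j => by simpa using mul_mem (k g i x (l j)) j).resolve_left fun c => ?_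
  have d3 : ∀ x ∈ zpowers d, x ^ 3 = 1 := by
    rintro _ ⟨m, rfl⟩
    rw [← zpow_natCast, ← zpow_mul, mul_comm m, zpow_mul, zpow_natCast, pow_three d, h.d3, one_zpow]
  obtain ⟨x, hx, m, n⟩ := h.ex2 {1} (by simp)
  have x2 := h.X2 x hx
  have cx : ∀ g ∈ M, g * x * g⁻¹ = x := fun g i => by
    have a1 := c (k g i x m)
    have a2 : Commute (g * x * g⁻¹ * x⁻¹) x := by
      obtain ⟨j, e⟩ := a1
      exact e ▸ ((show Commute x d from h.Md x m).zpow_right j).symm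
    have a3 := a2.mul_pow 2
    rw [inv_mul_cancel_right, conj_pow, pow_two x, x2, mul_one, mul_one, mul_inv_cancel] at a3
    have a4 := d3 _ a1
    rw [pow_succ, ← a3, one_mul] at a4
    exact mul_inv_eq_one.1 a4
  rcases h.sm (zpowers x) (zpowers_le.2 m) (fun g i y ⟨j, e⟩ => ⟨j, by rw [← e, ← conj_zpow, cx g i]⟩) with o | o
  · have := d3 x (o (mem_zpowers x))
    rw [pow_three, x2, mul_one] at this
    exact n (by simp [this])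
  · obtain ⟨y, yM, y7, f⟩ := h.fp
    obtain ⟨j, e⟩ := o y yM
    have : y ^ 6 = 1 := by
      rw [show 6 = 3 * 2 from rfl, pow_mul, ← e, ← zpow_natCast, ← zpow_mul, mul_comm j, zpow_mul, zpow_natCast, pow_two, x2, one_zpow]
    rw [pow_succ, this, one_mul] at y7
    exact h.a0 ((f a).2 (by rw [y7, h.one]))

theorem Br.c45 (s : Br z Q f π ν T d M β q) {P : Subgroup G} (l : P ≤ C_[z]) :
    45 ∣ Nat.card P ↔ 45 ∣ Nat.card ((P.subgroupOf C_[z]).map f) := by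
  have a1 := card_inf_mul_relIndex f.ker (P.subgroupOf C_[z])
  have a2 := card_dvd_of_le (inf_le_left : f.ker ⊓ P.subgroupOf C_[z] ≤ _)
  rw [show f.ker = Q.subgroupOf C_[z] from Subgroup.ext fun x => by
    rw [MonoidHom.mem_ker, s.pf, s.ker _ x.2]; rfl] at a2
  rw [Nat.card_congr (subgroupOfEquivOfLe s.md.lx.le).toEquiv, s.card, ← show f.ker = Q.subgroupOf C_[z] from
    Subgroup.ext fun x => by rw [MonoidHom.mem_ker, s.pf, s.ker _ x.2]; rfl] at a2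
  rw [relIndex_ker, Nat.card_congr (subgroupOfEquivOfLe l).toEquiv] at a1
  rw [← a1]
  exact ⟨(Nat.Coprime.coprime_dvd_right a2 (by norm_num)).dvd_of_dvd_mul_left, fun k => k.mul_left _⟩

theorem Br.zc0 (s : Br z Q f π ν T d M β q) (p : H03.PP Q z Q' a) (c' : Nat.card Q' = 8192) {δ : G} (δz : δ ∈ C_[z])
    (δd : π δ = d) (o : δ ^ 3 = 1) (su : ∀ m ∈ M, ∃ x ∈ C_[z] ⊓ C_[δ], π x = m)
    (hc : δ * (δ * a * δ⁻¹) * δ⁻¹ = δ * a * δ⁻¹ * a) : z ∈ ⁅C_[z] ⊓ C_[δ], C_[z] ⊓ C_[δ]⁆ := by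
  by_contra zn
  have h := s.hy p c'
  have m := s.md
  have l := m.lx
  have l' := lx_of p.h'
  have aQ := p.hs
  have mR : ∀ x ∈ Q, ν x ∈ m.push Q' ↔ x ∈ Q' := fun x i => m.mem_push p.hz i
  generalize ((Q' ⊓ C_[z]).subgroupOf C_[z]).map f = X at h
  obtain ⟨b, hb⟩ : ∃ b, b = δ * a * δ⁻¹ := ⟨_, rfl⟩
  rw [← hb] at hc
  have bQ : b ∈ Q := hb ▸ l.cE δz aQ
  have νδ : ∀ x ∈ Q, ν (δ * x * δ⁻¹) = T d (ν x) := fun x i => by rw [← s.act δ δz x i, δd]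
  have νb : ν b = T d (ν a) := hb ▸ νδ a aQ
  obtain ⟨W, hW⟩ : ∃ W, W = m.pull (NN (T d) (ν a)) := ⟨_, rfl⟩
  have mW : ∀ x, x ∈ W ↔ x ∈ Q ∧ ν x ∈ NN (T d) (ν a) := fun x => hW ▸ Iff.rfl
  have WQ : W ≤ Q := fun x i => ((mW x).1 i).1
  have WQ' : W ≤ Q' := fun x i => (mR x (WQ i)).1 (h.NR ((mW x).1 i).2)
  have zW : z ∈ W := (mW z).2 ⟨l.aes.mem, m.zz ▸ zero_mem _⟩
  have aW : a ∈ W := (mW a).2 ⟨aQ, le_ex self_ex⟩
  have bW : b ∈ W := (mW b).2 ⟨bQ, νb ▸ self_ex⟩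
  have gen : ∀ K : Subgroup G, z ∈ K → a ∈ K → b ∈ K → W ≤ K := fun K i j k x o => by
    have t : ∀ y ∈ Q, y ∈ K → ν x = ν y → x ∈ K := fun y a b e => by
      rcases m.eq (WQ o) a e with rfl | rfl
      exacts [b, mul_mem i b]
    rcases mem_NN.1 ((mW x).1 o).2 with e | e | e | e
    exacts [t 1 (one_mem _) (one_mem _) (e.trans m.one.symm), t a aQ j e, t b bQ k (e.trans νb.symm),
      t _ (mul_mem bQ aQ) (mul_mem k j) (by rw [m.mul _ bQ _ aQ, νb, e])]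
  have mC : ∀ x, x ∈ C_[z] → x ∈ C_[a] → x ∈ C_[b] → x ∈ C_(W) := fun x i j k =>
    le_cent1_iff.1 (gen _ (mem_cent1_comm.1 i) (mem_cent1_comm.1 j) (mem_cent1_comm.1 k))
  have Nω : ∀ u, ∀ v ∈ NN (T d) u, T d v ∈ NN (T d) u := fun u =>
    (ex_le (ex_le bot_le (show T d _ ∈ NN _ _ from self_ex)) (show T d (T d _) ∈ NN _ _ from
      h.ω2 _ ▸ add_mem self_ex (le_ex self_ex)) : NN (T d) u ≤ (NN (T d) u).comap (T d))
  have δW : δ ∈ N_(W) := mem_norm_of_cj_le (by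
    rintro _ ⟨x, i, rfl⟩
    exact (mW _).2 ⟨l.cE δz (WQ i), (νδ x (WQ i)).symm ▸ Nω _ _ ((mW x).1 i).2⟩)
  have Cz : C_(W) ≤ C_[z] := cent_le_cent1 zW
  have CS : ∀ c ∈ C_(W), ∀ x ∈ W, T (π c) (ν x) = ν x := fun c i x j => by
    rw [s.act c (Cz i) x (WQ j), ← mem_cent.1 i x j, mul_inv_cancel_right]
  have CM : ∀ c ∈ C_(W), π c ∈ M := fun c i => by
    by_contra n
    have := h.iv n (ν a)
    rw [← νb, CS c i b bW, CS c i a aW, ← νb] at this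
    exact h.a0 (lc this)
  obtain ⟨C, hC⟩ : ∃ C, C = C_[z] ⊓ C_[δ] := ⟨_, rfl⟩
  rw [← hC] at su zn
  have C1 : C ≤ C_[z] := hC ▸ inf_le_left
  have C2 : ∀ x ∈ C, δ * x * δ⁻¹ = x := fun x i => by rw [← mem_cent1.1 (hC.le i).2, mul_inv_cancel_right]
  have C3 : ∀ x ∈ C, π x ∈ M := fun x i => by
    by_contra n
    have := h.iv n (ν a)
    rw [← h.mul, ← δd, ← s.mul x (C1 i) δ δz, mem_cent1.1 (hC.le i).2, s.mul δ δz x (C1 i), δd, h.mul] at this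
    exact h.nz _ h.a0 (lc this)
  have QC : ∀ x ∈ Q, x ∈ C → x = 1 ∨ x = z := fun x i j => (m.ker x i).1 (by
    have e := νδ x i
    have := h.hf (ν x)
    rw [C2 x j] at e
    rw [← e, ← e] at this; exact lc this)
  have CC : ⁅C, C⁆ ≤ C := commutator_le_self C
  have cu := h.cube (K := (⁅C, C⁆.subgroupOf C_[z]).map f) (by
    rintro _ ⟨x, i, rfl⟩; rw [s.pf]; exact C3 _ (CC i)) fun g i x j => by
      obtain ⟨g, i', rfl⟩ := su g i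
      obtain ⟨x, j', rfl⟩ := su x j
      exact ⟨⁅(⟨g, C1 i'⟩ : C_[z]), ⟨x, C1 j'⟩⁆, commutator_mem_commutator i' j', by
        rw [map_commutatorElement, s.pf, s.pf]; rfl⟩
  have ab : b ≠ a := fun e => h.hω (by rw [← νb, e])
  have lb : LX b (cj δ Q') := hb ▸ l'.cj δ
  have Wb : W ≤ cj δ Q' := cj_of_mem_norm δW ▸ cj_mono δ WQ'
  obtain ⟨U, hU⟩ : ∃ U, U = Q' ⊓ cj δ Q' := ⟨_, rfl⟩
  have U1 : U ≤ Q' := hU ▸ inf_le_left
  have U2 : U ≤ cj δ Q' := hU ▸ inf_le_right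
  have WU : W ≤ U := hU ▸ le_inf WQ' Wb
  have Uc : ∀ x ∈ U, ∀ y ∈ U, x * y = y * x := fun x i y j => (l'.cm (U1 i) (U1 j)).elim id fun e =>
    (lb.cm (U2 i) (U2 j)).elim id fun e' => absurd (mul_right_cancel (mul_right_cancel (e'.symm.trans e))) ab
  have Us : ∀ x ∈ U, x * x = 1 := fun x i => (pow_two x).symm.trans ((l'.sq (U1 i)).elim id fun e =>
    (lb.sq (U2 i)).elim id fun e' => absurd (e'.symm.trans e) ab)
  have UC : U ≤ C_(W) := fun x i => mem_cent.2 fun y j => Uc y (WU j) x i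
  obtain ⟨t, ht, t1, t2⟩ := p.trans (u := a) (v := z) (subset_closure (by simp)) (subset_closure (by simp)) l'.z1 l.z1 p.ne
  have tW : t ∈ N_(W) := sup_le (l.aes.le_norm WQ zW) (l'.aes.le_norm WQ' aW) ht
  have q1 := p.link t t1
  have q2 := p.link t⁻¹ (by rw [← t2]; group)
  have δ3 : δ * δ * δ = 1 := by rw [← o, pow_three']
  have Uδ : ∀ x ∈ U, δ * x * δ⁻¹ ∈ U := fun x i => by
    obtain ⟨r, rQ, e⟩ := p.h'.lx.exists_conj (WQ' bW) lb.zz fun k => (l'.aes.eq_or k).elim lb.z1 ab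
    have := p.h'.lx.cj_eq (a := r * δ) (b := δ * δ) (by
      rw [show r * δ * a * (r * δ)⁻¹ = r * (δ * a * δ⁻¹) * r⁻¹ by group, ← hb, e, ← hc, hb]; group)
    have j : x ∈ cj (r * δ) Q' := by
      rw [mem_cj, show (r * δ)⁻¹ * x * (r * δ) = δ⁻¹ * (r⁻¹ * x * r⁻¹⁻¹) * δ by group, ← mem_cj]
      rcases l'.cj2 (inv_mem rQ) (U1 i) with e | e <;> rw [e]
      exacts [U2 i, mul_mem (Wb aW) (U2 i)]
    rw [this, mem_cj, eq_inv_of_mul_eq_one_left δ3, inv_inv] at j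
    exact hU.ge ⟨j, mem_cj.2 (by simpa [mul_assoc] using U1 i)⟩
  have QU : ∀ x ∈ Q, x ∈ U → x ∈ W := fun x i j => (mW x).2 ⟨i, h.main.2.2.2 _ ((mR x i).2 (U1 j))
    (νδ x i ▸ (mR _ (l.cE δz i)).2 (U1 (Uδ x j)))⟩
  have spl : ∀ x ∈ U, ∃ y ∈ U ⊓ ⁅C, C⁆, x * y ∈ W := fun x i => by
    have i1 := Uδ x i
    have i2 := Uδ _ i1
    have j := mul_mem (mul_mem i i1) i2
    have jC : x * (δ * x * δ⁻¹) * (δ * (δ * x * δ⁻¹) * δ⁻¹) ∈ C := hC.ge ⟨Cz (UC j), mem_cent1_comm.1 (H03.mem_cent1c.2 (by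
      rw [show δ * (x * (δ * x * δ⁻¹) * (δ * (δ * x * δ⁻¹) * δ⁻¹)) * δ⁻¹ = δ * x * δ⁻¹ * (δ * (δ * x * δ⁻¹) * δ⁻¹) *
        (δ * δ * δ * x * (δ * δ * δ)⁻¹) by group, δ3,
        one_mul, inv_one, mul_one, Uc _ (mul_mem i1 i2) x i, mul_assoc x]))⟩
    have πδ : ∀ y ∈ U, π (δ * y * δ⁻¹) = π y := fun y k => by
      rw [s.mul _ (mul_mem δz (Cz (UC k))) _ (inv_mem δz), s.mul _ δz _ (Cz (UC k)), s.inv _ δz, δd,
        ← h.Md _ (CM y (UC k)), mul_inv_cancel_right]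
    have xW : x * (x * (δ * x * δ⁻¹) * (δ * (δ * x * δ⁻¹) * δ⁻¹)) ∈ W := by
      refine QU _ ((s.ker _ (Cz (UC (mul_mem i j)))).1 ?_) (mul_mem i j)
      rw [← mul_assoc x, ← mul_assoc x, Us x i, one_mul, s.mul _ (Cz (UC i1)) _ (Cz (UC i2)), πδ _ i1, ← s.mul _ (Cz (UC i1)) _ (Cz (UC i1)),
        Us _ i1, s.ker _ (one_mem _)]
      exact one_mem _
    generalize x * (δ * x * δ⁻¹) * (δ * (δ * x * δ⁻¹) * δ⁻¹) = n at j jC xW
    obtain ⟨c, k, e⟩ := cu _ (C3 n jC)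
    rw [s.pf, pow_three, ← s.mul _ (C1 jC) _ (C1 jC), Us n j, (s.ker _ (one_mem _)).2 (one_mem _), mul_one] at e
    rcases QC (c * n⁻¹) ((s.ker _ (mul_mem c.2 (inv_mem (C1 jC)))).1 (by
      rw [s.mul _ c.2 _ (inv_mem (C1 jC)), s.inv _ (C1 jC), e, mul_inv_cancel])) (mul_mem (CC k) (inv_mem jC)) with e | e
    · exact ⟨n, ⟨j, mul_inv_eq_one.1 e ▸ k⟩, xW⟩
    · refine ⟨z * n, ⟨mul_mem (WU zW) j, mul_inv_eq_iff_eq_mul.1 e ▸ k⟩, ?_⟩
      rw [Uc z (WU zW) n j, ← mul_assoc]; exact mul_mem xW zW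
  have b1 : t * δ * t * z * (t * δ * t)⁻¹ = t * b * t⁻¹ := by rw [hb, ← t1]; group
  have b1W : t * b * t⁻¹ ∈ W := le_norm_iff.1 le_rfl t tW b bW
  have h1 := s.pt (t * δ * t) (b1 ▸ WQ b1W) (by
    rw [b1, ← t2]; exact fun e => ab (mul_left_cancel (mul_right_cancel e)))
  have mU : ∀ x, x ∈ cj t U ↔ x ∈ Q ∧ x ∈ cj (t * δ * t) Q := fun x => by
    rw [hU, mem_cj, mem_inf, mem_cj]
    refine and_congr (by rw [← q2, mem_cj]; simp [mul_assoc]) (by rw [← q1, mem_cj, mem_cj]; simp [mul_assoc])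
  rw [b1] at h1
  have eN : NN (T d) (ν (t * b * t⁻¹)) = NN (T d) (ν a) := by
    have i := ((mW _).1 b1W).2
    have n := h1.a0
    generalize ν (t * b * t⁻¹) = v at i n
    have j : ν a ∈ NN (T d) v := mem_NN.2 (by
      rcases mem_NN.1 i with e | e | e | e <;> rw [e]
      exacts [absurd e n, .inr (.inl rfl), .inr (.inr (.inr (by rw [h.ω2]; exact lc0))),
        .inr (.inr (.inl (by rw [map_add, h.ω2]; exact lc0)))])
    exact le_antisymm (ex_le (ex_le bot_le i) (Nω _ _ i)) (ex_le (ex_le bot_le j) (Nω _ _ j))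
  have tC : cj t (C ⊓ C_(W)) ≤ C_(W) := by
    rintro _ ⟨x, i, rfl⟩; exact le_norm_iff.1 le_rfl t (norm_le_norm_cent W tW) x i.2
  refine h1.nosplit (B := ((cj t (C ⊓ C_(W))).subgroupOf C_[z]).map f) (W := m.push (cj t (U ⊓ ⁅C, C⁆))) ?_ ?_ ?_ ?_ ?_ ?_ ?_
  · rintro _ ⟨x, i, rfl⟩; rw [s.pf]; exact CM _ (tC i)
  · rintro _ ⟨x, i, rfl⟩; rw [s.pf]; exact CS _ (tC i) _ b1W
  · rw [← s.c45 (tC.trans Cz), card_cj, s.c45 (inf_le_left.trans C1)]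
    refine dvd_trans ?_ (card_dvd_of_le (show M ⊓ h.S (ν a) ≤ _ from fun g i => ?_))
    · have := normal_of_index_eq_two h.Mi
      have a1 : Nat.card (h.S (ν a)) * 1701 = 19595520 := by rw [← h.orb.1, (h.S (ν a)).card_mul_index, h.cΓ]
      have a2 := card_inf_mul_relIndex M (h.S (ν a))
      rcases (Nat.dvd_prime Nat.prime_two).1 (h.Mi ▸ relIndex_dvd_index_of_normal M (h.S (ν a))) with e | e <;>
      rw [e] at a2 <;> omega
    · obtain ⟨x, j, rfl⟩ := su g i.1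
      have e : x * a * x⁻¹ = a := (m.eq (l.cE (C1 j) aQ) aQ ((s.act x (C1 j) a aQ).symm.trans i.2)).elim id fun e => by
        have k : ∀ y, x * (δ * y * δ⁻¹) * x⁻¹ = δ * (x * y * x⁻¹) * δ⁻¹ := fun y => by
          rw [show x * (δ * y * δ⁻¹) * x⁻¹ = x * δ * y * (x * δ)⁻¹ by group, mem_cent1.1 (hC.le j).2]; group
        have k' : ∀ y, δ * (z * y) * δ⁻¹ = z * (δ * y * δ⁻¹) := fun y => by rw [← mul_assoc, mem_cent1.1 δz]; group
        have e1 := k a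
        rw [e, k', ← hb] at e1
        have e2 := k b
        rw [e1, k', hc, ← conj_mul, e, e1, mul_assoc, mul_left_cancel_iff, ← mul_assoc, mul_right_cancel_iff] at e2
        exact absurd (by simpa using e2) l.z1
      refine ⟨⟨x, C1 j⟩, ⟨j, mC x (C1 j) (H03.mem_cent1c.2 e) (H03.mem_cent1c.2 ?_)⟩, s.pf _⟩
      rw [hb, ← C2 x j, conj_inv, conj_mul, conj_mul, e]
  · rintro _ ⟨x, i, j, rfl⟩; exact ⟨x, i, ((mU x).1 (cj_mono t inf_le_left j)).2, rfl⟩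
  · rintro _ ⟨x, ⟨y, i, e⟩, rfl⟩ _ ⟨_, j, ⟨w, k, rfl⟩, rfl⟩
    rw [s.pf, s.act x x.2 _ j]
    refine ⟨_, l.cE x.2 j, ⟨y * w * y⁻¹, ⟨?_, ?_⟩, ?_⟩, rfl⟩
    · exact hU.ge ⟨l'.cE (cent_le_cent1 aW i.2) (U1 k.1), lb.cE (cent_le_cent1 bW i.2) (U2 k.1)⟩
    · exact le_norm_iff.1 (norm_der le_normalizer) y i.1 w k.2
    · rw [← show t * y * t⁻¹ = x from e]
      show t * _ * t⁻¹ = _ * (t * w * t⁻¹) * _
      group
  · rintro _ ⟨x, i, j, rfl⟩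
    obtain ⟨x, k, rfl⟩ := (mU x).2 ⟨i, j⟩
    obtain ⟨y, j, e⟩ := spl x k
    have yQ := ((mU _).1 ⟨y, j.1, rfl⟩).1
    refine ⟨_, ⟨_, yQ, ⟨y, j, rfl⟩, rfl⟩, ?_⟩
    rw [eN, ← m.mul _ i _ yQ, ← map_mul]
    exact ((mW _).1 (le_norm_iff.1 le_rfl t tW _ e)).2
  · rintro _ ⟨_, i, ⟨x, j, rfl⟩, rfl⟩ k
    rw [eN] at k
    have := le_norm_iff.1 le_rfl _ (inv_mem tW) _ ((mW _).2 ⟨i, k⟩)
    rcases QC x (WQ (by simpa [mul_assoc] using this)) (CC j.2) with rfl | rfl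
    · rw [map_one, m.one]
    · exact absurd j.2 zn

theorem Br.zc (s : Br z Q f π ν T d M β q) (p : H03.PP Q z Q' a) (c' : Nat.card Q' = 8192) {δ : G} (i : δ ∈ C_[z])
    (e : π δ = d) (o : δ ^ 3 = 1) (su : ∀ m ∈ M, ∃ x ∈ C_[z] ⊓ C_[δ], π x = m) :
    z ∈ ⁅C_[z] ⊓ C_[δ], C_[z] ⊓ C_[δ]⁆ := by
  have l := s.md.lx
  have aQ := p.hs
  have bQ := l.cE i aQ
  have νδ : ∀ x ∈ Q, ν (δ * x * δ⁻¹) = T d (ν x) := fun x j => by rw [← s.act δ i x j, e]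
  rcases s.md.eq (l.cE i bQ) (mul_mem bQ aQ) (by
    rw [νδ _ bQ, s.md.mul _ bQ _ aQ, νδ _ aQ, (s.hy p c').ω2]) with k | k
  · exact s.zc0 p c' i e o su k
  have m : z * a ∈ closure ({z, a} : Set G) := mul_mem (subset_closure (by simp)) (subset_closure (by simp))
  obtain ⟨x, -, ex⟩ := p.trans1 m fun n => p.ne (by rw [← mul_one z, ← n, ← mul_assoc, l.zz, one_mul])
  refine s.zc0 (p.h.pp (g := x) (ex ▸ p.V_le m) (by rw [ex]; simpa using (lx_of p.h').z1) (by rw [s.card]; omega))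
    ((card_cj _ _).trans s.card) i e o su ?_
  have k' : ∀ y, δ * (z * y) * δ⁻¹ = z * (δ * y * δ⁻¹) := fun y => by rw [← mul_assoc, mem_cent1.1 i]; group
  rw [ex, k', k', k, mul_assoc z (δ * a * δ⁻¹), ← mul_assoc (δ * a * δ⁻¹), mem_cent1.1 (l.le bQ), mul_assoc z]

end H01.XF
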