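import Mathlib
import Cfsg.Agent.H01.XF9
import Cfsg.Agent.H01.XG2

/-!
# Groups of large Fischer type: interface for `J(T) ≅ 2¹¹` (namespace `H01.XF`)

`Pk`: the hexacode subspace `B = L + ωL` and its centralizer `Y ≅ 2⁴` in a Sylow 2-subgroup `S`.
-/

set_option autoImplicit false
open Subgroup

namespace H01.XF
universe u
variable {V : Type u} [AddCommGroup V] [Module (ZMod 2) V] [Finite V] {Γ : Type u} [Group Γ] [Finite Γ]

structure Pk (T : Γ → V →+ V) (d : Γ) (M : Subgroup Γ) (β : V →+ V →+ ZMod 2) (q : V → ZMod 2) (a : V) (R : AddSubgroup V)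
    (S : Subgroup Γ) (L B : AddSubgroup V) (Y : Subgroup Γ) : Prop where
  aL : a ∈ L
  LR : L ≤ R
  LB : L ≤ B
  cL : Nat.card L = 16
  cB : Nat.card B = 64
  qB : ∀ v ∈ B, q v = 0
  Bω : ∀ v ∈ B, T d v ∈ B
  mY : ∀ g, g ∈ Y ↔ ∀ v ∈ L, T g v = v
  YB : ∀ g ∈ Y, ∀ v ∈ B, T g v = v
  YS : Y ≤ S
  YM : Y ≤ M
  cY : Nat.card Y = 16
  Y2 : ∀ g ∈ Y, g * g = 1
  un : ∀ E ≤ S, (∀ g ∈ E, g * g = 1) → ∀ B' : AddSubgroup V, (∀ u ∈ B', ∀ v ∈ B', β u v = 0) →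
    (∀ g ∈ E, ∀ v ∈ B', T g v = v) → 1024 ≤ Nat.card E * Nat.card B' → B' = B
  ud : ∀ B' : AddSubgroup V, (∀ u ∈ B', ∀ v ∈ B', β u v = 0) → 64 ≤ Nat.card B' → L ≤ B' →
    (∀ g ∈ Y, ∀ v ∈ B', T g v = v ∨ T g v = v + a) → B' = B

/-- the module statement -/
def PkS : Prop := ∀ {V : Type u} [AddCommGroup V] [Module (ZMod 2) V] [Finite V] {Γ : Type u} [Group Γ] [Finite Γ]
  {T : Γ → V →+ V} {d : Γ} {M X : Subgroup Γ} {β : V →+ V →+ ZMod 2} {q : V → ZMod 2} {a : V} {R : AddSubgroup V}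
  (h : Hy T d M X β q a R) (S : Subgroup Γ), S ≤ h.S a → Nat.card S = 256 → ∃ L B Y, Pk T d M β q a R S L B Y

end H01.XF
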