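import Mathlib
import Cfsg.Agent.H01.XT1

/-!
# Every non-trivial element of `A₆` times a suitable conjugate has order 5 (namespace `H01.XF`)
-/

set_option autoImplicit false
open H01.XT Equiv

namespace H01.XF

theorem o5 : ∀ σ : P6, Perm.sign σ = 1 → σ ≠ 1 → ∃ k ∈ [1, sw 0 1 2 3, sw 0 2 1 4, sw 0 3 2 4, sw 0 4 1 3, sw 1 2 3 4],
    Perm.sign k = 1 ∧ (σ * (k * σ * k⁻¹)) ^ 5 = 1 ∧ (σ * (k * σ * k⁻¹)) ^ 2 ≠ 1 := by decide +kernel

end H01.XF
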