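import Mathlib
import Cfsg.Agent.H01.XH0
import Cfsg.Agent.H01.XHa

/-!
# The module `Q/Z(Q)` for `2^{1+12}.3.U₄(3).2`, part 5 (namespace `H01.XF`)

`QF.orth`, `Hy.ntv` (no transvections on `R/⟨a, ωa⟩`), `Hy.f3`, `Hy.dec`, `Gm.up`, `e4`.
-/

set_option autoImplicit false
set_option linter.unusedSectionVars false
open Cfsg H01.XS Subgroup BG Equiv
open H01.XT hiding Hy QS

namespace H01.XF
universe u
variable {V : Type u} [AddCommGroup V] [Module (ZMod 2) V] [Finite V] {Γ : Type u} [Group Γ] [Finite Γ]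
  {T : Γ → V →+ V} {d x y g : Γ} {M X Z S : Subgroup Γ} {β : V →+ V →+ ZMod 2} {q : V → ZMod 2} {a u v w : V}
  {R U W C P : AddSubgroup V}

def pp (β : V →+ V →+ ZMod 2) (W : AddSubgroup V) : AddSubgroup V where
  carrier := {u | ∀ v ∈ W, β u v = 0}
  zero_mem' := fun _ _ => by simp
  add_mem' := fun i j v k => by rw [map_add, AddMonoidHom.add_apply, i v k, j v k, add_zero]
  neg_mem' := fun i v k => by rw [map_neg, AddMonoidHom.neg_apply, i v k, neg_zero]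

theorem QF.orth (h : QF β q) (W : AddSubgroup V) : Nat.card (pp β W) * Nat.card W ≤ 4096 := by
  let B : LinearMap.BilinForm (ZMod 2) V := LinearMap.mk₂ (ZMod 2) (fun u v => β u v) (by simp)
    (fun c u v => ZMod.map_smul (β.flip v) c u) (by simp) fun c u v => ZMod.map_smul (β u) c v
  let S := AddSubgroup.toZModSubmodule 2 W
  let S' := AddSubgroup.toZModSubmodule 2 (pp β W)
  have l : S' ≤ B.orthogonal S := fun u hu v hv => (h.sym _ _).trans (hu v hv)
  have a := Submodule.finrank_mono l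
  rw [LinearMap.BilinForm.finrank_orthogonal (B := B)
    ⟨fun u m => h.nd u m, fun u m => h.nd u fun v => (h.sym _ _).trans (m v)⟩] at a
  have b := Module.natCard_eq_pow_finrank (K := ZMod 2) (V := V)
  have c : Nat.card W = _ := Module.natCard_eq_pow_finrank (K := ZMod 2) (V := S)
  have c' : Nat.card (pp β W) = _ := Module.natCard_eq_pow_finrank (K := ZMod 2) (V := S')
  have e := Submodule.finrank_le S
  rw [c, c', ← h.card, b, Nat.card_zmod, ← pow_add]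
  exact Nat.pow_le_pow_right two_pos (by omega)

theorem e4 {H : Subgroup P6} (l : H ≤ alternatingGroup _) (k : ∀ g ∈ H, g * g = 1) : Nat.card H ≤ 4 := by
  have p : IsPGroup 2 H := fun g => ⟨1, Subtype.ext ((pow_two _).trans (k g g.2))⟩
  obtain ⟨n, e⟩ := IsPGroup.iff_card.1 p
  have a1 := card_dvd_of_le l
  have cA : Nat.card (alternatingGroup (Fin 6)) = 360 := by rw [nat_card_alternatingGroup]; simp [Nat.factorial]
  rw [cA, e] at a1
  have n3 : n ≤ 3 := by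
    by_contra m
    exact absurd ((pow_dvd_pow 2 (by omega : 4 ≤ n)).trans a1) (by norm_num)
  by_contra m
  obtain rfl : n = 3 := by interval_cases n <;> omega
  have s : IsSylowIn 2 H (alternatingGroup _) := isSylowIn_mk Nat.prime_two l p (by
    have := card_inf_mul_relIndex H (alternatingGroup _)
    rw [inf_eq_left.2 l, cA, e] at this; omega)
  have c : (sw 0 1 1 2 * sw 2 3 4 5) ^ 2 ^ 2 = 1 ∧ sw 0 1 1 2 * sw 2 3 4 5 * (sw 0 1 1 2 * sw 2 3 4 5) ≠ 1 ∧
    Perm.sign (sw 0 1 1 2 * sw 2 3 4 5) = 1 := by decide +kernel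
  obtain ⟨g, -, o⟩ := sylow_Jsub Nat.prime_two s (X := zpowers _) (IsPGroup.of_card_dvd_pow (n := 2) (by
    rw [Nat.card_zpowers]; exact orderOf_dvd_of_pow_eq_one c.1)) (zpowers_le.2 c.2.2)
  have := k _ (o ⟨_, mem_zpowers _, rfl⟩)
  exact c.2.1 (conj_eq_one_iff.1 (conj_mul.symm.trans this))

theorem Gm.up (h : Gm T d M β q) (hS : IsPGroup 2 S) (iU : ∀ g ∈ S, ∀ v ∈ U, T g v ∈ U) (iW : ∀ g ∈ S, ∀ v ∈ W, T g v ∈ W)
    (n : ¬ W ≤ U) : ∃ w ∈ W, w ∉ U ∧ ∀ g ∈ S, w + T g w ∈ U := by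
  let m : S → V ⧸ U →+ V ⧸ U := fun g => QuotientAddGroup.map U U (T g) (iU g g.2)
  let W' := W.map (QuotientAddGroup.mk' U)
  let _ : MulAction S W' :=
    { smul := fun g v => ⟨m g v, by obtain ⟨_, w, i, rfl⟩ := v; exact ⟨_, iW g g.2 w i, rfl⟩⟩
      one_smul := by rintro ⟨_, w, i, rfl⟩; exact Subtype.ext (congrArg (QuotientAddGroup.mk' U) (h.one w))
      mul_smul := by rintro x y ⟨_, w, i, rfl⟩; exact Subtype.ext (congrArg (QuotientAddGroup.mk' U) (h.mul x y w)) }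
  obtain ⟨w, i, j⟩ := SetLike.not_le_iff_exists.1 n
  have c : 2 ∣ Nat.card W' := by
    have := addOrderOf_dvd_natCard (⟨_, w, i, rfl⟩ : W')
    rwa [addOrderOf_eq_prime (p := 2) (Subtype.ext (by
      show QuotientAddGroup.mk' U (2 • w) = 0
      rw [two_nsmul, show w + w = 0 from lc0, map_zero])) fun e => j ((QuotientAddGroup.eq_zero_iff w).1 (congrArg Subtype.val e))] at this
  obtain ⟨⟨_, v, k, rfl⟩, e, o⟩ := hS.exists_fixed_point_of_prime_dvd_card_of_fixed_point W' c (a := 0)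
    fun g => Subtype.ext (map_zero (m g))
  refine ⟨v, k, fun b => o (Subtype.ext ((QuotientAddGroup.eq_zero_iff v).2 b).symm), fun g b => ?_⟩
  have := QuotientAddGroup.eq.1 (congrArg Subtype.val (e ⟨g, b⟩)).symm
  rwa [show -v + T g v = v + T g v from lc0] at this

namespace Hy
variable (h : Hy T d M X β q a R)
include h

theorem Ng (i : T g a = a) : ∀ n ∈ NN (T d) a, T g n ∈ NN (T d) a :=
  (ex_le (ex_le bot_le (show T g a ∈ NN _ _ by rw [i]; exact le_ex self_ex)) (show T g (T d a) ∈ NN _ _ by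
    rcases h.gd g a with e | e <;> rw [e, i]
    exacts [self_ex, add_mem self_ex (le_ex self_ex)]) : NN (T d) a ≤ (NN (T d) a).comap (T g))

theorem Nf (m : g ∈ M) (i : T g a = a) : ∀ n ∈ NN (T d) a, T g n = n :=
  (ex_le (ex_le bot_le i) (show T g (T d a) = T d a by rw [h.cω m, i]) : NN (T d) a ≤ (T g).eqLocus (AddMonoidHom.id V))

theorem Nω : ∀ v ∈ NN (T d) a, T d v ∈ NN (T d) a :=
  (ex_le (ex_le bot_le (show T d _ ∈ NN _ _ from self_ex)) (show T d (T d _) ∈ NN _ _ from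
    h.ω2 _ ▸ add_mem self_ex (le_ex self_ex)) : NN (T d) a ≤ (NN (T d) a).comap (T d))

theorem cN : Nat.card (NN (T d) a) = 4 := by
  have c4 : Nat.card (NN (T d) a) ≤ 2 * Nat.card (ex ⊥ a) := card_ex_le
  have c2 := card_ex_le (U := ⊥) (v := a)
  have c5 := h.c4 h.a0 (U := NN (T d) a) (le_ex self_ex) self_ex
  rw [AddSubgroup.card_bot] at c2
  omega

theorem XN (i : x ∈ X) (j : v ∈ R) : v + T x v ∈ NN (T d) a := mem_NN.2 (by
  rcases h.XR x i v j with o | o <;> rw [o]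
  exacts [.inl lc0, .inr (.inl lc0)])

theorem ntv (i : T g a = a) (l : P ≤ R) (c : 32 ≤ Nat.card P) (k : ∀ r ∈ P, r + T g r ∈ NN (T d) a) : g ∈ X := by
  have : Fact (Nat.Prime 5) := ⟨by norm_num⟩
  obtain ⟨-, lX, φ, e1, e2⟩ := h.orb
  by_contra n
  obtain ⟨t, -, t1, t2, t3⟩ := o5 (φ ⟨g, i⟩) (e2.le ⟨_, rfl⟩) fun e => n (e1.le e)
  obtain ⟨t, rfl⟩ := e2.ge t1
  rw [← map_inv, ← map_mul, ← map_mul, ← map_mul, ← map_pow] at t2 t3
  have cR := h.main.2.1
  have tl : P.map (T t) ≤ R := by rintro _ ⟨r, j, rfl⟩; exact (h.st _ t.2).2 r (l j)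
  have a0 : Nat.card (P.map (T t)) = Nat.card P := AddSubgroup.card_map_of_injective fun _ _ => h.inj _
  have b : ∀ P ≤ R, 32 ≤ Nat.card P → P.relIndex R ≤ 2 := fun P l c => by
    have := (P.addSubgroupOf R).card_mul_index
    rw [Nat.card_congr (AddSubgroup.addSubgroupOfEquivOfLe l).toEquiv, cR] at this
    unfold AddSubgroup.relIndex; nlinarith
  have a1 := (AddSubgroup.relIndex_inf_le (H := P) (K := P.map (T t)) (L := R)).trans (Nat.mul_le_mul (b P l c) (b _ tl (by omega)))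
  have a2 := ((P ⊓ P.map (T t)).addSubgroupOf R).card_mul_index
  rw [Nat.card_congr (AddSubgroup.addSubgroupOfEquivOfLe (inf_le_left.trans l)).toEquiv, cR] at a2
  obtain ⟨v, j, m⟩ := SetLike.not_le_iff_exists.1 fun e : P ⊓ P.map (T t) ≤ NN (T d) a => by
    have := AddSubgroup.card_le_of_le e
    rw [h.cN] at this
    unfold AddSubgroup.relIndex at a1; nlinarith
  obtain ⟨y, hy⟩ : ∃ y : h.S a, y = ⟨g, i⟩ * (t * ⟨g, i⟩ * t⁻¹) := ⟨_, rfl⟩
  rw [← hy] at t2 t3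
  have y1 : v + T y v ∈ NN (T d) a := by
    obtain ⟨j, r, j', rfl⟩ := j
    have := add_mem (k _ j) (h.Ng i _ (h.Ng t.2 _ (k r j')))
    rw [hy]; push_cast
    rw [h.mul, h.mul, h.mul, h.li]
    simp only [map_add] at this
    convert this using 1; exact lc0
  have f5 : (y.1 ^ 2) ^ 5 = 1 := by rw [← pow_mul, mul_comm, pow_mul, pow_two]; exact h.X2 _ (e1.le t2)
  have f1 : y.1 ^ 2 ≠ 1 := fun e => t3 (by rw [show y ^ 2 = 1 from Subtype.ext e, map_one])
  have fM : y.1 ^ 2 ∈ M := sq_mem_of_index_two h.Mi _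
  have fa : T (y.1 ^ 2) a = a := pow_mem y.2 2
  have cf : Nat.card (zpowers (y.1 ^ 2)) = 5 := by rw [Nat.card_zpowers, orderOf_eq_prime f5 f1]
  have o : Nat.Coprime 2 (Nat.card (zpowers (y.1 ^ 2))) := by rw [cf]; norm_num
  have := (h.c16 (zpowers_le.2 fM) (zpowers_le (H := h.S a).2 fa) (IsPGroup.of_card (n := 1) cf) o (mt zpowers_eq_bot.1 f1)
    (fun e => m (e ⟨l j.1, zpowers_le (H := h.S v).2 (h.od o (mem_zpowers _) (h.Nf fM fa _ (by
      have := add_mem y1 (h.Ng y.2 _ y1)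
      rw [pow_two, h.mul]
      rw [map_add] at this
      convert this using 1; exact lc0)))⟩)) (.inr rfl)).1
  omega

theorem f3 (l : Z ≤ X) (lC : C ≤ R) (k : ∀ g ∈ Z, ∀ v ∈ C, T g v = v) : Nat.card Z * Nat.card C ≤ 64 := by
  obtain ⟨e, he⟩ := not_forall.1 (mt (h.nd a) h.a0)
  let f : Z × R → pp β C := fun p => ⟨e + T p.1 e + p.2, fun v j => by
    rw [map_add, AddMonoidHom.add_apply, h.sym, h.fx (k _ p.1.2 v j), h.iso _ p.2.2 v (lC j), add_zero]⟩
  have fi : Function.Injective f := by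
    rintro ⟨⟨x, hx⟩, r, hr⟩ ⟨⟨y, hy⟩, s, hs⟩ k
    have k : e + T x e + r = e + T y e + s := congrArg Subtype.val k
    have m := (h.st x (h.Xa x (l hx))).2 _ (add_mem hr hs)
    rw [show r + s = T x e + T y e from lc k, map_add, h.xx (l hx), ← h.mul] at m
    obtain rfl : x = y := mul_left_cancel ((h.X2 x (l hx)).trans (h.Xe _ (mul_mem (l hx) (l hy)) e (z2' _ he) m).symm)
    obtain rfl : r = s := lc k
    rfl
  have a1 := Nat.card_le_card_of_injective f fi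
  have a2 := h.orth C
  rw [Nat.card_prod, h.main.2.1] at a1
  nlinarith

theorem dec (l : Z ≤ M ⊓ X) (k : ∀ g ∈ Z, ∀ v ∈ C, T g v = v) (n : ∀ v ∈ C, β a v = 0 ∧ β (T d a) v = 0) :
    Nat.card Z * Nat.card Z * Nat.card C ≤ 1024 ∧ (1024 ≤ Nat.card Z * Nat.card Z * Nat.card C →
      ∀ u ∈ pp β C, ∃ r ∈ R, ∃ s ∈ R, u = r + T d s ∧ r ∈ pp β C ∧ s ∈ pp β C) := by
  obtain ⟨v0, a0, a1⟩ := h.v0
  have wR : ∀ x ∈ Z, v0 + T x v0 ∈ R := fun x i => h.Xp x (l i).2 _ a0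
  have wP : ∀ x ∈ Z, ∀ u, u + T x u ∈ pp β C := fun x i u v j => (h.sym _ _).trans (h.fx (k x i v j) u)
  have nP : NN (T d) a ≤ pp β C := ex_le (ex_le bot_le fun v j => (n v j).1) fun v j => (n v j).2
  have w12 : ∀ x ∈ Z, ∀ y ∈ Z, v0 + T x v0 + (v0 + T y v0) ∈ NN (T d) a → x = y := fun x i y j m => by
    refine mul_left_cancel ((h.X2 x (l i).2).trans (h.wn a1 (l (mul_mem i j)).2 (l (mul_mem i j)).1 (h.NR (h.Nω _ ?_))).symm)
    have := add_mem m (h.XN (l i).2 (wR y j))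
    rw [map_add] at this
    rw [h.mul]; convert this using 1; exact lc0
  let f : Z × Z × NN (T d) a → pp β C := fun p => ⟨v0 + T p.1 v0 + p.2.2 + T d (v0 + T p.2.1 v0),
    add_mem (add_mem (wP _ p.1.2 _) (nP p.2.2.2)) (by rw [map_add, ← h.cω (l p.2.1.2).1]; exact wP _ p.2.1.2 _)⟩
  have fi : Function.Injective f := by
    rintro ⟨⟨x, hx⟩, ⟨y, hy⟩, r, hr⟩ ⟨⟨x', hx'⟩, ⟨y', hy'⟩, s, hs⟩ e
    have e : v0 + T x v0 + r + T d (v0 + T y v0) = v0 + T x' v0 + s + T d (v0 + T y' v0) := congrArg Subtype.val e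
    obtain rfl : y = y' := w12 y hy y' hy' (h.main.2.2.2 _ (add_mem (wR y hy) (wR y' hy')) (by
      rw [map_add, show T d (v0 + T y v0) + T d (v0 + T y' v0) = v0 + T x v0 + r + (v0 + T x' v0 + s) from lc e]
      exact add_mem (add_mem (wR x hx) (h.NR hr)) (add_mem (wR x' hx') (h.NR hs))))
    obtain rfl : x = x' := w12 x hx x' hx' (by
      rw [show v0 + T x v0 + (v0 + T x' v0) = r + s from lc e]; exact add_mem hr hs)
    obtain rfl : r = s := lc e
    rfl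
  have b1 := Nat.card_le_card_of_injective f fi
  have b2 := h.orth C
  have b3 : 0 < Nat.card C := Nat.card_pos
  rw [Nat.card_prod, Nat.card_prod, h.cN] at b1
  refine ⟨by nlinarith, fun c u i => ?_⟩
  obtain ⟨⟨x, y, r⟩, e⟩ := (fi.bijective_of_nat_card_le (by rw [Nat.card_prod, Nat.card_prod, h.cN]; nlinarith)).2 ⟨u, i⟩
  exact ⟨_, add_mem (wR _ x.2) (h.NR r.2), _, wR _ y.2, (congrArg Subtype.val e).symm, add_mem (wP _ x.2 _) (nP r.2), wP _ y.2 _⟩

theorem decN (i : β a v = 0) (j : β (T d a) v = 0) : ∃ r ∈ R, ∃ s ∈ R, v = r + T d s := by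
  obtain ⟨r, a1, s, a2, e, -⟩ := (h.dec (C := NN (T d) a) le_rfl (fun g i => h.Nf i.1 (h.Xa g i.2))
    fun v i => ⟨h.iso _ h.aR _ (h.NR i), h.iso _ h.main.1 _ (h.NR i)⟩).2 (by rw [h.orb2.1, h.cN]) v
    (ex_le (ex_le bot_le ((h.sym _ _).trans i)) ((h.sym _ _).trans j) : NN (T d) a ≤ (β v).ker)
  exact ⟨r, a1, s, a2, e⟩

end Hy
end H01.XF
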