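import Mathlib
import Cfsg.Agent.H01.XH1

/-!
# The module `Q/Z(Q)` for `2^{1+12}.3.U₄(3).2`, part 6 (namespace `H01.XF`)

`pkS : PkS`.
-/

set_option autoImplicit false
set_option linter.unusedSectionVars false
open Cfsg H01.XS Subgroup BG Equiv
open H01.XT hiding Hy QS

namespace H01.XF
universe u
variable {V : Type u} [AddCommGroup V] [Module (ZMod 2) V] [Finite V] {Γ : Type u} [Group Γ] [Finite Γ]
  {T : Γ → V →+ V} {d x y g : Γ} {M X Z S : Subgroup Γ} {β : V →+ V →+ ZMod 2} {q : V → ZMod 2} {a u v w : V}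
  {R U W C P L : AddSubgroup V}

theorem half {K H : Subgroup Γ} (l : K ≤ H) (k : ∀ x ∈ H, ∀ y ∈ H, x ∉ K → y ∉ K → x * y ∈ K) : Nat.card H ≤ 2 * Nat.card K := by
  have a := card_inf_mul_relIndex K H
  rw [inf_eq_left.2 l] at a
  by_cases e : H ≤ K
  · have := card_le_of_le e; omega
  obtain ⟨x, i, n⟩ := SetLike.not_le_iff_exists.1 e
  have : K.relIndex H ∣ 2 := index_dvd_two_iff.2 ⟨⟨x, i⟩, fun y => (em (y.1 ∈ K)).symm.imp (fun m => k y y.2 x i m n) id⟩
  have := Nat.le_of_dvd two_pos this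
  nlinarith

theorem Hy.line (h : Hy T d M X β q a R) (lS : S ≤ h.S a) (cS : Nat.card S = 256) : ∃ L : AddSubgroup V, NN (T d) a ≤ L ∧ L ≤ R ∧
    16 ≤ Nat.card L ∧ (∀ u ∈ L, ∀ v ∈ L, β u (T d v) = 0) ∧ ∃ Y ≤ S, 16 ≤ Nat.card Y ∧ ∀ g ∈ Y, ∀ v ∈ L, T g v = v := by
  have pS : IsPGroup 2 S := IsPGroup.of_card (n := 8) cS
  have cR := h.main.2.1
  have cN := h.cN
  have SR : ∀ g ∈ S, ∀ v ∈ R, T g v ∈ R := fun g i => (h.st g (lS i)).2
  have SN : ∀ g ∈ S, ∀ v ∈ NN (T d) a, T g v ∈ NN (T d) a := fun g i => h.Ng (lS i)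
  obtain ⟨r, rR, rN, hr⟩ := h.up pS SN SR fun e => by have := AddSubgroup.card_le_of_le e; omega
  have c1 := card_ex rN
  have c1' := card_ex_le (U := NN (T d) a) (v := r)
  have SU : ∀ g ∈ S, ∀ v ∈ ex (NN (T d) a) r, T g v ∈ ex (NN (T d) a) r := fun g i =>
    (ex_le (fun v j => le_ex (SN g i v j)) (show T g r ∈ ex _ r from .inr (add_comm r _ ▸ hr g i)) :
      ex (NN (T d) a) r ≤ (ex (NN (T d) a) r).comap (T g))
  obtain ⟨s, ⟨sR, rs⟩, sN, hs⟩ := h.up (W := R ⊓ ((β r).comp (T d)).ker) pS SU (fun g i v j => ⟨SR g i v j.1, by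
    have a1 := h.hg (g := g) rR j.1
    have a2 := h.hN (SR g i v j.1) (hr g i)
    have a3 : β r (T d v) = 0 := j.2
    show β r (T d (T g v)) = 0
    rw [map_add, map_add, h.hs (SR g i v j.1) (SR g i r rR), a1, a3, add_zero, h.hs (SR g i v j.1) rR] at a2
    exact a2⟩) fun e => by
      obtain ⟨w, i, n⟩ := not_forall₂.1 (mt (h.rad rR) rN)
      have : R ≤ ex (ex (NN (T d) a) r) w := fun v j => (z2 (β r (T d v))).imp (fun k => e ⟨j, k⟩) fun k => e ⟨add_mem j i, by
        show β r (T d (v + w)) = 0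
        rw [map_add, map_add, k, z2' _ n]; rfl⟩
      have := AddSubgroup.card_le_of_le this
      have := card_ex_le (U := ex (NN (T d) a) r) (v := w)
      omega
  replace rs : β r (T d s) = 0 := rs
  have c2 := card_ex sN
  obtain ⟨L, hL⟩ : ∃ L, L = ex (ex (NN (T d) a) r) s := ⟨_, rfl⟩
  have NL : NN (T d) a ≤ L := hL ▸ le_ex.trans le_ex
  have LR : L ≤ R := hL ▸ ex_le (ex_le h.NR rR) sR
  have ind : ∀ U, NN (T d) a ≤ U → r ∈ U → s ∈ U → L ≤ U := fun U i j k => hL ▸ ex_le (ex_le i j) k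
  have kr : ∀ u ∈ R, NN (T d) a ≤ ((β u).comp (T d)).ker := fun u i v j => h.hN i j
  have ti : ∀ u ∈ L, ∀ v ∈ L, β u (T d v) = 0 := fun u i => ind _ (kr u (LR i))
    ((h.hs (LR i) rR).trans (ind _ (kr r rR) (h.ha rR) rs i))
    ((h.hs (LR i) sR).trans (ind _ (kr s sR) ((h.hs sR rR).trans rs) (h.ha sR) i))
  have cL : 16 ≤ Nat.card L := by rw [hL]; omega
  have Lp : ∀ u ∈ R, (∀ v ∈ L, β u (T d v) = 0) → u ∈ L := fun u i k => by
    by_contra n
    have b1 := card_ex n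
    have f1 : R ≤ pp β (ex L u) := fun v j w o => h.iso v j w (ex_le LR i o)
    have f2 : ∀ v ∈ L, T d v ∈ pp β (ex L u) := fun v j w o => (h.sym _ _).trans
      ((ex_le (fun w o => ti w o v j) (k v j) : ex L u ≤ (β.flip (T d v)).ker) o)
    have b2 := h.orth (ex L u)
    have b4 := grow (ex_le f1 (f2 r (hL ▸ le_ex self_ex))) (f2 s (hL ▸ self_ex)) fun m =>
      sN (m.imp (h.main.2.2.2 s sR) fun m => h.main.2.2.2 _ (add_mem sR rR) (map_add (T d) s r ▸ m))
    have b5 := card_ex (U := R) (v := T d r) fun m => rN (h.main.2.2.2 r rR m)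
    nlinarith
  let K : Subgroup Γ :=
    { carrier := {g | g ∈ M ⊓ S ∧ s + T g s ∈ NN (T d) a}
      one_mem' := ⟨one_mem _, by rw [h.one, show s + s = 0 from lc0]; exact zero_mem _⟩
      mul_mem' := fun {x y} i j => ⟨mul_mem i.1 j.1, by
        have := add_mem i.2 (SN x i.1.2 _ j.2)
        rw [map_add] at this
        rw [h.mul]; convert this using 1; exact lc0⟩
      inv_mem' := fun {x} i => ⟨inv_mem i.1, by
        have := SN _ (inv_mem i.1.2) _ i.2
        rwa [map_add, h.li, add_comm] at this⟩ }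
  have KL : ∀ g ∈ K, ∀ v ∈ L, v + T g v ∈ NN (T d) a := fun g i =>
    ind ((NN (T d) a).comap (AddMonoidHom.id V + T g)) (fun v j => add_mem j (SN g i.1.2 v j)) (hr g i.1.2) i.2
  have k1 := half (K := M ⊓ S) inf_le_right fun x i y j m n =>
    ⟨(mul_mem_iff_of_index_two h.Mi).2 (iff_of_false (fun e => m ⟨e, i⟩) fun e => n ⟨e, j⟩), mul_mem i j⟩
  have k2 := half (K := K) (H := M ⊓ S) (fun _ i => i.1) fun x i y j m n => ⟨mul_mem i j, by
    have a1 := (hs x i.2).resolve_left fun e => m ⟨i, e⟩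
    have a2 := (hs y j.2).resolve_left fun e => n ⟨j, e⟩
    have := add_mem (add_mem a1 (SN x i.2 _ a2)) (hr x i.2)
    simp only [map_add] at this
    rw [h.mul]; convert this using 1; exact lc0⟩
  have Ka : ∀ g ∈ K, ∀ v ∈ L, T g v = v ∨ T g v = v + a := fun g i => by
    by_cases m : g ∈ X
    · exact fun v j => h.XR g m v (LR j)
    have gS := i.1.2
    have t : ∀ v ∈ R, v + T g v ∈ L := fun v j => Lp _ (add_mem j (SR g gS v j)) fun w k => by
      have a1 := h.hg (g := g) j (LR k)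
      have a2 := h.hN (SR g gS v j) (KL g i w k)
      rw [map_add, map_add, a1] at a2
      rw [map_add, AddMonoidHom.add_apply, add_comm]; exact a2
    have g2 : g * g ∈ X := h.ntv (mul_mem (lS gS) (lS gS)) le_rfl (by omega) fun v j => by
      have := KL g i _ (t v j)
      rw [map_add] at this
      rw [h.mul]; convert this using 1; exact lc0
    let L1 : AddSubgroup V := L ⊓ (ex ⊥ a).comap (AddMonoidHom.id V + T g)
    have m1 : ∀ v, v ∈ L1 ↔ v ∈ L ∧ (T g v = v ∨ T g v = v + a) := fun v => and_congr_right fun _ =>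
      or_congr ⟨fun e => lc (show v + T g v = 0 from e), fun e => show v + T g v = 0 from lc e⟩
        ⟨fun e => lc (show v + T g v + a = 0 from e), fun e => show v + T g v + a = 0 from lc e⟩
    have t1 : ∀ v ∈ R, v + T g v ∈ L1 := fun v j => (m1 _).2 ⟨t v j, by
      rw [map_add, ← h.mul]
      rcases h.XR _ g2 v j with e | e <;> rw [e]
      exacts [.inl lc0, .inr lc0]⟩
    have N1 : NN (T d) a ≤ L1 := fun v j => (m1 v).2 ⟨NL j, .inl (h.Nf i.1.1 (lS gS) v j)⟩
    by_contra! n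
    obtain ⟨v, j, n⟩ := n
    have b1 := grow (U := L1) inf_le_left j fun e => ((m1 v).1 e).2.elim n.1 n.2
    have b2 : Nat.card L ≤ 16 := by have := card_ex_le (U := ex (NN (T d) a) r) (v := s); rw [hL]; omega
    refine m (h.ntv (lS gS) (P := R ⊓ (NN (T d) a).comap (AddMonoidHom.id V + T g)) inf_le_left ?_ fun r j => j.2)
    by_cases e : R ≤ R ⊓ (NN (T d) a).comap (AddMonoidHom.id V + T g)
    · have := AddSubgroup.card_le_of_le e; omega
    obtain ⟨w, o, e⟩ := SetLike.not_le_iff_exists.1 e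
    have b3 := card_ex (U := NN (T d) a) (v := w + T g w) fun k => e ⟨o, k⟩
    have b4 := AddSubgroup.eq_of_le_of_card_ge (ex_le N1 (t1 w o)) (by omega)
    have b5 := AddSubgroup.card_le_of_le (show R ≤ ex (R ⊓ (NN (T d) a).comap (AddMonoidHom.id V + T g)) w from fun u k =>
      (b4.ge (t1 u k)).imp (fun e => ⟨k, e⟩) fun e => ⟨add_mem k o, by
        show u + w + T g (u + w) ∈ NN (T d) a
        rw [map_add]; convert e using 1; exact lc0⟩)
    have b6 := card_ex_le (U := R ⊓ (NN (T d) a).comap (AddMonoidHom.id V + T g)) (v := w)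
    omega
  have hf : ∀ v ∈ L, ∀ H ≤ K, Nat.card H ≤ 2 * Nat.card ↥(H ⊓ h.S v) := fun v j H l =>
    half inf_le_left fun x i y k m n => ⟨mul_mem i k, by
      show T (x * y) v = v
      rw [h.mul, (Ka y (l k) v j).resolve_left fun e => n ⟨k, e⟩, map_add, (Ka x (l i) v j).resolve_left fun e => m ⟨i, e⟩,
        show T x a = a from lS (l i).1.2]
      exact lc0⟩
  have k3 := hf r (hL ▸ le_ex self_ex) K le_rfl
  have k4 := hf s (hL ▸ self_ex) (K ⊓ h.S r) inf_le_left
  exact ⟨L, NL, LR, cL, ti, K ⊓ h.S r ⊓ h.S s, fun g i => i.1.1.1.2, by omega, fun g i =>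
    ind ((T g).eqLocus (AddMonoidHom.id V)) (h.Nf i.1.1.1.1 (lS i.1.1.1.2)) i.1.2 i.2⟩

end H01.XF
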