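import Mathlib
import Cfsg.Agent.H01.XH2

/-!
# The module `Q/Z(Q)` for `2^{1+12}.3.U₄(3).2`, part 7 (namespace `H01.XF`)

`pkS : PkS`.
-/

set_option autoImplicit false
set_option linter.unusedSectionVars false
open Cfsg H01.XS Subgroup BG Equiv
open H01.XT hiding Hy QS

namespace H01.XF
universe u

set_option maxHeartbeats 2000000 in
theorem pkS : PkS.{u} := by
  intro V _ _ _ Γ _ _ T d M X β q a R h S lS cS
  obtain ⟨L, NL, LR, cL, ti, Y0, Y0S, cY0, Y0L⟩ := h.line lS cS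
  obtain ⟨i1701, lX, φ, e1, e2⟩ := h.orb
  have cR := h.main.2.1
  have cX := h.main.2.2.1
  have cN := h.cN
  have aL : a ∈ L := NL (le_ex self_ex)
  obtain ⟨B, hB⟩ : ∃ B, B = L ⊔ L.map (T d) := ⟨_, rfl⟩
  have mB : ∀ v, v ∈ B ↔ ∃ r ∈ L, ∃ s ∈ L, r + T d s = v := fun v => by
    rw [hB, AddSubgroup.mem_sup]
    exact ⟨fun ⟨r, i, _, ⟨s, j, e⟩, e'⟩ => ⟨r, i, s, j, e ▸ e'⟩, fun ⟨r, i, s, j, e⟩ => ⟨r, i, _, ⟨s, j, rfl⟩, e⟩⟩
  have LB : L ≤ B := hB ▸ le_sup_left
  have qB : ∀ v ∈ B, q v = 0 := fun v i => by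
    obtain ⟨r, i', s, j, rfl⟩ := (mB v).1 i
    rw [h.pol, h.qT, h.qR r (LR i'), h.qR s (LR j), ti r i' s j]; rfl
  have iB : ∀ u ∈ B, ∀ v ∈ B, β u v = 0 := fun u i v j => by
    have := h.pol u v
    rw [qB u i, qB v j, qB _ (add_mem i j)] at this; exact lc this
  have b1 := h.iso64 iB
  have b2 : Nat.card L * Nat.card L ≤ 4 * Nat.card B := by
    let ψ : L × L →+ V := L.subtype.coprod ((T d).comp L.subtype)
    have a1 := ψ.ker.card_mul_index
    rw [AddSubgroup.index_ker, Nat.card_prod] at a1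
    have a2 := AddSubgroup.card_le_of_le (show ψ.range ≤ B by rintro _ ⟨⟨r, s⟩, rfl⟩; exact (mB _).2 ⟨r, r.2, s, s.2, rfl⟩)
    have k : ∀ p : ψ.ker, T d p.1.2 = p.1.1 := fun p => lc (show p.1.1.1 + T d p.1.2 = 0 from p.2)
    have a3 := Nat.card_le_card_of_injective (fun p : ψ.ker => (⟨p.1.2, h.main.2.2.2 _ (LR p.1.2.2) (k p ▸ LR p.1.1.2)⟩ : NN (T d) a))
      fun p p' e => by
        have e : p.1.2.1 = p'.1.2.1 := congrArg (fun x : NN (T d) a => x.1) e
        exact Subtype.ext (Prod.ext (Subtype.ext (by rw [← k p, ← k p', e])) (Subtype.ext e))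
    rw [← a1, cN] at *
    exact Nat.mul_le_mul a3 a2
  have cL' : Nat.card L = 16 := by nlinarith
  have cB : Nat.card B = 64 := by rw [cL'] at b2; omega
  let Y : Subgroup Γ :=
    { carrier := {g | ∀ v ∈ L, T g v = v}
      one_mem' := fun v _ => h.one v
      mul_mem' := fun i j v k => by rw [h.mul, j v k, i v k]
      inv_mem' := fun {g} i v k => by rw [← i v k, h.li, i v k] }
  have Ya : Y ≤ h.S a := fun g i => i a aL
  have YM : Y ≤ M := fun g i => by
    by_contra n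
    have := h.iv n a
    rw [i a aL, i _ (NL self_ex)] at this
    exact h.a0 (lc this)
  have YB : ∀ g ∈ Y, ∀ v ∈ B, T g v = v := fun g i v j => by
    obtain ⟨r, j', s, k, rfl⟩ := (mB v).1 j
    rw [map_add, h.cω (YM i), i r j', i s k]
  have Y2 : ∀ g ∈ Y, g * g = 1 := fun g i => h.fai _ fun v => by
    have := YB g i _ (h.perp iB (by omega) (w := v + T g v) fun u j => (h.sym _ _).trans (h.fx (YB g i u j) v))
    rw [map_add] at this
    rw [h.mul]; exact lc this
  have cφ : ∀ E ≤ h.S a, Nat.card ↥(X ⊓ E) * Nat.card ((E.subgroupOf (h.S a)).map φ) = Nat.card E := fun E l => by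
    have := card_inf_mul_relIndex φ.ker (E.subgroupOf (h.S a))
    rwa [relIndex_ker, e1, show X.subgroupOf (h.S a) ⊓ E.subgroupOf (h.S a) = (X ⊓ E).subgroupOf (h.S a) from rfl,
      Nat.card_congr (subgroupOfEquivOfLe (inf_le_right.trans l)).toEquiv, Nat.card_congr (subgroupOfEquivOfLe l).toEquiv] at this
  have c4 : ∀ E : Subgroup Γ, (∀ g ∈ E, g * g = 1) → Nat.card ((E.subgroupOf (h.S a)).map φ) ≤ 4 := fun E k =>
    e4 (e2 ▸ map_le_range _ _) (by rintro _ ⟨g, i, rfl⟩; rw [← map_mul, show g * g = 1 from Subtype.ext (k g i), map_one])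
  have y1 := h.f3 (Z := X ⊓ Y) inf_le_left LR fun g i => i.2
  have y2 := cφ Y Ya
  have y3 := c4 Y Y2
  have y4 := card_le_of_le (show Y0 ≤ Y from Y0L)
  rw [cL'] at y1
  have cY : Nat.card Y = 16 := by nlinarith
  have y5 : 4 ≤ Nat.card ((Y.subgroupOf (h.S a)).map φ) := by nlinarith
  have YS : Y ≤ S := (Subgroup.eq_of_le_of_card_ge (show Y0 ≤ Y from Y0L) (by omega)).ge.trans Y0S
  have XS : X ≤ S := by
    have a1 : Nat.card (h.S a) * 1701 = 19595520 := by rw [← i1701, (h.S a).card_mul_index, h.cΓ]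
    refine (isSylowIn_mk Nat.prime_two lS (IsPGroup.of_card (n := 8) cS) ?_).le_of_norm_pg Nat.prime_two
      (IsPGroup.of_card (n := 5) cX) lX (le_norm_iff.2 fun g i => (h.st g (lS i)).1)
    have := card_inf_mul_relIndex S (h.S a)
    rw [inf_eq_left.2 lS, cS] at this; omega
  have s8 := cφ S lS
  rw [inf_eq_left.2 XS, cX, cS] at s8
  have nt : ∀ g ∈ Y, g ∉ X → ∀ r ∈ R, r + T g r ∈ NN (T d) a → r ∈ L := fun g i n r j k => by
    by_contra m
    have := card_ex m
    exact n (h.ntv (Ya i) (ex_le LR j) (by omega) (ex_le (fun v o => show v + T g v ∈ NN (T d) a by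
      rw [i v o, show v + v = 0 from lc0]; exact zero_mem _) k : ex L r ≤ (NN (T d) a).comap (AddMonoidHom.id V + T g)))
  refine ⟨L, B, Y, aL, LR, LB, cL', cB, qB, fun v i => ?_, fun _ => Iff.rfl, YB, YS, YM, cY, Y2, fun E ES E2 B' iB' EB c => ?_,
    fun B' iB' c LB' k => ?_⟩
  · obtain ⟨r, i', s, j, rfl⟩ := (mB v).1 i
    exact (mB _).2 ⟨s, j, r + s, add_mem i' j, by simp only [map_add, h.ω2]; exact lc0⟩
  · have z1 := cφ E (ES.trans lS)
    have z2' := c4 E E2
    have z3 := h.iso64 iB'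
    have z4 := half (K := M ⊓ (X ⊓ E)) inf_le_right fun x i y j m n =>
      ⟨(mul_mem_iff_of_index_two h.Mi).2 (iff_of_false (fun e => m ⟨e, i⟩) fun e => n ⟨e, j⟩), mul_mem i j⟩
    have z5 : 4 ≤ Nat.card ↥(X ⊓ E) := by nlinarith
    obtain ⟨x, ⟨xM, xX, xE⟩, x1⟩ := exists_mem_ne_one (A := M ⊓ (X ⊓ E)) fun e => by rw [e, card_bot] at z4; omega
    have pN : ∀ v ∈ B', β a v = 0 ∧ β (T d a) v = 0 := fun v i => by
      have t : ∀ w, T x w = w → β a w = 0 := fun w e => (z2 _).resolve_right fun k =>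
        x1 (h.Xe x xX w k (by rw [e, show w + w = 0 from lc0]; exact zero_mem _))
      have := t (T d (T d v)) (by rw [h.cω xM, h.cω xM, EB x xE v i])
      rw [h.aω, h.βT] at this
      exact ⟨t v (EB x xE v i), this⟩
    by_cases m : X ⊓ E ≤ M
    swap
    · obtain ⟨y, ⟨yX, yE⟩, n⟩ := SetLike.not_le_iff_exists.1 m
      have := h.f3 (Z := X ⊓ E) (C := B') inf_le_left (fun v i => by
        obtain ⟨r, j, s, k, rfl⟩ := h.decN (pN v i).1 (pN v i).2
        have e := EB y yE _ i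
        rw [map_add, h.iv n] at e
        have a1 := add_mem (add_mem (h.XN yX j) (h.XN yX k)) (h.Nω _ (h.XN yX k))
        rw [map_add, show r + T y r + (s + T y s) + (T d s + T d (T y s)) = s from lc e] at a1
        exact add_mem j (h.NR (h.Nω _ a1))) fun g i => EB g i.2
      nlinarith
    obtain ⟨d1, d2⟩ := h.dec (Z := X ⊓ E) (C := B') (le_inf m inf_le_left) (fun g i => EB g i.2) pN
    have z6 : 256 ≤ Nat.card ↥(X ⊓ E) * Nat.card B' := by nlinarith
    have z7 : Nat.card ↥(X ⊓ E) = 4 := by nlinarith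
    rw [z7] at z1 z6 d2
    have z8 : 4 ≤ Nat.card ((E.subgroupOf (h.S a)).map φ) := by nlinarith
    obtain ⟨_, ⟨⟨y, yY, rfl⟩, e, eE, ey⟩, y1⟩ := exists_mem_ne_one
      (A := (Y.subgroupOf (h.S a)).map φ ⊓ (E.subgroupOf (h.S a)).map φ) fun o => by
        have a1 := card_inf_mul_relIndex ((Y.subgroupOf (h.S a)).map φ) ((E.subgroupOf (h.S a)).map φ)
        have l1 : (Y.subgroupOf (h.S a)).map φ ≤ (S.subgroupOf (h.S a)).map φ := map_mono fun _ i => YS i
        have a2 := card_inf_mul_relIndex ((Y.subgroupOf (h.S a)).map φ) ((S.subgroupOf (h.S a)).map φ)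
        have a3 := relIndex_le_of_le_right (H := (Y.subgroupOf (h.S a)).map φ)
          (show (E.subgroupOf (h.S a)).map φ ≤ (S.subgroupOf (h.S a)).map φ from map_mono fun _ i => ES i) (relIndex_ne_zero _ _)
        rw [o, card_bot] at a1
        rw [inf_eq_left.2 l1] at a2
        nlinarith
    have ye : y.1 * e.1⁻¹ ∈ X := e1.le (show φ (y * e⁻¹) = 1 by rw [map_mul, map_inv, ey, mul_inv_cancel])
    have t : ∀ r ∈ R, r ∈ pp β B' → r ∈ L := fun r i j => nt y yY (fun k => y1 (e1.ge k)) r i (by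
      have := h.XN ye i
      rwa [h.mul, EB e.1⁻¹ (inv_mem eE) r (h.perp iB' (by omega) j)] at this)
    refine AddSubgroup.eq_of_le_of_card_ge (fun v i => ?_) (by omega)
    obtain ⟨r, a1, s, a2, rfl, a3, a4⟩ := d2 (by omega) v (iB' v i)
    exact (mB _).2 ⟨r, t r a1 a3, s, t s a2 a4, rfl⟩
  · refine AddSubgroup.eq_of_le_of_card_ge (fun v i => ?_) (by omega)
    have a1 := half (K := Y ⊓ h.S v) inf_le_left fun x j y o m n => ⟨mul_mem j o, by
      show T (x * y) v = v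
      rw [h.mul, (k y o v i).resolve_left fun e => n ⟨o, e⟩, map_add, (k x j v i).resolve_left fun e => m ⟨j, e⟩, j a aL]
      exact lc0⟩
    obtain ⟨y, ⟨yY, yv⟩, n⟩ := SetLike.not_le_iff_exists.1 fun e : Y ⊓ h.S v ≤ X => by
      have := card_le_of_le (le_inf e inf_le_left); omega
    obtain ⟨r, j, s, o, rfl⟩ := h.decN (iB' a (LB' aL) v i) (iB' _ (LB' (NL self_ex)) v i)
    replace yv : T y (r + T d s) = r + T d s := yv
    rw [map_add, h.cω (YM yY)] at yv
    have yR := (h.st y (Ya yY)).2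
    have e : T d (s + T y s) = r + T y r := by rw [map_add]; exact lc yv
    have a2 := h.main.2.2.2 _ (add_mem o (yR s o)) (e ▸ add_mem j (yR r j))
    exact (mB _).2 ⟨r, nt y yY n r j (e ▸ h.Nω _ a2), s, nt y yY n s o a2, rfl⟩

end H01.XF
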