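import Cfsg.Agent.H23.Y0
import Cfsg.Agent.H26.JE

/-! The last clause of part `Pa` of S5569. -/

set_option autoImplicit false
open Cfsg BG Subgroup H01.XS Cfsg.Agent.H06.J Cfsg.Agent.H23.K

namespace H01.YE
universe u

variable {G : Type u} [Group G] [Finite G] {z : G} {Q : Subgroup G}
  {V : Type u} [AddCommGroup V] [Module (ZMod 2) V] [Finite V] {Γ : Type u} [Group Γ] [Finite Γ]
  {f : C_[z] →* Γ} {π : G → Γ} {ν : G → V} {T : Γ → V →+ V} {d : Γ} {M : Subgroup Γ} {β : V →+ V →+ ZMod 2}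
  {q : V → ZMod 2} {K Y : Subgroup Γ} {B : AddSubgroup V} {A : Subgroup G} {δ : G}

theorem e (s : Bj z Q f π ν T d M β q) (x : Cx s K Y B A δ) (c : C2 s Y B A δ)
    (c256 : ∀ y ∈ Y, y ≠ 1 → {v | T y v = v}.ncard = 256) (t : G) (tz : t ∈ C_[z]) (t2 : t * t = 1) (tY : π t ∈ Y)
    (tQ : t ∉ Q) : ∃ c ∈ A, c ∈ C_[δ] ∧ c ∉ s.md.pull B ∧ ∀ c' : G, c' = c ∨ c' = c * z →
      16 ≤ {x | t * x = x * t ∧ ∃ r ∈ Q, x = r * c' * r⁻¹}.ncard := by
  have l := s.md.lx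
  have g := s.gm
  obtain ⟨a, aA, aδ, ay⟩ := c.YA _ tY
  have y1 : π t ≠ 1 := fun e => tQ ((s.ker t tz).1 e)
  have az := x.Az aA
  have zc : ∀ y ∈ C_[z], y * z = z * y := fun y o => mem_cent1.1 o
  have iv : ∀ y ∈ A, y⁻¹ = y := fun y i => inv_eq_of_mul_eq_one_right (x.A2 y i)
  have cm : ∀ y ∈ A, ∀ w ∈ A, y * w = w * y := fun y i w j => by rw [← iv _ (mul_mem i j), mul_inv_rev, iv y i, iv w j]
  have zQ : z ∈ Q := l.aes.mem
  have zA : z ∈ A := (c.e3.ge (show z ∈ s.md.pull B from ⟨zQ, s.md.zz ▸ zero_mem _⟩)).1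
  have QN : Q ≤ N_(A) := fun y o => (c.mN y (l.le o)).2 fun v i => by rwa [(s.ker y (l.le o)).2 o, g.one]
  have nQ : ∀ y ∈ C_[z], ∀ r ∈ Q, y * r * y⁻¹ ∈ Q := fun y i r o => (mem_normalizer_iff.1 (l.norm i) r).1 o
  have v2 : ∀ v : V, v + v = 0 := fun v => by rw [← two_smul (ZMod 2) v, show (2 : ZMod 2) = 0 from rfl, zero_smul]
  have νi : ∀ r ∈ Q, ν r⁻¹ = ν r := fun r o => by
    have := s.md.mul r o _ (inv_mem o)
    rw [mul_inv_cancel, s.md.one] at this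
    rw [← neg_eq_of_add_eq_zero_right this.symm, neg_eq_of_add_eq_zero_right (v2 _)]
  obtain ⟨p, hp⟩ : ∃ p, p = t * a := ⟨_, rfl⟩
  have pQ : p ∈ Q := (s.ker _ (hp ▸ mul_mem tz az)).1 (by rw [hp, _root_.H26.JE.mul s t tz a az, ay, x.hk.hx.Y2 _ tY])
  have tp : t = p * a := by rw [hp, mul_assoc, x.A2 a aA, mul_one]
  have pa : a * p * a⁻¹ = p := c.cz a az aδ p pQ (by
    rw [s.act a az p pQ, ← νi p pQ, iv a aA]
    congr 1
    refine (inv_eq_of_mul_eq_one_right ?_).symm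
    rw [← t2, tp]; group)
  refine ⟨a, aA, aδ, fun i => y1 (ay ▸ (s.ker a az).2 i.1), fun b hb => ?_⟩
  have bA : b ∈ A := by rcases hb with rfl | rfl; exacts [aA, mul_mem aA zA]
  have bz := x.Az bA
  have by' : π b = π t := by
    rcases hb with rfl | rfl
    · exact ay
    · rw [_root_.H26.JE.mul s a az z (l.le zQ), (s.ker z (l.le zQ)).2 zQ, mul_one, ay]
  have pb : Commute p b := by
    have : Commute p a := (mul_inv_eq_iff_eq_mul.1 pa).symm
    rcases hb with rfl | rfl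
    · exact this
    · exact this.mul_right (zc p (l.le pQ))
  let φ : V →+ V := AddMonoidHom.id V + T (π t)
  have ck : Nat.card φ.ker = 256 := by
    rw [← c256 _ tY y1, ← Nat.card_coe_set_eq]
    refine Nat.card_congr (Equiv.subtypeEquivRight fun v => ?_)
    show v + T (π t) v = 0 ↔ T (π t) v = v
    rw [add_eq_zero_iff_neg_eq, neg_eq_of_add_eq_zero_right (v2 v), eq_comm]
  have cr : Nat.card φ.range = 16 := by
    have := φ.ker.card_mul_index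
    rw [ck, AddSubgroup.index_ker, g.card] at this
    omega
  rw [← cr]
  refine (Nat.card_coe_set_eq (φ.range : Set V)).le.trans
    ((Set.ncard_le_ncard ?_ (Set.toFinite _)).trans (Set.ncard_image_le (f := fun y => ν (y * b⁻¹)) (Set.toFinite _)))
  rintro _ ⟨v, rfl⟩
  obtain ⟨r, rQ, rfl⟩ := s.md.sur v
  refine ⟨r * b * r⁻¹, ⟨?_, r, rQ, rfl⟩, ?_⟩
  · have h1 : Commute (r⁻¹ * a * r⁻¹⁻¹) b := cm _ ((mem_normalizer_iff.1 (QN (inv_mem rQ)) a).1 aA) b bA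
    have h2 : Commute (r⁻¹ * p * r⁻¹⁻¹) b := by
      rcases l.cm (inv_mem rQ) pQ with w | w
      · rwa [w, mul_inv_cancel_right]
      · rw [w, mul_inv_cancel_right]; exact Commute.mul_left (zc b bz).symm pb
    have h3 := (h2.mul_left h1).eq
    calc t * (r * b * r⁻¹) = r * (r⁻¹ * p * r⁻¹⁻¹ * (r⁻¹ * a * r⁻¹⁻¹) * b) * r⁻¹ := by rw [tp]; group
      _ = _ := by rw [h3, tp]; group
  · show ν (r * b * r⁻¹ * b⁻¹) = ν r + T (π t) (ν r)
    rw [mul_assoc r, mul_assoc r, s.md.mul r rQ _ (nQ b bz _ (inv_mem rQ)), ← s.act b bz _ (inv_mem rQ), νi r rQ, by']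

end H01.YE
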